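import Mathlib
import Cfsg.Agent.Lib.Oct.Co

/-! Finite Moufang octagons (blueprint/FS8): definitions. -/

set_option autoImplicit false

open scoped commutatorElement

namespace FS8

open H78.Oct H78.Oct.Co

/-- The root groups of a Moufang octagon, indexed by the integers with period sixteen. -/
structure W8 (G : Type*) [Group G] where
  /-- the root groups -/
  U : ℤ → Subgroup G
  per : ∀ i, U (i + 16) = U i
  comm' : ∀ i j, i < j → j < i + 8 → ∀ x ∈ U i, ∀ y ∈ U j,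
    ⁅x, y⁆ ∈ ⨆ k ∈ Set.Icc (i + 1) (j - 1), U k
  ind' : ∀ i, Disjoint (⨆ k ∈ Set.Icc i (i + 7), U k) (⨆ k ∈ Set.Icc (i + 8) (i + 15), U k)
  ne : ∀ i, ∃ x ∈ U i, x ≠ 1
  mu' : ∀ i, ∀ x ∈ U i, x ≠ 1 → ∃ k ∈ U (i + 8), ∃ l ∈ U (i + 8), ∀ j y,
    y ∈ U j ↔ (k * x * l) * y * (k * x * l)⁻¹ ∈ U (2 * i + 8 - j)

theorem iSup_add {G : Type*} [Group G] (U : ℤ → Subgroup G) (c i j : ℤ) :
    ⨆ k ∈ Set.Icc i j, U (k + c) = ⨆ k ∈ Set.Icc (i + c) (j + c), U k := by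
  refine le_antisymm (iSup₂_le fun k hk => le_iSup₂_of_le (k + c) ⟨by linarith [hk.1], by linarith [hk.2]⟩ le_rfl)
    (iSup₂_le fun k hk => le_iSup₂_of_le (k - c) ⟨by linarith [hk.1], by linarith [hk.2]⟩ (by simp))

theorem iSup_sub {G : Type*} [Group G] (U : ℤ → Subgroup G) (c i j : ℤ) :
    ⨆ k ∈ Set.Icc i j, U (c - k) = ⨆ k ∈ Set.Icc (c - j) (c - i), U k := by
  refine le_antisymm (iSup₂_le fun k hk => le_iSup₂_of_le (c - k) ⟨by linarith [hk.2], by linarith [hk.1]⟩ le_rfl)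
    (iSup₂_le fun k hk => le_iSup₂_of_le (c - k) ⟨by linarith [hk.2], by linarith [hk.1]⟩ (by simp))

namespace W8

variable {G : Type*} [Group G] (W : W8 G)

/-- The window `U i ⋯ U j`. -/
def I (i j : ℤ) : Subgroup G := ⨆ k ∈ Set.Icc i j, W.U k

/-- `m` induces the reflection `j ↦ c - j`. -/
def Ref (m : G) (c : ℤ) : Prop := ∀ j y, y ∈ W.U j ↔ m * y * m⁻¹ ∈ W.U (c - j)

/-- `h` normalises all root groups. -/
def Tor (h : G) : Prop := ∀ j y, y ∈ W.U j ↔ h * y * h⁻¹ ∈ W.U j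

/-- `k = κ(x)`, `l = λ(x)` for `1 ≠ x ∈ U i`. -/
structure Mu (i : ℤ) (x k l : G) : Prop where
  mem : x ∈ W.U i
  ne : x ≠ 1
  k_mem : k ∈ W.U (i + 8)
  l_mem : l ∈ W.U (i + 8)
  ref : W.Ref (k * x * l) (2 * i + 8)

/-- `m = μ(x)` for `1 ≠ x ∈ U i`. -/
def M (i : ℤ) (x m : G) : Prop := ∃ k l, W.Mu i x k l ∧ m = k * x * l

/-- The central elations of `U i`. -/
def V (i : ℤ) : Subgroup G where
  carrier := {a | a ∈ W.U i ∧ ∀ j, i - 4 ≤ j → j ≤ i + 4 → ∀ u ∈ W.U j, Commute a u}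
  one_mem' := ⟨one_mem _, fun _ _ _ _ _ => Commute.one_left _⟩
  mul_mem' h h' := ⟨mul_mem h.1 h'.1, fun j h1 h2 u hu => (h.2 j h1 h2 u hu).mul_left (h'.2 j h1 h2 u hu)⟩
  inv_mem' h := ⟨inv_mem h.1, fun j h1 h2 u hu => (h.2 j h1 h2 u hu).inv_left⟩

/-- The window `U 1 ⋯ U 8` has a nontrivial centre. -/
def Cen : Prop := ∃ z ∈ W.I 1 8, z ≠ 1 ∧ ∀ k, 1 ≤ k → k ≤ 8 → ∀ u ∈ W.U k, Commute z u

/-- There are central elations at the even places. -/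
def Ev : Prop := ∀ j, Even j → ∃ a ∈ W.V j, a ≠ 1

theorem mem_V {i : ℤ} {a : G} :
    a ∈ W.V i ↔ a ∈ W.U i ∧ ∀ j, i - 4 ≤ j → j ≤ i + 4 → ∀ u ∈ W.U j, Commute a u := Iff.rfl

theorem comm {i j : ℤ} (h1 : i < j) (h2 : j < i + 8) {x y : G} (hx : x ∈ W.U i) (hy : y ∈ W.U j) :
    ⁅x, y⁆ ∈ W.I (i + 1) (j - 1) := W.comm' i j h1 h2 x hx y hy

theorem ind (i : ℤ) : Disjoint (W.I i (i + 7)) (W.I (i + 8) (i + 15)) := W.ind' i

theorem exists_Mu {i : ℤ} {x : G} (hx : x ∈ W.U i) (h : x ≠ 1) : ∃ k l, W.Mu i x k l := by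
  obtain ⟨k, hk, l, hl, e⟩ := W.mu' i x hx h
  exact ⟨k, l, hx, h, hk, hl, e⟩

theorem exists_M {i : ℤ} {x : G} (hx : x ∈ W.U i) (h : x ≠ 1) : ∃ m, W.M i x m := by
  obtain ⟨k, l, e⟩ := W.exists_Mu hx h
  exact ⟨_, k, l, e, rfl⟩

/-- Shift of the indices. -/
def sh (c : ℤ) : W8 G where
  U i := W.U (i + c)
  per i := by rw [add_right_comm, W.per]
  comm' i j h1 h2 x hx y hy := by
    rw [iSup_add, add_right_comm, sub_add_eq_add_sub]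
    exact W.comm' _ _ (by omega) (by omega) x hx y hy
  ind' i := by
    rw [iSup_add, iSup_add, add_right_comm i 7, add_right_comm i 8, add_right_comm i 15]
    exact W.ind' _
  ne i := W.ne _
  mu' i x hx h := by
    obtain ⟨k, hk, l, hl, e⟩ := W.mu' _ x hx h
    rw [add_right_comm] at hk hl
    exact ⟨k, hk, l, hl, fun j y => by rw [e]; congr! 2; ring⟩

/-- Reflection of the indices. -/
def rf (c : ℤ) : W8 G where
  U i := W.U (c - i)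
  per i := by rw [← W.per]; congr 1; ring
  comm' i j h1 h2 x hx y hy := by
    rw [iSup_sub, ← commutatorElement_inv, inv_mem_iff, show c - (j - 1) = c - j + 1 by ring,
      show c - (i + 1) = c - i - 1 by ring]
    exact W.comm' _ _ (by omega) (by omega) y hy x hx
  ind' i := by
    rw [iSup_sub, iSup_sub]
    have := (W.ind' (c - (i + 15))).symm
    rwa [show c - (i + 15) + 8 = c - (i + 7) by ring, show c - (i + 15) + 15 = c - i by ring,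
      show c - (i + 15) + 7 = c - (i + 8) by ring] at this
  ne i := W.ne _
  mu' i x hx h := by
    obtain ⟨k, hk, l, hl, e⟩ := W.mu' _ x hx h
    rw [show c - i + 8 = c - (i + 8) + 16 by ring, W.per] at hk hl
    exact ⟨k, hk, l, hl, fun j y => by
      rw [e, show 2 * (c - i) + 8 - (c - j) = c - (2 * i + 8 - j) + 16 by ring, W.per]⟩

@[simp] theorem sh_U (c i : ℤ) : (W.sh c).U i = W.U (i + c) := rfl

@[simp] theorem rf_U (c i : ℤ) : (W.rf c).U i = W.U (c - i) := rfl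

@[simp] theorem sh_I (c i j : ℤ) : (W.sh c).I i j = W.I (i + c) (j + c) := iSup_add W.U c i j

@[simp] theorem rf_I (c i j : ℤ) : (W.rf c).I i j = W.I (c - j) (c - i) := iSup_sub W.U c i j

@[simp] theorem sh_V (c i : ℤ) : (W.sh c).V i = W.V (i + c) := by
  ext a
  refine and_congr Iff.rfl ⟨fun h j h1 h2 u hu => h (j - c) (by omega) (by omega) u (by simpa using hu),
    fun h j h1 h2 u hu => h (j + c) (by omega) (by omega) u hu⟩

@[simp] theorem rf_V (c i : ℤ) : (W.rf c).V i = W.V (c - i) := by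
  ext a
  refine and_congr Iff.rfl ⟨fun h j h1 h2 u hu => h (c - j) (by omega) (by omega) u (by simpa using hu),
    fun h j h1 h2 u hu => h (c - j) (by omega) (by omega) u hu⟩

@[simp] theorem sh_Ref (c d : ℤ) (m : G) : (W.sh c).Ref m d ↔ W.Ref m (d + 2 * c) := by
  refine ⟨fun h j y => ?_, fun h j y => ?_⟩
  · have := h (j - c) y
    rwa [sh_U, sh_U, sub_add_cancel, show d - (j - c) + c = d + 2 * c - j by ring] at this
  · rw [sh_U, sh_U, h, show d + 2 * c - (j + c) = d - j + c by ring]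

@[simp] theorem rf_Ref (c d : ℤ) (m : G) : (W.rf c).Ref m d ↔ W.Ref m (2 * c - d) := by
  refine ⟨fun h j y => ?_, fun h j y => ?_⟩
  · have := h (c - j) y
    rwa [rf_U, rf_U, sub_sub_cancel, show c - (d - (c - j)) = 2 * c - d - j by ring] at this
  · rw [rf_U, rf_U, h, show 2 * c - d - (c - j) = c - (d - j) by ring]

@[simp] theorem sh_Tor (c : ℤ) (h : G) : (W.sh c).Tor h ↔ W.Tor h :=
  ⟨fun e j y => by simpa using e (j - c) y, fun e j y => e _ y⟩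

@[simp] theorem rf_Tor (c : ℤ) (h : G) : (W.rf c).Tor h ↔ W.Tor h :=
  ⟨fun e j y => by simpa using e (c - j) y, fun e j y => e _ y⟩

theorem Ref_per (m : G) (c : ℤ) : W.Ref m (c + 16) ↔ W.Ref m c := by
  simp only [Ref, show ∀ j, c + 16 - j = c - j + 16 from fun j => by ring, W.per]

@[simp] theorem sh_Mu (c i : ℤ) (x k l : G) : (W.sh c).Mu i x k l ↔ W.Mu (i + c) x k l := by
  refine ⟨fun h => ⟨h.mem, h.ne, ?_, ?_, ?_⟩, fun h => ⟨h.mem, h.ne, ?_, ?_, ?_⟩⟩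
  · rw [add_right_comm]; exact h.k_mem
  · rw [add_right_comm]; exact h.l_mem
  · have := h.ref
    rwa [sh_Ref, show 2 * i + 8 + 2 * c = 2 * (i + c) + 8 by ring] at this
  · rw [sh_U, add_right_comm]; exact h.k_mem
  · rw [sh_U, add_right_comm]; exact h.l_mem
  · rw [sh_Ref, show 2 * i + 8 + 2 * c = 2 * (i + c) + 8 by ring]; exact h.ref

@[simp] theorem rf_Mu (c i : ℤ) (x k l : G) : (W.rf c).Mu i x k l ↔ W.Mu (c - i) x k l := by
  have e1 : W.U (c - i + 8) = W.U (c - (i + 8)) := by rw [← W.per (c - (i + 8))]; congr 1; ring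
  have e2 : W.Ref (k * x * l) (2 * (c - i) + 8) ↔ W.Ref (k * x * l) (2 * c - (2 * i + 8)) := by
    rw [← W.Ref_per _ (2 * c - _), show 2 * c - (2 * i + 8) + 16 = 2 * (c - i) + 8 by ring]
  exact ⟨fun h => ⟨h.mem, h.ne, e1 ▸ h.k_mem, e1 ▸ h.l_mem, e2.2 ((W.rf_Ref _ _ _).1 h.ref)⟩,
    fun h => ⟨h.mem, h.ne, e1 ▸ h.k_mem, e1 ▸ h.l_mem, (W.rf_Ref _ _ _).2 (e2.1 h.ref)⟩⟩

@[simp] theorem sh_M (c i : ℤ) (x m : G) : (W.sh c).M i x m ↔ W.M (i + c) x m := by simp only [M, sh_Mu]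

@[simp] theorem rf_M (c i : ℤ) (x m : G) : (W.rf c).M i x m ↔ W.M (c - i) x m := by simp only [M, rf_Mu]

variable {W}

theorem Ev.sh (h : W.Ev) {c : ℤ} (hc : Even c) : (W.sh c).Ev := fun j hj => by
  rw [sh_V]; exact h _ (hj.add hc)

theorem Ev.rf (h : W.Ev) {c : ℤ} (hc : Even c) : (W.rf c).Ev := fun j hj => by
  rw [rf_V]; exact h _ (hc.sub hj)

end W8

/-- The `i`-th root component. -/
def rt {K : Type*} [Field K] (i : Fin 8) (a : Co K) : Co K :=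
  ![x1 a.a1, y2 a.a2 a.b2, x3 a.a3, y4 a.a4 a.b4, x5 a.a5, y6 a.a6 a.b6, x7 a.a7, y8 a.a8 a.b8] i

/-- The normal form word. -/
def nuF {K G : Type*} [Group G] (x : ℤ → K → G) (y : ℤ → K → K → G) (a : Co K) : G :=
  x 1 a.a1 * y 2 a.a2 a.b2 * x 3 a.a3 * y 4 a.a4 a.b4 * x 5 a.a5 * y 6 a.a6 a.b6 * x 7 a.a7 *
    y 8 a.a8 a.b8

/-- `P = Z₂ U₃ ⋯ U₈`. -/
def P {K : Type*} [Field K] [Tits K] : Subgroup (Co K) where
  carrier := {a | a.a1 = 0 ∧ a.a2 = 0}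
  mul_mem' := fun ha hb => by simp_all
  one_mem' := by simp
  inv_mem' := fun ha => by simp_all

@[simp] theorem mem_P {K : Type*} [Field K] [Tits K] {a : Co K} : a ∈ (P : Subgroup (Co K)) ↔
    a.a1 = 0 ∧ a.a2 = 0 := Iff.rfl

/-- Coordinates on the odd root groups and on the central elations. -/
structure C1 {G : Type*} [Group G] (W : W8 G) (K : Type) [Field K] where
  /-- odd root groups -/
  x : ℤ → K → G
  /-- central elations -/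
  z : ℤ → K → G
  /-- `μ(x 1 1)` -/
  n1 : G
  /-- `μ(z 8 1)` -/
  n2 : G
  ev : W.Ev
  xm : ∀ i, Odd i → ∀ g, g ∈ W.U i ↔ ∃ t, g = x i t
  zm : ∀ j, Even j → ∀ g, g ∈ W.V j ↔ ∃ u, g = z j u
  xa : ∀ i s t, x i (s + t) = x i s * x i t
  za : ∀ j s t, z j (s + t) = z j s * z j t
  xi : ∀ i, Odd i → Function.Injective (x i)
  zi : ∀ j, Even j → Function.Injective (z j)
  m1 : W.M 1 (x 1 1) n1
  m2 : W.M 8 (z 8 1) n2
  s1 : n1 * n1 = 1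
  s2 : n2 * n2 = 1
  x1 : ∀ i t, n1 * x i t * n1⁻¹ = x (10 - i) t
  x2 : ∀ i t, n2 * x i t * n2⁻¹ = x (8 - i) t
  z1 : ∀ j u, n1 * z j u * n1⁻¹ = z (10 - j) u
  z2 : ∀ j u, n2 * z j u * n2⁻¹ = z (8 - j) u
  be : ∀ t u, (x 1 t)⁻¹ * z 6 u * x 1 t = z 4 (t * u) * z 6 u

namespace C1

variable {G : Type*} [Group G] {W : W8 G} {K : Type} [Field K] (C : C1 W K)

/-- `h` acts by scalars. -/
def Sc (h : G) (w : ℤ → Kˣ) : Prop :=
  (∀ i, Odd i → ∀ t, h * C.x i t * h⁻¹ = C.x i (w i * t)) ∧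
    ∀ j, Even j → ∀ u, h * C.z j u * h⁻¹ = C.z j (w j * u)

/-- The defining properties of the Tits automorphism. -/
structure Sg [Tits K] : Prop where
  ps : ∀ u m t, W.M 8 (C.z 8 u) m → m * C.x 1 t * m⁻¹ = C.x 7 (σ u * t)
  e46 : ∀ s u, ∃ e ∈ W.U 5, C.z 8 u * C.z 2 s * (C.z 8 u)⁻¹ =
    C.z 2 s * C.z 4 (σ s * u) * e * C.z 6 (σ u * s)

/-- `h` acts as the torus element `tor c k` of the model. -/
def Tz [Tits K] (h : G) (c k : Kˣ) : Prop := ∀ a : Co K,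
  h * C.x 1 a.a1 * h⁻¹ = C.x 1 (tor c k a).a1 ∧ h * C.z 2 a.b2 * h⁻¹ = C.z 2 (tor c k a).b2 ∧
  h * C.x 3 a.a3 * h⁻¹ = C.x 3 (tor c k a).a3 ∧ h * C.z 4 a.b4 * h⁻¹ = C.z 4 (tor c k a).b4 ∧
  h * C.x 5 a.a5 * h⁻¹ = C.x 5 (tor c k a).a5 ∧ h * C.z 6 a.b6 * h⁻¹ = C.z 6 (tor c k a).b6 ∧
  h * C.x 7 a.a7 * h⁻¹ = C.x 7 (tor c k a).a7 ∧ h * C.z 8 a.b8 * h⁻¹ = C.z 8 (tor c k a).b8

/-- Conjugation by `n1`. -/
def c1 : G →* G := (MulAut.conj C.n1).toMonoidHom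

/-- Conjugation by `n2`. -/
def c2 : G →* G := (MulAut.conj C.n2).toMonoidHom

theorem c1_apply (g : G) : C.c1 g = C.n1 * g * C.n1⁻¹ := rfl

theorem c2_apply (g : G) : C.c2 g = C.n2 * g * C.n2⁻¹ := rfl

@[simp] theorem c1_x (i : ℤ) (t : K) : C.c1 (C.x i t) = C.x (10 - i) t := C.x1 i t

@[simp] theorem c2_x (i : ℤ) (t : K) : C.c2 (C.x i t) = C.x (8 - i) t := C.x2 i t

@[simp] theorem c1_z (i : ℤ) (t : K) : C.c1 (C.z i t) = C.z (10 - i) t := C.z1 i t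

@[simp] theorem c2_z (i : ℤ) (t : K) : C.c2 (C.z i t) = C.z (8 - i) t := C.z2 i t

@[simp] theorem x_zero (i : ℤ) : C.x i 0 = 1 := by simpa using C.xa i 0 0

@[simp] theorem z_zero (i : ℤ) : C.z i 0 = 1 := by simpa using C.za i 0 0

theorem x_mem {i : ℤ} (h : Odd i) (t : K) : C.x i t ∈ W.U i := (C.xm i h _).2 ⟨t, rfl⟩

theorem z_mem {j : ℤ} (h : Even j) (u : K) : C.z j u ∈ W.V j := (C.zm j h _).2 ⟨u, rfl⟩

end C1

/-- Coordinates on all root groups. -/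
structure C2 {G : Type*} [Group G] (W : W8 G) (K : Type) [Field K] [Tits K] extends C1 W K where
  /-- even root groups -/
  y : ℤ → K → K → G
  sg : toC1.Sg
  ym : ∀ j, Even j → ∀ g, g ∈ W.U j ↔ ∃ s u, g = y j s u
  yi : ∀ j, Even j → ∀ s u s' u', y j s u = y j s' u' → s = s' ∧ u = u'
  y0 : ∀ j u, y j 0 u = z j u
  ya : ∀ j s u s' u', y j s u * y j s' u' = y j (s + s') (s * σ s' + u + u')
  y1 : ∀ j s u, n1 * y j s u * n1⁻¹ = y (10 - j) s u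
  y2 : ∀ j s u, n2 * y j s u * n2⁻¹ = y (8 - j) s u
  n2y : n2 = y 8 1 0 * z 0 1 * (y 8 1 0)⁻¹
  r58 : ∀ s u t, y 8 s u * x 5 t * (y 8 s u)⁻¹ = x 5 t * z 6 (s * t)
  r38 : ∀ s u t, y 8 s u * x 3 t * (y 8 s u)⁻¹ = x 3 t * z 4 (s * σ t) * x 5 (σ s * t) * z 6 (u * t)
  tr : ∀ c k : Kˣ, ∃ h, W.Tor h ∧ ∀ a, h * nuF x y a * h⁻¹ = nuF x y (tor c k a)

namespace C2

variable {G : Type*} [Group G] {W : W8 G} {K : Type} [Field K] [Tits K] (C : C2 W K)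

/-- The normal form map. -/
def ν (a : Co K) : G := nuF C.x C.y a

/-- `ν` is multiplicative on `S`. -/
def Hom (S : Subgroup (Co K)) : Prop := ∀ a ∈ S, ∀ b ∈ S, C.ν (a * b) = C.ν a * C.ν b

@[simp] theorem c1_y (j : ℤ) (s u : K) : C.c1 (C.y j s u) = C.y (10 - j) s u := C.y1 j s u

@[simp] theorem c2_y (j : ℤ) (s u : K) : C.c2 (C.y j s u) = C.y (8 - j) s u := C.y2 j s u

@[simp] theorem y_zero (j : ℤ) : C.y j 0 0 = 1 := by rw [C.y0, C.z_zero]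

theorem y_mem {j : ℤ} (h : Even j) (s u : K) : C.y j s u ∈ W.U j := (C.ym j h _).2 ⟨s, u, rfl⟩

theorem ν_def (a : Co K) : C.ν a = C.x 1 a.a1 * C.y 2 a.a2 a.b2 * C.x 3 a.a3 * C.y 4 a.a4 a.b4 *
    C.x 5 a.a5 * C.y 6 a.a6 a.b6 * C.x 7 a.a7 * C.y 8 a.a8 a.b8 := rfl

@[simp] theorem ν_one : C.ν 1 = 1 := by simp [ν_def]
@[simp] theorem ν_x1 (s : K) : C.ν (Co.x1 s) = C.x 1 s := by simp [ν_def]
@[simp] theorem ν_y2 (s u : K) : C.ν (Co.y2 s u) = C.y 2 s u := by simp [ν_def]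
@[simp] theorem ν_x3 (s : K) : C.ν (Co.x3 s) = C.x 3 s := by simp [ν_def]
@[simp] theorem ν_y4 (s u : K) : C.ν (Co.y4 s u) = C.y 4 s u := by simp [ν_def]
@[simp] theorem ν_x5 (s : K) : C.ν (Co.x5 s) = C.x 5 s := by simp [ν_def]
@[simp] theorem ν_y6 (s u : K) : C.ν (Co.y6 s u) = C.y 6 s u := by simp [ν_def]
@[simp] theorem ν_x7 (s : K) : C.ν (Co.x7 s) = C.x 7 s := by simp [ν_def]
@[simp] theorem ν_y8 (s u : K) : C.ν (Co.y8 s u) = C.y 8 s u := by simp [ν_def]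

theorem ν_prod (a : Co K) : C.ν a = (List.ofFn fun i => C.ν (rt i a)).prod := by
  simp [List.ofFn_succ, rt, mul_assoc, C.ν_def a]

theorem ν_tor (c k : Kˣ) : ∃ h, W.Tor h ∧ ∀ a, h * C.ν a * h⁻¹ = C.ν (tor c k a) := C.tr c k

end C2

/-- The root groups `U 1, .., U 8` are the images of the root groups of the model. -/
structure Rng {G : Type*} [Group G] (U : ℤ → Subgroup G) {K : Type} [Field K] [Tits K]
    (nf : Co K →* G) : Prop where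
  inj : Function.Injective nf
  r1 : ∀ g, g ∈ U 1 ↔ ∃ s, g = nf (x1 s)
  r2 : ∀ g, g ∈ U 2 ↔ ∃ s u, g = nf (y2 s u)
  r3 : ∀ g, g ∈ U 3 ↔ ∃ s, g = nf (x3 s)
  r4 : ∀ g, g ∈ U 4 ↔ ∃ s u, g = nf (y4 s u)
  r5 : ∀ g, g ∈ U 5 ↔ ∃ s, g = nf (x5 s)
  r6 : ∀ g, g ∈ U 6 ↔ ∃ s u, g = nf (y6 s u)
  r7 : ∀ g, g ∈ U 7 ↔ ∃ s, g = nf (x7 s)
  r8 : ∀ g, g ∈ U 8 ↔ ∃ s u, g = nf (y8 s u)

theorem eqns_defs : True := by
  have := @W8.I.eq_1.{0}
  have := @W8.Ref.eq_1.{0}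
  have := @W8.Tor.eq_1.{0}
  have := @W8.M.eq_1.{0}
  have := @W8.V.eq_1.{0}
  have := @W8.Cen.eq_1.{0}
  have := @W8.Ev.eq_1.{0}
  have := @W8.sh.eq_1.{0}
  have := @W8.rf.eq_1.{0}
  have := @rt.eq_1.{0}
  have := @nuF.eq_1.{0, 0}
  have := @P.eq_1.{0}
  have := @C1.Sc.eq_1.{0}
  have := @C1.Tz.eq_1.{0}
  have := @C1.c1.eq_1.{0}
  have := @C1.c2.eq_1.{0}
  have := @C2.ν.eq_1.{0}
  have := @C2.Hom.eq_1.{0}
  trivial

end FS8
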