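import Mathlib
import Cfsg.Agent.Lib.FS8.Defs

set_option autoImplicit false

open scoped commutatorElement

namespace FS8

open H78.Oct H78.Oct.Co

namespace W8

variable {G : Type*} [Group G] {W : W8 G}

theorem mem_I {i j k : ℤ} (h1 : i ≤ k) (h2 : k ≤ j) {x : G} (hx : x ∈ W.U k) : x ∈ W.I i j :=
  (le_iSup₂_of_le (f := fun k (_ : k ∈ Set.Icc i j) => W.U k) k ⟨h1, h2⟩ le_rfl) hx

theorem I_le {i j : ℤ} {H : Subgroup G} (h : ∀ k, i ≤ k → k ≤ j → W.U k ≤ H) : W.I i j ≤ H :=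
  iSup₂_le fun k hk => h k hk.1 hk.2

theorem I_mono {i j k l : ℤ} (h1 : k ≤ i) (h2 : j ≤ l) {x : G} (hx : x ∈ W.I i j) : x ∈ W.I k l :=
  I_le (fun _ a b _ hy => mem_I (h1.trans a) (b.trans h2) hy) hx

theorem I_empty {i j : ℤ} (h : j < i) {x : G} (hx : x ∈ W.I i j) : x = 1 :=
  Subgroup.mem_bot.1 (I_le (fun _ a b => absurd (a.trans b) h.not_ge) hx)

theorem I_self {i : ℤ} {x : G} : x ∈ W.I i i ↔ x ∈ W.U i :=
  ⟨fun hx => I_le (fun _ a b => le_antisymm a b ▸ le_rfl) hx, mem_I le_rfl le_rfl⟩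

theorem commute_I {i j : ℤ} {a x : G} (h : ∀ k, i ≤ k → k ≤ j → ∀ u ∈ W.U k, Commute a u)
    (hx : x ∈ W.I i j) : Commute a x :=
  (Subgroup.mem_centralizer_singleton_iff.1 (I_le (H := Subgroup.centralizer {a}) (fun k h1 h2 u hu =>
    Subgroup.mem_centralizer_singleton_iff.2 (h k h1 h2 u hu).symm) hx)).symm

theorem adj {i : ℤ} {x y : G} (hx : x ∈ W.U i) (hy : y ∈ W.U (i + 1)) : Commute x y :=
  commutatorElement_eq_one_iff_commute.1 (I_empty (by omega) (W.comm (by omega) (by omega) hx hy))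

theorem V_commute {i j k : ℤ} {a x : G} (ha : a ∈ W.V i) (h1 : i - 4 ≤ j) (h2 : k ≤ i + 4)
    (hx : x ∈ W.I j k) : Commute a x :=
  commute_I (fun l a1 a2 => ha.2 l (h1.trans a1) (a2.trans h2)) hx

theorem U_per (i : ℤ) {j : ℤ} (h : j = i + 16) : W.U j = W.U i := h ▸ W.per i

theorem bas_sh : W.sh 16 = W := by
  obtain ⟨U, per, _, _, _, _⟩ := W
  simp only [sh, W8.mk.injEq]
  exact funext per

theorem V_per (i : ℤ) {j : ℤ} (h : j = i + 16) : W.V j = W.V i := by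
  rw [h, ← sh_V, bas_sh]

theorem I_per (i j : ℤ) {k l : ℤ} (h1 : k = i + 16) (h2 : l = j + 16) : W.I k l = W.I i j := by
  rw [h1, h2, ← sh_I, bas_sh]

theorem Mu_per (i : ℤ) {j : ℤ} (h : j = i + 16) {x k l : G} : W.Mu j x k l ↔ W.Mu i x k l := by
  rw [h, ← sh_Mu, bas_sh]

theorem M_per (i : ℤ) {j : ℤ} (h : j = i + 16) {x m : G} : W.M j x m ↔ W.M i x m := by
  rw [h, ← sh_M, bas_sh]

theorem bas_conj {c a b : ℤ} (h1 : a - 1 ≤ c) (h2 : c ≤ b + 1) (h3 : b ≤ a + 6) {g y : G}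
    (hg : g ∈ W.U c) (hy : y ∈ W.I a b) : g * y * g⁻¹ ∈ W.I a b := by
  refine I_le (H := (W.I a b).comap (MulAut.conj g).toMonoidHom) (fun k k1 k2 u hu => ?_) hy
  show g * u * g⁻¹ ∈ W.I a b
  have uI := mem_I k1 k2 hu
  rcases lt_trichotomy c k with h | h | h
  · have := mul_mem (I_mono (k := a) (l := b) (by omega) (by omega) (W.comm h (by omega) hg hu)) uI
    rwa [commutatorElement_def, inv_mul_cancel_right] at this
  · have gI := mem_I k1 k2 (h ▸ hg)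
    exact mul_mem (mul_mem gI uI) (inv_mem gI)
  · have := mul_mem (inv_mem (I_mono (k := a) (l := b) (by omega) (by omega)
      (W.comm h (by omega) hu hg))) uI
    rwa [commutatorElement_inv, commutatorElement_def, inv_mul_cancel_right] at this

theorem conj_mem {i j a b : ℤ} (h1 : a - 1 ≤ i) (h2 : j ≤ b + 1) (h3 : b ≤ a + 6) {g y : G}
    (hg : g ∈ W.I i j) (hy : y ∈ W.I a b) : g * y * g⁻¹ ∈ W.I a b := by
  refine (Subgroup.mem_normalizer_iff.1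
    (I_le (H := Subgroup.normalizer (W.I a b : Set G)) (fun c c1 c2 u hu => ?_) hg) y).1 hy
  refine Subgroup.mem_normalizer_iff.2 fun z => ⟨bas_conj (by omega) (by omega) h3 hu, fun hz => ?_⟩
  have := bas_conj (c := c) (by omega) (by omega) h3 (inv_mem hu) hz
  rwa [show u⁻¹ * (u * z * u⁻¹) * u⁻¹⁻¹ = z by group] at this

theorem split_lo {i j : ℤ} (h : j ≤ i + 7) {g : G} (hg : g ∈ W.I i j) :
    ∃ a ∈ W.U i, ∃ b ∈ W.I (i + 1) j, g = a * b := by
  have cj : ∀ {a b : G}, a ∈ W.U i → b ∈ W.I (i + 1) j → a⁻¹ * b * a⁻¹⁻¹ ∈ W.I (i + 1) j := fun ha hb => by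
    by_cases hj : j < i + 1
    · rw [I_empty hj hb, mul_one, mul_inv_cancel]; exact one_mem _
    · exact bas_conj (c := i) (by omega) (by omega) (by omega) (inv_mem ha) hb
  let H : Subgroup G :=
    { carrier := {g | ∃ a ∈ W.U i, ∃ b ∈ W.I (i + 1) j, g = a * b}
      one_mem' := ⟨1, one_mem _, 1, one_mem _, (mul_one 1).symm⟩
      mul_mem' := by
        rintro _ _ ⟨a, ha, b, hb, rfl⟩ ⟨a', ha', b', hb', rfl⟩
        exact ⟨a * a', mul_mem ha ha', _, mul_mem (cj ha' hb) hb', by group⟩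
      inv_mem' := by
        rintro _ ⟨a, ha, b, hb, rfl⟩
        exact ⟨a⁻¹, inv_mem ha, _, cj (inv_mem ha) (inv_mem hb), by group⟩ }
  refine I_le (H := H) (fun k k1 k2 u hu => ?_) hg
  rcases eq_or_lt_of_le k1 with rfl | k1
  · exact ⟨u, hu, 1, one_mem _, (mul_one u).symm⟩
  · exact ⟨1, one_mem _, u, mem_I (by omega) k2 hu, (one_mul u).symm⟩

theorem split {i j : ℤ} (h : j ≤ i + 7) (k : ℤ) {g : G} (hg : g ∈ W.I i j) :
    ∃ a ∈ W.I i k, ∃ b ∈ W.I (k + 1) j, g = a * b := by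
  have key : ∀ n : ℕ, ∃ a ∈ W.I i (i - 1 + n), ∃ b ∈ W.I (i - 1 + n + 1) j, g = a * b := fun n => by
    induction n with
    | zero => exact ⟨1, one_mem _, g, I_mono (by omega) le_rfl hg, (one_mul g).symm⟩
    | succ n ih =>
      obtain ⟨a, ha, b, hb, rfl⟩ := ih
      obtain ⟨u, hu, b', hb', rfl⟩ := split_lo (by omega) hb
      exact ⟨a * u, mul_mem (I_mono le_rfl (by omega) ha) (mem_I (by omega) (by omega) hu), b',
        I_mono (by omega) le_rfl hb', (mul_assoc _ _ _).symm⟩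
  by_cases hk : k < i
  · exact ⟨1, one_mem _, g, I_mono (by omega) le_rfl hg, (one_mul g).symm⟩
  · have := key (k - i + 1).toNat
    rwa [show i - 1 + ((k - i + 1).toNat : ℤ) = k by omega] at this

theorem split' {i j : ℤ} (h : j ≤ i + 7) (k : ℤ) {g : G} (hg : g ∈ W.I i j) :
    ∃ a ∈ W.I i k, ∃ b ∈ W.I (k + 1) j, g = b * a := by
  obtain ⟨a, ha, b, hb, e⟩ := split h k (inv_mem hg)
  exact ⟨a⁻¹, inv_mem ha, b⁻¹, inv_mem hb, by rw [← mul_inv_rev, ← e, inv_inv]⟩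

theorem split_hi {i j : ℤ} (h : j ≤ i + 7) {g : G} (hg : g ∈ W.I i j) :
    ∃ a ∈ W.I i (j - 1), ∃ b ∈ W.U j, g = a * b := by
  obtain ⟨a, ha, b, hb, e⟩ := split h (j - 1) hg
  rw [sub_add_cancel] at hb
  exact ⟨a, ha, b, I_self.1 hb, e⟩

theorem disj {i j k l : ℤ} (h1 : j ≤ i + 7) (h2 : j < k) (h3 : l ≤ j + 8) {g : G}
    (hg : g ∈ W.I i j) (hg' : g ∈ W.I k l) : g = 1 :=
  Subgroup.disjoint_def.1 (W.ind (j - 7)) (I_mono (by omega) (by omega) hg) (I_mono (by omega) (by omega) hg')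

theorem inter {i j k l : ℤ} (h1 : j ≤ i + 7) (h2 : i ≤ k) (h3 : k ≤ i + 8) (h4 : l ≤ k + 7) {g : G}
    (hg : g ∈ W.I i j) (hg' : g ∈ W.I k l) : g ∈ W.I k j := by
  obtain ⟨a, ha, b, hb, rfl⟩ := split h1 (k - 1) hg
  rw [sub_add_cancel] at hb
  have := mul_mem (I_mono le_rfl h4 hg') (inv_mem (I_mono le_rfl (show j ≤ k + 7 by omega) hb))
  rw [mul_inv_cancel_right] at this
  rwa [disj (by omega) (by omega) (by omega) ha this, one_mul]

theorem uniq {i j k l : ℤ} (h1 : j ≤ i + 7) (h2 : j < k) (h3 : l ≤ j + 8) {a a' b b' : G}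
    (ha : a ∈ W.I i j) (ha' : a' ∈ W.I i j) (hb : b ∈ W.I k l) (hb' : b' ∈ W.I k l)
    (e : a * b = a' * b') : a = a' ∧ b = b' := by
  have e1 : a'⁻¹ * a = b' * b⁻¹ := by
    calc a'⁻¹ * a = a'⁻¹ * (a * b) * b⁻¹ := by group
      _ = _ := by rw [e]; group
  have := disj h1 h2 h3 (mul_mem (inv_mem ha') ha) (e1 ▸ mul_mem hb' (inv_mem hb))
  obtain rfl := inv_mul_eq_one.1 this
  exact ⟨rfl, mul_left_cancel e⟩

theorem comm_I {i j k l : ℤ} (h1 : i < k) (h2 : j < l) (h3 : l ≤ i + 7) {x y : G}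
    (hx : x ∈ W.I i j) (hy : y ∈ W.I k l) : ⁅x, y⁆ ∈ W.I (i + 1) (l - 1) := by
  by_cases hl : l < k
  · rw [I_empty hl hy, commutatorElement_one_right]; exact one_mem _
  have y1 : y ∈ W.I (i + 1) l := I_mono (by omega) le_rfl hy
  have x1 : x ∈ W.I i (l - 1) := I_mono le_rfl (by omega) hx
  have a : ⁅x, y⁆ ∈ W.I (i + 1) l :=
    mul_mem (conj_mem (by omega) (by omega) (by omega) hx y1) (inv_mem y1)
  have b : ⁅x, y⁆ ∈ W.I i (l - 1) := by
    have := mul_mem x1 (conj_mem (by omega) (by omega) (by omega) hy (inv_mem x1))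
    rwa [show x * (y * x⁻¹ * y⁻¹) = ⁅x, y⁆ by rw [commutatorElement_def]; group] at this
  exact inter (by omega) (by omega) (by omega) (by omega) b a

theorem exists_lo {i j k : ℤ} (h1 : k < i) (h2 : j ≤ k + 7) {g y : G} (hg : g ∈ W.I i j)
    (hy : y ∈ W.U k) : ∃ r ∈ W.I (k + 1) (j - 1), g * y * g⁻¹ = y * r := by
  by_cases hj : j < i
  · exact ⟨1, one_mem _, by simp [I_empty hj hg]⟩
  · exact ⟨_, comm_I h1 (by omega) h2 (I_self.2 (inv_mem hy)) hg, by rw [commutatorElement_def]; group⟩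

theorem exists_hi {i j k : ℤ} (h1 : j < k) (h2 : k ≤ i + 7) {g y : G} (hg : g ∈ W.I i j)
    (hy : y ∈ W.U k) : ∃ r ∈ W.I (i + 1) (k - 1), g * y * g⁻¹ = r * y := by
  by_cases hj : j < i
  · exact ⟨1, one_mem _, by simp [I_empty hj hg]⟩
  · exact ⟨_, comm_I (by omega) h1 h2 hg (I_self.2 hy), by rw [commutatorElement_def]; group⟩

end W8

end FS8
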