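import Mathlib
import Cfsg.Agent.Lib.FS8.Bas

set_option autoImplicit false

open scoped commutatorElement

namespace FS8

open H78.Oct H78.Oct.Co

namespace W8

variable {G : Type*} [Group G] {W : W8 G}

theorem bs2_ne {x : G} (h : x ≠ 1) (g : G) : g * x * g⁻¹ ≠ 1 := fun e => h (by
  have : x = g⁻¹ * (g * x * g⁻¹) * g := by group
  rw [this, e]; group)

theorem Ref.mem {m y : G} {c j : ℤ} (h : W.Ref m c) (hy : y ∈ W.U j) : m * y * m⁻¹ ∈ W.U (c - j) := (h j y).1 hy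

theorem Ref.inv {m : G} {c : ℤ} (h : W.Ref m c) : W.Ref m⁻¹ c := fun j y => by
  rw [h (c - j), sub_sub_cancel]
  congr! 1
  group

theorem Ref.mem' {m y : G} {c j : ℤ} (h : W.Ref m c) (hy : y ∈ W.U j) : m⁻¹ * y * m ∈ W.U (c - j) := by
  simpa using h.inv.mem hy

theorem Ref.mem_I {m y : G} {c i j : ℤ} (h : W.Ref m c) (hy : y ∈ W.I i j) :
    m * y * m⁻¹ ∈ W.I (c - j) (c - i) :=
  I_le (H := (W.I (c - j) (c - i)).comap (MulAut.conj m).toMonoidHom)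
    (fun k h1 h2 u hu => W8.mem_I (k := c - k) (by omega) (by omega) (h.mem hu)) hy

theorem Ref.mem_V {m y : G} {c j : ℤ} (h : W.Ref m c) (hy : y ∈ W.V j) : m * y * m⁻¹ ∈ W.V (c - j) := by
  refine ⟨h.mem hy.1, fun k h1 h2 u hu => ?_⟩
  have := hy.2 (c - k) (by omega) (by omega) _ (h.mem' hu)
  have e : u = m * (m⁻¹ * u * m) * m⁻¹ := by group
  rw [e]
  exact this.conj m

theorem Ref.mem_V' {m y : G} {c j : ℤ} (h : W.Ref m c) (hy : y ∈ W.V j) : m⁻¹ * y * m ∈ W.V (c - j) := by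
  simpa using h.inv.mem_V hy

theorem Ref.mul {m m' : G} {c : ℤ} (h : W.Ref m c) (h' : W.Ref m' c) : W.Tor (m * m') := fun j y => by
  rw [h' j y, h (c - j), sub_sub_cancel]
  congr! 1
  group

theorem Ref.conj {m h : G} {c : ℤ} (hm : W.Ref m c) (hh : W.Tor h) : W.Tor (m * h * m⁻¹) := fun j y => by
  rw [hm.inv j y, hh (c - j), hm (c - j), sub_sub_cancel]
  congr! 1
  group

theorem Ref.card_U {m : G} {c : ℤ} (h : W.Ref m c) (j : ℤ) : Nat.card (W.U (c - j)) = Nat.card (W.U j) :=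
  Nat.card_congr
    { toFun := fun y => ⟨m⁻¹ * y * m, by simpa using h.mem' y.2⟩
      invFun := fun y => ⟨m * y * m⁻¹, h.mem y.2⟩
      left_inv := fun y => Subtype.ext (by simp only []; group)
      right_inv := fun y => Subtype.ext (by simp only []; group) }

theorem Ref.card_V {m : G} {c : ℤ} (h : W.Ref m c) (j : ℤ) : Nat.card (W.V (c - j)) = Nat.card (W.V j) :=
  Nat.card_congr
    { toFun := fun y => ⟨m⁻¹ * y * m, by simpa using h.mem_V' y.2⟩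
      invFun := fun y => ⟨m * y * m⁻¹, h.mem_V y.2⟩
      left_inv := fun y => Subtype.ext (by simp only []; group)
      right_inv := fun y => Subtype.ext (by simp only []; group) }

theorem exists_Ref {c : ℤ} (hc : Even c) : ∃ m, W.Ref m c := by
  obtain ⟨d, rfl⟩ := hc
  obtain ⟨x, hx, h1⟩ := W.ne (d - 4)
  obtain ⟨k, l, e⟩ := W.exists_Mu hx h1
  refine ⟨k * x * l, ?_⟩
  have := e.ref
  rwa [show 2 * (d - 4) + 8 = d + d by ring] at this

theorem Tor.mem {h y : G} {j : ℤ} (hh : W.Tor h) (hy : y ∈ W.U j) : h * y * h⁻¹ ∈ W.U j := (hh j y).1 hy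

theorem Tor.inv {h : G} (hh : W.Tor h) : W.Tor h⁻¹ := fun j y => by
  rw [hh j (h⁻¹ * y * h⁻¹⁻¹)]
  congr! 1
  group

theorem Tor.mul {h h' : G} (hh : W.Tor h) (hh' : W.Tor h') : W.Tor (h * h') := fun j y => by
  rw [hh' j y, hh j]
  congr! 1
  group

theorem Tor.mem_I {h y : G} {i j : ℤ} (hh : W.Tor h) (hy : y ∈ W.I i j) : h * y * h⁻¹ ∈ W.I i j :=
  I_le (H := (W.I i j).comap (MulAut.conj h).toMonoidHom)
    (fun _ h1 h2 _ hu => W8.mem_I h1 h2 (hh.mem hu)) hy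

theorem Tor.mem_V {h y : G} {j : ℤ} (hh : W.Tor h) (hy : y ∈ W.V j) : h * y * h⁻¹ ∈ W.V j := by
  refine ⟨hh.mem hy.1, fun k h1 h2 u hu => ?_⟩
  have := hy.2 k h1 h2 _ (hh.inv.mem hu)
  have e : u = h * (h⁻¹ * u * h⁻¹⁻¹) * h⁻¹ := by group
  rw [e]
  exact this.conj h

theorem Mu.M {i : ℤ} {x k l : G} (h : W.Mu i x k l) : W.M i x (k * x * l) := ⟨k, l, h, rfl⟩

theorem Mu.conj_tor {i : ℤ} {x k l h : G} (e : W.Mu i x k l) (hh : W.Tor h) :
    W.Mu i (h * x * h⁻¹) (h * k * h⁻¹) (h * l * h⁻¹) := by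
  refine ⟨hh.mem e.mem, bs2_ne e.ne h, hh.mem e.k_mem, hh.mem e.l_mem, fun j y => ?_⟩
  rw [hh.inv j y, e.ref j, hh (2 * i + 8 - j)]
  congr! 1
  group

theorem Mu.conj_ref {i c : ℤ} {x k l m : G} (e : W.Mu i x k l) (hm : W.Ref m c) :
    W.Mu (c - i) (m * x * m⁻¹) (m * k * m⁻¹) (m * l * m⁻¹) := by
  have p : W.U (c - i + 8) = W.U (c - (i + 8)) := U_per _ (by ring)
  refine ⟨hm.mem e.mem, bs2_ne e.ne m, p ▸ hm.mem e.k_mem, p ▸ hm.mem e.l_mem, fun j y => ?_⟩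
  rw [hm.inv j y, e.ref (c - j), hm (2 * i + 8 - (c - j)),
    U_per (c - (2 * i + 8 - (c - j))) (j := 2 * (c - i) + 8 - j) (by ring)]
  congr! 1
  group

theorem Mu.inv {i : ℤ} {x k l : G} (e : W.Mu i x k l) : W.Mu i x⁻¹ l⁻¹ k⁻¹ := by
  refine ⟨inv_mem e.mem, inv_ne_one.2 e.ne, inv_mem e.l_mem, inv_mem e.k_mem, ?_⟩
  have : l⁻¹ * x⁻¹ * k⁻¹ = (k * x * l)⁻¹ := by group
  rw [this]
  exact e.ref.inv

theorem Mu.swap {i : ℤ} {x k l : G} (e : W.Mu i x k l) :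
    W.Mu (i + 8) l x ((k * x * l)⁻¹ * k * (k * x * l)) := by
  have p : W.U (i + 8 + 8) = W.U i := U_per _ (by ring)
  have d : ∀ y, y ∈ W.U i → y ∈ W.U (i + 8) → y = 1 := fun y h1 h2 =>
    disj (i := i) (j := i) (k := i + 8) (l := i + 8) (by omega) (by omega) (by omega)
      (I_self.2 h1) (I_self.2 h2)
  have hk : (k * x * l)⁻¹ * k * (k * x * l) ∈ W.U i := by
    have := e.ref.mem' e.k_mem
    rwa [show 2 * i + 8 - (i + 8) = i by ring] at this
  refine ⟨e.l_mem, fun hl => ?_, p ▸ e.mem, p ▸ hk, ?_⟩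
  · have r := e.ref
    rw [hl] at hk r
    have k1 : k = 1 := by
      refine d k ?_ e.k_mem
      have : k = x * ((k * x * 1)⁻¹ * k * (k * x * 1)) * x⁻¹ := by group
      rw [this]
      exact mul_mem (mul_mem e.mem hk) (inv_mem e.mem)
    obtain ⟨y, hy, y1⟩ := W.ne (i + 8)
    refine y1 (d y ?_ hy)
    have h2 := r.mem hy
    rw [show 2 * i + 8 - (i + 8) = i by ring, k1] at h2
    have : y = x⁻¹ * (1 * x * 1 * y * (1 * x * 1)⁻¹) * x := by group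
    rw [this]
    exact mul_mem (mul_mem (inv_mem e.mem) h2) e.mem
  · have : x * l * ((k * x * l)⁻¹ * k * (k * x * l)) = k * x * l := by group
    rw [this, show 2 * (i + 8) + 8 = 2 * i + 8 + 16 by ring, Ref_per]
    exact e.ref

theorem M.mem {i : ℤ} {x m : G} (e : W.M i x m) : x ∈ W.U i := by
  obtain ⟨_, _, h, _⟩ := e
  exact h.mem

theorem M.ne {i : ℤ} {x m : G} (e : W.M i x m) : x ≠ 1 := by
  obtain ⟨_, _, h, _⟩ := e
  exact h.ne

theorem M.ref {i : ℤ} {x m : G} (e : W.M i x m) : W.Ref m (2 * i + 8) := by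
  obtain ⟨_, _, h, rfl⟩ := e
  exact h.ref

theorem M.ref8 {x m : G} (e : W.M 8 x m) : W.Ref m 8 := (W.Ref_per m 8).1 e.ref

theorem M.conj_tor {i : ℤ} {x m h : G} (e : W.M i x m) (hh : W.Tor h) :
    W.M i (h * x * h⁻¹) (h * m * h⁻¹) := by
  obtain ⟨k, l, e, rfl⟩ := e
  exact ⟨_, _, e.conj_tor hh, by group⟩

theorem M.conj_ref {i c : ℤ} {x m n : G} (e : W.M i x m) (hn : W.Ref n c) :
    W.M (c - i) (n * x * n⁻¹) (n * m * n⁻¹) := by
  obtain ⟨k, l, e, rfl⟩ := e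
  exact ⟨_, _, e.conj_ref hn, by group⟩

theorem M.inv {i : ℤ} {x m : G} (e : W.M i x m) : W.M i x⁻¹ m⁻¹ := by
  obtain ⟨k, l, e, rfl⟩ := e
  exact ⟨_, _, e.inv, by group⟩

theorem M.commute {i : ℤ} {x m a : G} (e : W.M i x m) (h1 : Commute a x)
    (h2 : ∀ u ∈ W.U (i + 8), Commute a u) : Commute a m := by
  obtain ⟨k, l, e, rfl⟩ := e
  exact ((h2 k e.k_mem).mul_right h1).mul_right (h2 l e.l_mem)

theorem bs2_step {i k : ℤ} (h : k ≤ i + 7) (h5 : i + 5 ≤ k) {z u : G} (hz : z ∈ W.I i k) (hu : u ∈ W.U k)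
    (h1 : u ≠ 1) (hc : Commute z u) : z ∈ W.I (i + 1) k := by
  obtain ⟨a, ha, w, hw, rfl⟩ := split' h i hz
  by_cases a1 : a = 1
  · rwa [a1, mul_one]
  exfalso
  obtain ⟨κ, l, e⟩ := W.exists_Mu (I_self.1 ha) a1
  have hwk : w * κ⁻¹ ∈ W.I (i + 1) (i + 8) :=
    mul_mem (I_mono le_rfl (by omega) hw) (mem_I (by omega) le_rfl (inv_mem e.k_mem))
  obtain ⟨t, ht, s, hs, est⟩ := split' (by omega) (k - 1) hwk
  rw [sub_add_cancel] at hs
  have hu' : u ∈ W.I k (i + 8) := mem_I le_rfl (by omega) hu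
  have hl : l ∈ W.I k (i + 8) := mem_I (by omega) le_rfl e.l_mem
  have L := e.ref.inv.mem_I (mul_mem (mul_mem (inv_mem hs) hu') hs)
  have T : (κ * a * l)⁻¹ * t * (κ * a * l)⁻¹⁻¹ ∈ W.I (2 * i + 9 - k) (i + 8) :=
    I_mono (by omega) (by omega) (e.ref.inv.mem_I ht)
  have R : l⁻¹ * u * l ∈ W.I (2 * i + 9 - k) (i + 8) :=
    I_mono (by omega) le_rfl (mul_mem (mul_mem (inv_mem hl) hu') hl)
  have q : (κ * a * l)⁻¹ * (s⁻¹ * u * s) * (κ * a * l)⁻¹⁻¹ = ((κ * a * l)⁻¹ * t * (κ * a * l)⁻¹⁻¹) *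
      (l⁻¹ * u * l) * ((κ * a * l)⁻¹ * t * (κ * a * l)⁻¹⁻¹)⁻¹ := by
    have s' : s = w * κ⁻¹ * t⁻¹ := by rw [est]; group
    have u' : u = (w * a)⁻¹ * u * (w * a) := by rw [mul_assoc, ← hc.eq]; group
    conv_rhs => rw [u']
    rw [s']
    group
  have := disj (k := 2 * i + 9 - k) (l := i + 8) (by omega) (by omega) (by omega) L
    (q ▸ mul_mem (mul_mem T R) (inv_mem T))
  refine bs2_ne (x := s⁻¹ * u * s) ?_ _ this
  simpa using bs2_ne h1 s⁻¹

theorem L1 {i k : ℤ} (h : k ≤ i + 7) {z u : G} (hz : z ∈ W.I i k) (hu : u ∈ W.U k) (h1 : u ≠ 1)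
    (hc : Commute z u) : z ∈ W.I (k - 4) k := by
  have key : ∀ n : ℕ, ∀ i, k - 4 - i ≤ n → k ≤ i + 7 → z ∈ W.I i k → z ∈ W.I (k - 4) k := by
    intro n
    induction n with
    | zero => exact fun i h0 _ hz => I_mono (by omega) le_rfl hz
    | succ n ih =>
      intro i h0 h hz
      by_cases h5 : i + 5 ≤ k
      · exact ih (i + 1) (by omega) (by omega) (bs2_step h h5 hz hu h1 hc)
      · exact I_mono (by omega) le_rfl hz
  exact key (k - 4 - i).toNat i (by omega) h hz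

theorem L1' {i k : ℤ} (h : k ≤ i + 7) {z u : G} (hz : z ∈ W.I i k) (hu : u ∈ W.U i) (h1 : u ≠ 1)
    (hc : Commute z u) : z ∈ W.I i (i + 4) := by
  have := L1 (W := W.rf 0) (i := -k) (k := -i) (by omega) (z := z) (u := u) (by simpa using hz)
    (by simpa using hu) h1 hc
  rw [rf_I] at this
  exact I_mono (by omega) (by omega) this

theorem Mu.uniq {i : ℤ} {x k l k' l' : G} (e : W.Mu i x k l) (e' : W.Mu i x k' l') :
    k = k' ∧ l = l' := by
  have T := e'.ref.mul e.ref.inv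
  have hb : k * x * l * (l⁻¹ * l') * (k * x * l)⁻¹ ∈ W.U i := by
    have := e.ref.mem (mul_mem (inv_mem e.l_mem) e'.l_mem)
    rwa [show 2 * i + 8 - (i + 8) = i by ring] at this
  have hk : k' * k⁻¹ ∈ W.U (i + 8) := mul_mem e'.k_mem (inv_mem e.k_mem)
  have q : k' * x * l' * (k * x * l)⁻¹ = k' * k⁻¹ * (k * x * l * (l⁻¹ * l') * (k * x * l)⁻¹) := by group
  rw [q] at T
  generalize hb' : k * x * l * (l⁻¹ * l') * (k * x * l)⁻¹ = b at hb T
  generalize hk' : k' * k⁻¹ = k0 at hk T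
  have b1 : b = 1 := by
    obtain ⟨y, hy, y1⟩ := W.ne (i + 7)
    have a1 := T.mem hy
    have a2 : b * y * b⁻¹ ∈ W.U (i + 7) := by
      have c := adj a1 (y := k0) (by rwa [show i + 7 + 1 = i + 8 by ring])
      have : b * y * b⁻¹ = k0 * b * y * (k0 * b)⁻¹ := by
        calc b * y * b⁻¹ = k0⁻¹ * (k0 * b * y * (k0 * b)⁻¹ * k0) := by group
          _ = _ := by rw [c.eq]; group
      rwa [this]
    obtain ⟨r, hr, er⟩ := exists_hi (i := i) (j := i) (k := i + 7) (by omega) (by omega) (I_self.2 hb) hy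
    have r1 : r = 1 := by
      refine disj (k := i + 7) (l := i + 7) (by omega) (by omega) (by omega) hr (I_self.2 ?_)
      rw [eq_mul_inv_of_mul_eq er.symm]
      exact mul_mem a2 (inv_mem hy)
    rw [r1, one_mul] at er
    have := L1 (i := i) (k := i + 7) le_rfl (mem_I le_rfl (by omega) hb) hy y1
      (mul_inv_eq_iff_eq_mul.1 er)
    exact disj (i := i) (j := i) (by omega) (by omega) (by omega) (I_self.2 hb) this
  rw [b1, mul_one] at T
  have k1 : k0 = 1 := by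
    obtain ⟨y, hy, y1⟩ := W.ne (i + 1)
    have a1 := T.mem hy
    obtain ⟨r, hr, er⟩ := exists_lo (i := i + 8) (j := i + 8) (k := i + 1) (by omega) (by omega)
      (I_self.2 hk) hy
    have r1 : r = 1 := by
      refine disj (i := i + 1) (j := i + 1) (by omega) (by omega) (by omega) (I_self.2 ?_) hr
      rw [eq_inv_mul_of_mul_eq er.symm]
      exact mul_mem (inv_mem hy) a1
    rw [r1, mul_one] at er
    have := L1' (i := i + 1) (k := i + 8) (by omega) (mem_I (by omega) le_rfl hk) hy y1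
      (mul_inv_eq_iff_eq_mul.1 er)
    exact disj (k := i + 8) (l := i + 8) (by omega) (by omega) (by omega) this (I_self.2 hk)
  rw [b1] at hb'
  rw [k1] at hk'
  refine ⟨(mul_inv_eq_one.1 hk').symm, ?_⟩
  have : l⁻¹ * l' = (k * x * l)⁻¹ * (k * x * l * (l⁻¹ * l') * (k * x * l)⁻¹) * (k * x * l) := by group
  rw [hb', mul_one, inv_mul_cancel] at this
  exact inv_mul_eq_one.1 this

theorem M.uniq {i : ℤ} {x m m' : G} (e : W.M i x m) (e' : W.M i x m') : m = m' := by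
  obtain ⟨k, l, e, rfl⟩ := e
  obtain ⟨k', l', e', rfl⟩ := e'
  obtain ⟨rfl, rfl⟩ := e.uniq e'
  rfl

theorem Mu.invol {i : ℤ} {x k l : G} (e : W.Mu i x k l) (h : x * x = 1) : k = l⁻¹ := by
  have := e.inv
  rw [inv_eq_of_mul_eq_one_right h] at this
  exact (e.uniq this).1

theorem M.sq {i : ℤ} {x m : G} (e : W.M i x m) (h : x * x = 1) : m * m = 1 := by
  obtain ⟨k, l, e, rfl⟩ := e
  rw [e.invol h]
  calc l⁻¹ * x * l * (l⁻¹ * x * l) = l⁻¹ * (x * x) * l := by group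
    _ = 1 := by rw [h]; group

theorem Mu.gs {i : ℤ} {a k l w : G} (e : W.Mu i a k l) (h : Commute w k) :
    a⁻¹ * w * a = l * ((k * a * l)⁻¹ * w * (k * a * l)) * l⁻¹ := by
  have _ := e
  calc a⁻¹ * w * a = a⁻¹ * k⁻¹ * (k * w) * a := by group
    _ = _ := by rw [← h.eq]; group

theorem Mu.gs' {i : ℤ} {w k l a : G} (e : W.Mu i w k l) (h : Commute a l) :
    w * a * w⁻¹ = k⁻¹ * (k * w * l * a * (k * w * l)⁻¹) * k := by
  have _ := e
  calc w * a * w⁻¹ = w * (a * l) * l⁻¹ * w⁻¹ := by group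
    _ = _ := by rw [h.eq]; group

theorem sl1 {u m w : G} (e : W.M 1 u m) (hw : w ∈ W.U 8) :
    ∃ r ∈ W.I 3 7, u⁻¹ * w * u = m⁻¹ * w * m * r * w := by
  have hw' : m⁻¹ * w * m ∈ W.U 2 := e.ref.mem' hw
  obtain ⟨k, l, e, rfl⟩ := e
  have g := e.gs (adj hw e.k_mem)
  obtain ⟨r0, h0, e0⟩ := exists_lo (i := 9) (j := 9) (k := 2) (by omega) (by omega) (I_self.2 e.l_mem) hw'
  obtain ⟨r1, h1, e1⟩ := exists_hi (i := 1) (j := 1) (k := 8) (by omega) (by omega)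
    (I_self.2 (inv_mem e.mem)) hw
  rw [inv_inv] at e1
  rw [e0] at g
  refine ⟨r0 * w⁻¹, inter (i := 2) (j := 7) (k := 3) (l := 8) (by omega) (by omega) (by omega) (by omega) ?_
    (mul_mem h0 (mem_I (by omega) le_rfl (inv_mem hw))), by rw [g]; group⟩
  have : r0 * w⁻¹ = ((k * u * l)⁻¹ * w * (k * u * l))⁻¹ * r1 := by
    rw [eq_inv_mul_iff_mul_eq, ← mul_assoc, ← g, e1, mul_inv_cancel_right]
  rw [this]
  exact mul_mem (mem_I le_rfl (by omega) (inv_mem hw')) h1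

theorem sl8 {w m u : G} (e : W.M 8 w m) (hu : u ∈ W.U 1) :
    ∃ r ∈ W.I 2 6, u⁻¹ * w * u = r * (m * u * m⁻¹) * w := by
  have hu' : m * u * m⁻¹ ∈ W.U 7 := e.ref8.mem hu
  obtain ⟨k, l, e, rfl⟩ := e
  have p : W.U (8 + 8) = W.U 0 := U_per 0 rfl
  have g := e.gs' (adj (i := 0) (p ▸ e.l_mem) hu).symm
  obtain ⟨r0, h0, e0⟩ := exists_hi (i := 0) (j := 0) (k := 7) (by omega) (by omega)
    (I_self.2 (inv_mem (p ▸ e.k_mem))) hu'
  obtain ⟨r1, h1, e1⟩ := exists_lo (i := 8) (j := 8) (k := 1) (by omega) (by omega) (I_self.2 e.mem) hu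
  rw [inv_inv] at e0
  rw [e0] at g
  refine ⟨u⁻¹ * r0, inter (i := 1) (j := 6) (k := 2) (l := 7) (by omega) (by omega) (by omega) (by omega)
    (mul_mem (mem_I le_rfl (by omega) (inv_mem hu)) h0) ?_, ?_⟩
  · have : u⁻¹ * r0 = r1 * (k * w * l * u * (k * w * l)⁻¹)⁻¹ := by
      rw [eq_mul_inv_iff_mul_eq, mul_assoc, ← g, e1, inv_mul_cancel_left]
    rw [this]
    exact mul_mem h1 (mem_I (by omega) le_rfl (inv_mem hu'))
  · rw [mul_assoc u⁻¹ r0, ← g]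
    group

theorem ev_of {j : ℤ} (hj : Even j) {a : G} (ha : a ∈ W.V j) (h : a ≠ 1) : W.Ev := by
  intro j' hj'
  obtain ⟨m, hm⟩ := exists_Ref (W := W) (hj'.add hj)
  have := hm.mem_V ha
  rw [add_sub_cancel_right] at this
  exact ⟨_, this, bs2_ne h m⟩

end W8

end FS8
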