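import Mathlib
import Cfsg.Agent.Lib.FS8.Bs2

set_option autoImplicit false

open scoped commutatorElement

namespace FS8

open H78.Oct H78.Oct.Co

namespace W8

variable {G : Type*} [Group G] {W : W8 G}

private theorem cjc {g z y : G} (h : Commute z (g * y * g⁻¹)) : Commute (g⁻¹ * z * g) y := by
  have := h.eq
  show g⁻¹ * z * g * y = y * (g⁻¹ * z * g)
  calc _ = g⁻¹ * (z * (g * y * g⁻¹)) * g := by group
    _ = _ := by rw [this]; group

private theorem ce4 {z : G} (hz : z ∈ W.U 4) (z1 : z ≠ 1)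
    (hc : ∀ k, 1 ≤ k → k ≤ 8 → ∀ u ∈ W.U k, Commute z u) : W.Ev := by
  refine ev_of (j := 4) (by decide) ⟨hz, fun j h1 h2 u hu => ?_⟩ z1
  by_cases hj : 1 ≤ j
  · exact hc j hj (by omega) u hu
  obtain rfl : j = 0 := by omega
  by_cases u1 : u = 1
  · rw [u1]; exact Commute.one_right _
  obtain ⟨κ, l, e⟩ := W.exists_Mu hu u1
  have hκ : κ ∈ W.U 8 := e.k_mem
  have hl : l ∈ W.U 8 := e.l_mem
  have u0 : u ∈ W.I 0 0 := I_self.2 hu
  obtain ⟨r, hr, er⟩ := exists_hi (i := 0) (j := 0) (k := 4) (by norm_num) (by norm_num) (inv_mem u0) hz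
  rw [inv_inv] at er
  have hr' : r ∈ W.I 1 3 := hr
  have h4 : (κ * u * l)⁻¹ * z * (κ * u * l) ∈ W.U 4 := e.ref.mem' hz
  have e1 : (κ * u * l)⁻¹ * z * (κ * u * l) = l⁻¹ * r * l * z := by
    have c1 := (hc 8 (by norm_num) le_rfl κ hκ).eq
    have c2 := (hc 8 (by norm_num) le_rfl l hl).eq
    calc _ = l⁻¹ * (u⁻¹ * (κ⁻¹ * (z * κ)) * u) * l := by group
      _ = l⁻¹ * (u⁻¹ * z * u) * l := by rw [c1, inv_mul_cancel_left]
      _ = l⁻¹ * r * (z * l) := by rw [er]; group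
      _ = _ := by rw [c2]; group
  have h5 : l⁻¹ * r * l ∈ W.U 4 := by
    have := mul_mem h4 (inv_mem hz)
    rwa [e1, mul_inv_cancel_right] at this
  obtain ⟨y, hy, y1⟩ := W.ne 7
  have cy : Commute (u⁻¹ * z * u) y := cjc (commute_I (i := 1) (j := 7)
    (fun k k1 k2 => hc k k1 (by omega))
    (conj_mem (by norm_num) (by norm_num) (by norm_num) u0 (mem_I (by norm_num) le_rfl hy)))
  rw [er] at cy
  have h6 : r * z ∈ W.I 3 7 := L1 (i := 1) (k := 7) (by norm_num)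
    (mul_mem (I_mono le_rfl (by norm_num) hr') (mem_I (by norm_num) (by norm_num) hz)) hy y1 cy
  have h7 : r ∈ W.I 3 7 := by
    have := mul_mem h6 (inv_mem (mem_I (i := 3) (j := 7) (by norm_num) (by norm_num) hz))
    rwa [mul_inv_cancel_right] at this
  have h8 : r ∈ W.I 3 3 := inter (by norm_num) (by norm_num) (by norm_num) (by norm_num) hr' h7
  obtain ⟨r', hr2, er'⟩ := exists_lo (i := 8) (j := 8) (k := 3) (by norm_num) (by norm_num)
    (inv_mem (I_self.2 hl)) (I_self.1 h8)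
  rw [inv_inv] at er'
  have hr3 : r' ∈ W.I 4 7 := hr2
  have h9 : r ∈ W.I 4 7 := by
    have := mul_mem (mem_I (i := 4) (j := 7) le_rfl (by norm_num) h5) (inv_mem hr3)
    rwa [er', mul_inv_cancel_right] at this
  rw [disj (by norm_num) (by norm_num) (by norm_num) h8 h9, one_mul] at er
  show z * u = u * z
  calc _ = u * (u⁻¹ * z * u) := by group
    _ = _ := by rw [er]

private theorem ce45 {a b : G} (ha : a ∈ W.U 4) (hb : b ∈ W.U 5) (b1 : b ≠ 1)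
    (hc : ∀ k, 1 ≤ k → k ≤ 8 → ∀ u ∈ W.U k, Commute (a * b) u) : a = 1 := by
  obtain ⟨m, hm⟩ := exists_Ref (W := W) (c := 10) (by decide)
  obtain ⟨n, hn⟩ := exists_Ref (W := W) (c := 14) (by decide)
  obtain ⟨d, hd⟩ : ∃ d, d = n * (m * a * m⁻¹) * n⁻¹ := ⟨_, rfl⟩
  obtain ⟨e, he⟩ : ∃ e, e = n * (m * b * m⁻¹) * n⁻¹ := ⟨_, rfl⟩
  have d8 : d ∈ W.U 8 := hd ▸ hn.mem (hm.mem ha)
  have e9 : e ∈ W.U 9 := he ▸ hn.mem (hm.mem hb)
  have e1 : e ≠ 1 := by rw [he]; simpa using b1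
  have hc' : ∀ k, 5 ≤ k → k ≤ 12 → ∀ u ∈ W.U k, Commute (d * e) u := fun k k1 k2 u hu => by
    have h1 := hm.mem' (hn.mem' hu)
    have h2 : Commute (a * b) ((n * m)⁻¹ * u * (n * m)⁻¹⁻¹) := by
      have := hc _ (by omega) (by omega) _ h1
      rwa [show m⁻¹ * (n⁻¹ * u * n) * m = (n * m)⁻¹ * u * (n * m)⁻¹⁻¹ by group] at this
    have h3 := cjc h2
    rwa [show (n * m)⁻¹⁻¹ * (a * b) * (n * m)⁻¹ = d * e by rw [hd, he]; group] at h3
  have z45 : a * b ∈ W.I 4 5 :=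
    mul_mem (mem_I le_rfl (by norm_num) ha) (mem_I (by norm_num) le_rfl hb)
  have a4 : a ∈ W.I 4 4 := I_self.2 ha
  have e99 : e ∈ W.I 9 9 := I_self.2 e9
  have de : d * e ∈ W.I 8 9 :=
    mul_mem (mem_I le_rfl (by norm_num) d8) (mem_I (by norm_num) le_rfl e9)
  -- `e⁻¹ z e ∈ I 4 6`
  have h1 : e⁻¹ * (a * b) * e ∈ W.I 4 8 := by
    have hr : ⁅(a * b)⁻¹, e⁻¹⁆ ∈ W.I 5 8 := comm_I (i := 4) (j := 5) (k := 9) (l := 9) (by norm_num)
      (by norm_num) (by norm_num) (inv_mem z45) (inv_mem e99)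
    have := mul_mem (I_mono (k := 4) (l := 8) le_rfl (by norm_num) z45) (I_mono (by norm_num) le_rfl hr)
    rwa [show a * b * ⁅(a * b)⁻¹, e⁻¹⁆ = e⁻¹ * (a * b) * e by
      rw [commutatorElement_def]; group] at this
  obtain ⟨y, hy, y1⟩ := W.ne 2
  have cy : Commute (e⁻¹ * (a * b) * e) y := cjc (commute_I (i := 2) (j := 8)
    (fun k k1 k2 => hc k (by omega) k2)
    (conj_mem (by norm_num) (by norm_num) (by norm_num) e99 (mem_I le_rfl (by norm_num) hy)))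
  have h2 : e⁻¹ * (a * b) * e ∈ W.I 2 6 := L1' (i := 2) (k := 8) (by norm_num)
    (I_mono (by norm_num) le_rfl h1) hy y1 cy
  have h3 : e⁻¹ * (a * b) * e ∈ W.I 4 6 :=
    inter (by norm_num) (by norm_num) (by norm_num) (by norm_num) h2 h1
  have e2 : a⁻¹ * (e⁻¹ * (a * b) * e) * b⁻¹ = a⁻¹ * (d * e)⁻¹ * a * (d * e) := by
    have c1 := (hc 8 (by norm_num) le_rfl d d8).eq
    have c2 := (hc' 5 le_rfl (by norm_num) b hb).eq
    calc _ = a⁻¹ * (e⁻¹ * d⁻¹ * (d * (a * b)) * e) * b⁻¹ := by group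
      _ = a⁻¹ * (d * e)⁻¹ * a * (b * (d * e)) * b⁻¹ := by rw [← c1]; group
      _ = _ := by rw [← c2]; group
  have h4 : a⁻¹ * (d * e)⁻¹ * a * (d * e) ∈ W.I 4 6 := e2 ▸ mul_mem (mul_mem
    (inv_mem (mem_I le_rfl (by norm_num) ha)) h3) (inv_mem (mem_I (by norm_num) (by norm_num) hb))
  have h5 : a⁻¹ * (d * e)⁻¹ * a ∈ W.I 5 9 := by
    have := conj_mem (a := 5) (b := 9) (by norm_num) (by norm_num) (by norm_num) (inv_mem a4)
      (I_mono (by norm_num) le_rfl (inv_mem de))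
    rwa [inv_inv] at this
  obtain ⟨x, hx, x1⟩ := W.ne 11
  have cx : Commute (a⁻¹ * (d * e)⁻¹ * a) x := cjc (commute_I (i := 5) (j := 11)
    (fun k k1 k2 u hu => (hc' k k1 (by omega) u hu).inv_left)
    (conj_mem (by norm_num) (by norm_num) (by norm_num) a4 (mem_I (by norm_num) le_rfl hx)))
  have h6 : a⁻¹ * (d * e)⁻¹ * a ∈ W.I 7 11 := L1 (i := 5) (k := 11) (by norm_num)
    (I_mono le_rfl (by norm_num) h5) hx x1 cx
  have h7 : a⁻¹ * (d * e)⁻¹ * a ∈ W.I 7 9 :=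
    inter (by norm_num) (by norm_num) (by norm_num) (by norm_num) h5 h6
  have h8 := disj (by norm_num) (by norm_num) (by norm_num) h4
    (mul_mem h7 (I_mono (by norm_num) le_rfl de))
  rw [← e2] at h8
  have c3 : Commute (a * b) e := by
    show a * b * e = e * (a * b)
    calc _ = e * a * (a⁻¹ * (e⁻¹ * (a * b) * e) * b⁻¹) * b := by group
      _ = _ := by rw [h8]; group
  have h9 : a * b ∈ W.I 5 9 := L1 (i := 4) (k := 9) (by norm_num)
    (I_mono le_rfl (by norm_num) z45) e9 e1 c3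
  refine disj (k := 5) (l := 9) (by norm_num) (by norm_num) (by norm_num) a4 ?_
  have := mul_mem h9 (inv_mem (mem_I (i := 5) (j := 9) le_rfl (by norm_num) hb))
  rwa [mul_inv_cancel_right] at this

theorem ce (hc : W.Cen) : W.Ev ∨ (W.rf 9).Ev := by
  obtain ⟨z, hz, z1, hc⟩ := hc
  obtain ⟨x, hx, x1⟩ := W.ne 8
  obtain ⟨y, hy, y1⟩ := W.ne 1
  have h1 : z ∈ W.I 4 8 := L1 (i := 1) (k := 8) (by norm_num) hz hx x1 (hc 8 (by norm_num) le_rfl x hx)
  have h2 : z ∈ W.I 1 5 := L1' (i := 1) (k := 8) (by norm_num) hz hy y1 (hc 1 le_rfl (by norm_num) y hy)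
  have h3 : z ∈ W.I 4 5 := inter (by norm_num) (by norm_num) (by norm_num) (by norm_num) h2 h1
  obtain ⟨a, ha, b, hb, rfl⟩ := split_lo (by norm_num) h3
  have hb' : b ∈ W.U 5 := I_self.1 hb
  by_cases b1 : b = 1
  · rw [b1, mul_one] at z1 hc
    exact Or.inl (ce4 ha z1 hc)
  · have a1 := ce45 ha hb' b1 hc
    rw [a1, one_mul] at hc
    exact Or.inr (ce4 (W := W.rf 9) hb' b1 fun k k1 k2 u hu => hc (9 - k) (by omega) (by omega) u hu)

end W8

end FS8
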