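import Mathlib
import Cfsg.Agent.Lib.FS8.Defs

/-! Collection: a normal form map that respects the commutator relations is multiplicative. -/

set_option autoImplicit false
set_option linter.unusedSectionVars false
set_option linter.unusedSimpArgs false

namespace FS8

open H78.Oct H78.Oct.Co

theorem Col.abs {A G : Type*} [Group A] [Group G] (ν : A → G) (n : ℕ) (T : ℕ → Subgroup A) (r : ℕ → A → A)
    (h0 : ∀ a ∈ T n, a = 1) (h1 : ν 1 = 1) (mono : ∀ i j, i ≤ j → T j ≤ T i)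
    (rm : ∀ i < n, ∀ a ∈ T i, r i a ∈ T i) (rd : ∀ i < n, ∀ a ∈ T i, (r i a)⁻¹ * a ∈ T (i + 1))
    (nd : ∀ i < n, ∀ a ∈ T i, ν a = ν (r i a) * ν ((r i a)⁻¹ * a))
    (rmul : ∀ i < n, ∀ a ∈ T i, ∀ b ∈ T i, r i (a * b) = r i a * r i b)
    (rr : ∀ i < n, ∀ a, r i (r i a) = r i a) (r1 : ∀ i < n, ∀ a ∈ T (i + 1), r i a = 1)
    (h : ∀ i j, i ≤ j → j < n → ∀ a ∈ T i, ∀ b ∈ T j, ν (r j b * r i a) = ν (r j b) * ν (r i a)) :
    ∀ a ∈ T 0, ∀ b ∈ T 0, ν (a * b) = ν a * ν b := by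
  refine Nat.decreasingInduction (motive := fun i _ => ∀ a ∈ T i, ∀ b ∈ T i, ν (a * b) = ν a * ν b)
    (fun i hi ih a ha b hb => ?_) (fun a ha b hb => by rw [h0 a ha, one_mul, h1, one_mul]) (Nat.zero_le n)
  have hx := rm i hi b hb
  have nm : ∀ c ∈ T (i + 1), (r i b)⁻¹ * (c * r i b) ∈ T (i + 1) ∧ r i (c * r i b) = r i b := fun c hc => by
    have e : r i (c * r i b) = r i b := by rw [rmul i hi c (mono _ _ i.le_succ hc) _ hx, r1 i hi c hc, rr i hi, one_mul]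
    exact ⟨by simpa only [e] using rd i hi _ (mul_mem (mono _ _ i.le_succ hc) hx), e⟩
  have C : ∀ c ∈ T (i + 1), ν c * ν (r i b) = ν (r i b) * ν ((r i b)⁻¹ * (c * r i b)) := by
    refine Nat.decreasingInduction' (P := fun j => ∀ c ∈ T j, ν c * ν (r i b) = ν (r i b) * ν ((r i b)⁻¹ * (c * r i b)))
      (fun j hj hij ih' c hc => ?_) (show i + 1 ≤ n from hi) fun c hc => by simp [h0 c hc, h1]
    have m1 := mono _ _ hij (rm j hj c hc)
    have m2 := mono _ _ (hij.trans j.le_succ) (rd j hj c hc)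
    rw [nd j hj c hc, mul_assoc, ih' _ (rd j hj c hc), ← mul_assoc, ← h i j (by omega) hj b hb c hc,
      nd i hi _ (mul_mem (mono _ _ i.le_succ m1) hx), (nm _ m1).2, mul_assoc, ← ih _ (nm _ m1).1 _ (nm _ m2).1]
    congr 2; group
  rw [nd i hi _ (mul_mem ha hb), rmul i hi a ha b hb, h i i le_rfl hi b hb a ha, nd i hi a ha, nd i hi b hb,
    mul_assoc, mul_assoc, ← mul_assoc (ν ((r i a)⁻¹ * a)), C _ (rd i hi a ha), mul_assoc,
    ← ih _ (nm _ (rd i hi a ha)).1 _ (rd i hi b hb)]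
  congr 3; group

variable {K : Type} [Field K] [Tits K]

/-- The first `i` root components vanish. -/
def Col.Zr (i : ℕ) : Subgroup (Co K) where
  carrier := {a | (0 < i → a.a1 = 0) ∧ (1 < i → a.a2 = 0 ∧ a.b2 = 0) ∧ (2 < i → a.a3 = 0) ∧
    (3 < i → a.a4 = 0 ∧ a.b4 = 0) ∧ (4 < i → a.a5 = 0) ∧ (5 < i → a.a6 = 0 ∧ a.b6 = 0) ∧ (6 < i → a.a7 = 0) ∧
    (7 < i → a.a8 = 0 ∧ a.b8 = 0)}
  one_mem' := by simp
  mul_mem' := fun {a b} ha hb => by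
    rcases i with _ | _ | _ | _ | _ | _ | _ | _ | i <;> simp at ha hb ⊢ <;> simp [ha, hb]
  inv_mem' := fun {a} ha => by
    rcases i with _ | _ | _ | _ | _ | _ | _ | _ | i <;> simp at ha ⊢ <;> simp [ha]

theorem Col.mem {i : ℕ} {a : Co K} : a ∈ Col.Zr i ↔ (0 < i → a.a1 = 0) ∧ (1 < i → a.a2 = 0 ∧ a.b2 = 0) ∧
    (2 < i → a.a3 = 0) ∧ (3 < i → a.a4 = 0 ∧ a.b4 = 0) ∧ (4 < i → a.a5 = 0) ∧ (5 < i → a.a6 = 0 ∧ a.b6 = 0) ∧
    (6 < i → a.a7 = 0) ∧ (7 < i → a.a8 = 0 ∧ a.b8 = 0) := Iff.rfl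

theorem Col.mono {i j : ℕ} (h : i ≤ j) : (Col.Zr j : Subgroup (Co K)) ≤ Col.Zr i := fun _ ha =>
  ⟨fun e => ha.1 (by omega), fun e => ha.2.1 (by omega), fun e => ha.2.2.1 (by omega),
    fun e => ha.2.2.2.1 (by omega), fun e => ha.2.2.2.2.1 (by omega), fun e => ha.2.2.2.2.2.1 (by omega),
    fun e => ha.2.2.2.2.2.2.1 (by omega), fun e => ha.2.2.2.2.2.2.2 (by omega)⟩

theorem Col.rm (i : Fin 8) (a : Co K) : rt i a ∈ Col.Zr i := by
  fin_cases i <;> simp [Col.mem, rt]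

theorem Col.rr (i j : Fin 8) (a : Co K) : rt j (rt i a) = if j = i then rt i a else 1 := by
  fin_cases i <;> fin_cases j <;> rfl

theorem Col.r1 (i j : Fin 8) (h : (j : ℕ) < i) {a : Co K} (ha : a ∈ Col.Zr i) : rt j a = 1 := by
  have := Col.mono (Nat.succ_le_of_lt h) ha
  fin_cases j <;> simp [Col.mem] at this <;> ext <;> simp [rt, this]

theorem Col.r1' (i : Fin 8) {a : Co K} (ha : a ∈ Col.Zr (i + 1)) : rt i a = 1 := by
  fin_cases i <;> simp [Col.mem] at ha <;> ext <;> simp [rt, ha]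

set_option maxHeartbeats 1600000 in
theorem Col.rmul (i : Fin 8) {a b : Co K} (ha : a ∈ Col.Zr i) (hb : b ∈ Col.Zr i) :
    rt i (a * b) = rt i a * rt i b := by
  fin_cases i <;> simp [Col.mem] at ha hb <;> ext <;> simp [rt, ha, hb]

/-- Deletion of the first `i + 1` components. -/
def Col.dr (i : Fin 8) (a : Co K) : Co K :=
  ![⟨0, a.a2, a.b2, a.a3, a.a4, a.b4, a.a5, a.a6, a.b6, a.a7, a.a8, a.b8⟩,
    ⟨0, 0, 0, a.a3, a.a4, a.b4, a.a5, a.a6, a.b6, a.a7, a.a8, a.b8⟩,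
    ⟨0, 0, 0, 0, a.a4, a.b4, a.a5, a.a6, a.b6, a.a7, a.a8, a.b8⟩,
    ⟨0, 0, 0, 0, 0, 0, a.a5, a.a6, a.b6, a.a7, a.a8, a.b8⟩,
    ⟨0, 0, 0, 0, 0, 0, 0, a.a6, a.b6, a.a7, a.a8, a.b8⟩,
    ⟨0, 0, 0, 0, 0, 0, 0, 0, 0, a.a7, a.a8, a.b8⟩,
    ⟨0, 0, 0, 0, 0, 0, 0, 0, 0, 0, a.a8, a.b8⟩, 1] i

theorem Col.dec (i : Fin 8) {a : Co K} (ha : a ∈ Col.Zr i) : (rt i a)⁻¹ * a = Col.dr i a := by
  rw [inv_mul_eq_iff_eq_mul]
  fin_cases i <;> simp [Col.mem] at ha <;> ext <;> simp [rt, Col.dr, ha]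

theorem Col.dr_mem (i : Fin 8) (a : Co K) : Col.dr i a ∈ Col.Zr (i + 1) := by
  fin_cases i <;> simp [Col.mem, Col.dr]

theorem Col.rt_dr (i j : Fin 8) (a : Co K) : rt j (Col.dr i a) = if j ≤ i then 1 else rt j a := by
  fin_cases i <;> fin_cases j <;> rfl

theorem col {K : Type} [Field K] [Tits K] {G : Type*} [Group G] (nu : Co K → G)
    (hp : ∀ a, nu a = (List.ofFn fun i => nu (rt i a)).prod) (S : Subgroup (Co K))
    (hS : ∀ a ∈ S, ∀ i, rt i a ∈ S)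
    (h : ∀ i j : Fin 8, i ≤ j → ∀ a ∈ S, ∀ b ∈ S, nu (rt j b * rt i a) = nu (rt j b) * nu (rt i a)) :
    ∀ a ∈ S, ∀ b ∈ S, nu (a * b) = nu a * nu b := by
  have h1 : nu 1 = 1 := by
    have := h 0 0 le_rfl 1 (one_mem S) 1 (one_mem S)
    rw [show rt 0 (1 : Co K) = 1 from rfl] at this
    simpa using this
  have := Col.abs nu 8 (fun i => S ⊓ Col.Zr i) (fun i a => if h : i < 8 then rt ⟨i, h⟩ a else 1)
    (fun a ha => by have := ha.2; simp [Col.mem] at this; ext <;> simp [this]) h1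
    (fun _ _ e => inf_le_inf_left _ (Col.mono e))
    (fun i hi a ha => by simp only [dif_pos hi]; exact ⟨hS a ha.1 _, Col.rm ⟨i, hi⟩ a⟩)
    (fun i hi a ha => by
      simp only [dif_pos hi]
      exact ⟨S.mul_mem (S.inv_mem (hS a ha.1 _)) ha.1, Col.dec ⟨i, hi⟩ ha.2 ▸ Col.dr_mem ⟨i, hi⟩ a⟩)
    (fun i hi a ha => by
      simp only [dif_pos hi]
      have e := fun j hj => Col.r1 ⟨i, hi⟩ j hj ha.2
      rw [Col.dec ⟨i, hi⟩ ha.2, hp a, hp (Col.dr _ _)]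
      simp only [Col.rt_dr]
      interval_cases i <;> simp [List.ofFn_succ, e, h1, mul_assoc])
    (fun i hi a ha b hb => by simp only [dif_pos hi]; exact Col.rmul ⟨i, hi⟩ ha.2 hb.2)
    (fun i hi a => by simp only [dif_pos hi, Col.rr, if_true])
    (fun i hi a ha => by simp only [dif_pos hi]; exact Col.r1' ⟨i, hi⟩ ha.2)
    (fun i j e hj a ha b hb => by
      simp only [dif_pos hj, dif_pos (e.trans_lt hj)]
      exact h ⟨i, _⟩ ⟨j, _⟩ e a ha.1 b hb.1)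
  exact fun a ha b hb => this a ⟨ha, by simp [Col.mem]⟩ b ⟨hb, by simp [Col.mem]⟩

theorem Col.eqns : True := by
  have := @Col.Zr.eq_1
  have := @Col.dr.eq_1
  trivial

end FS8
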