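import Mathlib
import Cfsg.Agent.Lib.FS8.Bs2

set_option autoImplicit false

open scoped commutatorElement

namespace FS8

open H78.Oct H78.Oct.Co

namespace W8

variable {G : Type*} [Group G] {W : W8 G}

theorem u28 {a w m : G} (e : W.M 8 w m) (ha : a ∈ W.V 2) : m * a * m⁻¹ ∈ W.V 6 ∧
    ∃ d ∈ W.U 3, ∃ r ∈ W.I 4 5, w * a * w⁻¹ = a * d * r * (m * a * m⁻¹) := by
  have h6 : m * a * m⁻¹ ∈ W.V 6 := e.ref8.mem_V ha
  refine ⟨h6, ?_⟩
  obtain ⟨k, l, μ, rfl⟩ := e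
  have hk : k ∈ W.U 0 := U_per (W := W) 0 (j := 8 + 8) rfl ▸ μ.k_mem
  have hl : l ∈ W.U 0 := U_per (W := W) 0 (j := 8 + 8) rfl ▸ μ.l_mem
  have g := μ.gs' (ha.2 0 (by norm_num) (by norm_num) l hl)
  generalize k * w * l * a * (k * w * l)⁻¹ = a' at h6 g ⊢
  obtain ⟨r0, h0, e0⟩ := exists_hi (i := 0) (j := 0) (k := 6) (by norm_num) (by norm_num)
    (I_self.2 (inv_mem hk)) h6.1
  obtain ⟨r1, h1, e1⟩ := exists_lo (i := 8) (j := 8) (k := 2) (by norm_num) (by norm_num)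
    (I_self.2 μ.mem) ha.1
  rw [inv_inv, ← g] at e0
  have k1 : a⁻¹ * r0 ∈ W.I 1 5 :=
    mul_mem (inv_mem (mem_I (by norm_num) (by norm_num) ha.1)) h0
  have k2 : a⁻¹ * r0 ∈ W.I 3 7 := by
    rw [show a⁻¹ * r0 = r1 * a'⁻¹ by rw [eq_mul_inv_iff_mul_eq, mul_assoc, ← e0, e1, inv_mul_cancel_left]]
    exact mul_mem h1 (inv_mem (mem_I (by norm_num) (by norm_num) h6.1))
  obtain ⟨d, hd, r, hr, e2⟩ := split_lo (by norm_num)
    (inter (by norm_num) (by norm_num) (by norm_num) (by norm_num) k1 k2)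
  exact ⟨d, hd, r, hr, by rw [e0, mul_assoc a, ← e2, mul_inv_cancel_left]⟩

theorem v28 {a w ma mw : G} (e : W.M 2 a ma) (e' : W.M 8 w mw) (ha : a ∈ W.V 2) (hw : w ∈ W.V 8) :
    ma⁻¹ * w * ma ∈ W.V 4 ∧ mw * a * mw⁻¹ ∈ W.V 6 ∧
      ∃ x ∈ W.U 5, w * a * w⁻¹ = a * (ma⁻¹ * w * ma) * x * (mw * a * mw⁻¹) := by
  have h4 : ma⁻¹ * w * ma ∈ W.V 4 := e.ref.mem_V' hw
  obtain ⟨h6, d, hd, r, hr, e1⟩ := u28 e' ha
  refine ⟨h4, h6, ?_⟩
  obtain ⟨k, l, μ, rfl⟩ := e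
  have g := μ.gs (hw.2 10 (by norm_num) (by norm_num) k μ.k_mem)
  generalize (k * a * l)⁻¹ * w * (k * a * l) = w' at h4 g ⊢
  generalize mw * a * mw⁻¹ = a' at h6 e1 ⊢
  obtain ⟨r2, h2, e2⟩ := exists_lo (i := 10) (j := 10) (k := 4) (by norm_num) (by norm_num)
    (I_self.2 μ.l_mem) h4.1
  rw [← g] at e2
  have k1 : w'⁻¹ * (d * r) ∈ W.I 3 5 := mul_mem (inv_mem (mem_I (by norm_num) (by norm_num) h4.1))
    (mul_mem (mem_I (by norm_num) (by norm_num) hd) (I_mono (by norm_num) (by norm_num) hr))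
  have k2 : w'⁻¹ * (d * r) ∈ W.I 5 9 := by
    have : w'⁻¹ * (d * r) = r2 * w⁻¹ * a'⁻¹ := by
      calc _ = w'⁻¹ * a⁻¹ * (a * d * r * a') * a'⁻¹ := by group
        _ = w'⁻¹ * (a⁻¹ * w * a) * w⁻¹ * a'⁻¹ := by rw [← e1]; group
        _ = _ := by rw [e2]; group
    rw [this]
    exact mul_mem (mul_mem h2 (inv_mem (mem_I (by norm_num) (by norm_num) hw.1)))
      (inv_mem (mem_I (by norm_num) (by norm_num) h6.1))
  exact ⟨_, I_self.1 (inter (by norm_num) (by norm_num) (by norm_num) (by norm_num) k1 k2),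
    by rw [e1]; group⟩

theorem a2_v27 {a u m : G} (e : W.M 7 u m) (ha : a ∈ W.V 2) : m * a * m⁻¹ ∈ W.V 4 ∧
    ∃ b ∈ W.U 3, (∀ y ∈ W.I 0 6, Commute b y) ∧ u * a * u⁻¹ = a * b * (m * a * m⁻¹) := by
  have h4 : m * a * m⁻¹ ∈ W.V 4 := V_per (W := W) 4 (j := 2 * 7 + 8 - 2) rfl ▸ e.ref.mem_V ha
  refine ⟨h4, ?_⟩
  obtain ⟨k, l, μ, rfl⟩ := e
  have hk : k ∈ W.U (-1) := U_per (W := W) (-1) (j := 7 + 8) rfl ▸ μ.k_mem
  have hl : l ∈ W.U (-1) := U_per (W := W) (-1) (j := 7 + 8) rfl ▸ μ.l_mem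
  have g := μ.gs' (ha.2 (-1) (by norm_num) (by norm_num) l hl)
  generalize k * u * l * a * (k * u * l)⁻¹ = a' at h4 g ⊢
  obtain ⟨r0, h0, e0⟩ := exists_hi (i := -1) (j := -1) (k := 4) (by norm_num) (by norm_num)
    (I_self.2 (inv_mem hk)) h4.1
  obtain ⟨r1, h1, e1⟩ := exists_lo (i := 7) (j := 7) (k := 2) (by norm_num) (by norm_num)
    (I_self.2 μ.mem) ha.1
  rw [inv_inv] at e0
  have k1 : a⁻¹ * r0 ∈ W.I 0 3 :=
    mul_mem (inv_mem (mem_I (by norm_num) (by norm_num) ha.1)) h0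
  have k2 : a⁻¹ * r0 ∈ W.I 3 6 := by
    rw [show a⁻¹ * r0 = r1 * a'⁻¹ by rw [eq_mul_inv_iff_mul_eq, mul_assoc, ← e0, ← g, e1, inv_mul_cancel_left]]
    exact mul_mem h1 (inv_mem (mem_I (by norm_num) (by norm_num) h4.1))
  refine ⟨_, I_self.1 (inter (by norm_num) (by norm_num) (by norm_num) (by norm_num) k1 k2), fun y hy => ?_,
    by rw [g, e0, mul_inv_cancel_left]⟩
  have c1 : Commute a y := V_commute ha (by norm_num) (by norm_num) hy
  have c2 : Commute a' y := V_commute h4 (by norm_num) (by norm_num) hy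
  have c3 : Commute a' (k * y * k⁻¹) := V_commute h4 (by norm_num) (by norm_num)
    (conj_mem (a := 0) (b := 6) (by norm_num) (by norm_num) (by norm_num) (I_self.2 hk) hy)
  have c4 : Commute (k⁻¹ * a' * k) y := by
    calc k⁻¹ * a' * k * y = k⁻¹ * (a' * (k * y * k⁻¹)) * k := by group
      _ = y * (k⁻¹ * a' * k) := by rw [c3.eq]; group
  rw [show r0 = k⁻¹ * a' * k * a'⁻¹ by rw [e0, mul_inv_cancel_right]]
  exact c1.inv_left.mul_left (c4.mul_left c2.inv_left)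

theorem a2_cj {x y : G} (h : Commute x y) : x * y * x⁻¹ = y := by rw [h.eq, mul_inv_cancel_right]

theorem a2_one {x y : G} (h : x⁻¹ * y * x = 1) : y = 1 := by
  rw [show y = x * (x⁻¹ * y * x) * x⁻¹ by group, h, mul_one, mul_inv_cancel]

theorem a2_key {u a w m e4 x e6 : G} (hu : u ∈ W.U 1) (hu1 : u ≠ 1) (e : W.M 8 w m) (ha : a ∈ W.V 2)
    (hw : w ∈ W.V 8) (h4 : e4 ∈ W.V 4) (hx : x ∈ W.U 5) (h6 : e6 ∈ W.V 6)
    (h : w * a * w⁻¹ = a * e4 * x * e6) :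
    Commute (m * u * m⁻¹) x ∧ ∃ s ∈ W.I 2 4, x * (u⁻¹ * e6 * u * e6⁻¹) = s * x := by
  have x46 : ∀ y ∈ W.I 4 6, Commute x y := fun y hy => commute_I (fun k k1 k2 v hv => by
    interval_cases k
    · exact (adj hv hx).symm
    · have c1 := ha.2 5 (by norm_num) (by norm_num) v hv
      have c2 := hw.2 5 (by norm_num) (by norm_num) v hv
      rw [show x = e4⁻¹ * a⁻¹ * (w * a * w⁻¹) * e6⁻¹ by rw [h]; group]
      exact (((h4.2 5 (by norm_num) (by norm_num) v hv).inv_left.mul_left c1.inv_left).mul_left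
        ((c2.mul_left c1).mul_left c2.inv_left)).mul_left (h6.2 5 (by norm_num) (by norm_num) v hv).inv_left
    · exact adj hx hv) hy
  obtain ⟨mu, eu⟩ := W.exists_M hu hu1
  obtain ⟨r, hr, e1⟩ := sl1 eu hw.1
  obtain ⟨r'', hr'', e2⟩ := sl8 e hu
  have h2 : mu⁻¹ * w * mu ∈ W.V 2 := eu.ref.mem_V' hw
  have h7 : m * u * m⁻¹ ∈ W.U 7 := e.ref8.mem hu
  have n7 : m * u * m⁻¹ ≠ 1 := fun c => hu1 (by simpa using c)
  generalize mu⁻¹ * w * mu = w2 at h2 e1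
  generalize m * u * m⁻¹ = w7 at h7 n7 e2 ⊢
  have hr' : w2⁻¹ * r'' ∈ W.I 3 6 := by
    refine inter (i := 2) (l := 7) (by norm_num) (by norm_num) (by norm_num) (by norm_num)
      (mul_mem (inv_mem (mem_I (by norm_num) (by norm_num) h2.1)) hr'') ?_
    rw [show w2⁻¹ * r'' = r * w7⁻¹ by
      rw [eq_mul_inv_iff_mul_eq, mul_assoc, ← mul_right_cancel (e1.symm.trans e2), inv_mul_cancel_left]]
    exact mul_mem hr (inv_mem (mem_I (by norm_num) (by norm_num) h7))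
  obtain ⟨r', rfl⟩ : ∃ r', r'' = w2 * r' := ⟨w2⁻¹ * r'', by group⟩
  rw [inv_mul_cancel_left] at hr'
  obtain ⟨m7, e7⟩ := W.exists_M h7 n7
  obtain ⟨ha', b, hb, cb, e3⟩ := a2_v27 e7 ha
  generalize m7 * a * m7⁻¹ = a' at ha' e3
  obtain ⟨f, hf, e4'⟩ := exists_lo (i := 7) (j := 7) (k := 5) (by norm_num) (by norm_num) (I_self.2 h7) hx
  obtain ⟨d, hd, r46, h46, e5⟩ := split_lo (by norm_num) hr'
  obtain ⟨f4, hf4, e6'⟩ := exists_hi (i := 3) (j := 3) (k := 5) (by norm_num) (by norm_num) (I_self.2 hd) hx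
  have e7' : r' * x * r'⁻¹ = f4 * x := by
    rw [← e6', e5]
    calc _ = d * (r46 * x * r46⁻¹) * d⁻¹ := by group
      _ = _ := by rw [a2_cj (x46 r46 h46).symm]
  obtain ⟨r1, hr1, e8⟩ := exists_hi (i := 1) (j := 1) (k := 5) (by norm_num) (by norm_num)
    (I_self.2 (inv_mem hu)) hx
  obtain ⟨c, hc, e9⟩ := exists_hi (i := 1) (j := 1) (k := 6) (by norm_num) (by norm_num)
    (I_self.2 (inv_mem hu)) h6.1
  rw [inv_inv] at e8 e9
  have hF : r' * f * r'⁻¹ ∈ W.I 3 6 :=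
    mul_mem (mul_mem hr' (I_mono (by norm_num) (by norm_num) hf)) (inv_mem hr')
  have ua : u⁻¹ * a * u = a := by
    simpa using a2_cj (ha.2 1 (by norm_num) (by norm_num) u hu).symm.inv_left
  have u4 : u⁻¹ * e4 * u = e4 := by
    simpa using a2_cj (h4.2 1 (by norm_num) (by norm_num) u hu).symm.inv_left
  have s1 : w7 * (w * a * w⁻¹) * w7⁻¹ = a * b * a' * e4 * (x * f) * e6 := by
    calc _ = (w7 * a * w7⁻¹) * (w7 * e4 * w7⁻¹) * (w7 * x * w7⁻¹) * (w7 * e6 * w7⁻¹) := by rw [h]; group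
      _ = _ := by rw [e3, e4', a2_cj (h4.2 7 (by norm_num) (by norm_num) _ h7).symm,
        a2_cj (h6.2 7 (by norm_num) (by norm_num) _ h7).symm]
  have s2 : r' * (a * b * a' * e4 * (x * f) * e6) * r'⁻¹ =
      a * b * a' * e4 * (f4 * x * (r' * f * r'⁻¹)) * e6 := by
    calc _ = (r' * a * r'⁻¹) * (r' * b * r'⁻¹) * (r' * a' * r'⁻¹) * (r' * e4 * r'⁻¹) *
          ((r' * x * r'⁻¹) * (r' * f * r'⁻¹)) * (r' * e6 * r'⁻¹) := by group
      _ = _ := by rw [e7', a2_cj (V_commute ha (by norm_num) (by norm_num) hr').symm,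
        a2_cj (cb r' (I_mono (by norm_num) (by norm_num) hr')).symm,
        a2_cj (V_commute ha' (by norm_num) (by norm_num) hr').symm,
        a2_cj (V_commute h4 (by norm_num) (by norm_num) hr').symm,
        a2_cj (V_commute h6 (by norm_num) (by norm_num) hr').symm]
  have s3 : a * b * a' * e4 * (f4 * x * (r' * f * r'⁻¹)) * e6 ∈ W.I 2 6 :=
    mul_mem (mul_mem (mul_mem (mul_mem (mul_mem (mem_I (by norm_num) (by norm_num) ha.1)
      (mem_I (by norm_num) (by norm_num) hb)) (mem_I (by norm_num) (by norm_num) ha'.1))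
      (mem_I (by norm_num) (by norm_num) h4.1)) (mul_mem (mul_mem (I_mono (by norm_num) (by norm_num) hf4)
      (mem_I (by norm_num) (by norm_num) hx)) (I_mono (by norm_num) (by norm_num) hF)))
      (mem_I (by norm_num) (by norm_num) h6.1)
  have s4 : a * e4 * (r1 * x) * (c * e6) = a * b * a' * e4 * (f4 * x * (r' * f * r'⁻¹)) * e6 := by
    calc _ = (u⁻¹ * a * u) * (u⁻¹ * e4 * u) * (u⁻¹ * x * u) * (u⁻¹ * e6 * u) := by rw [ua, u4, e8, e9]
      _ = u⁻¹ * (w * a * w⁻¹) * u := by rw [h]; group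
      _ = (u⁻¹ * w * u) * (u⁻¹ * a * u) * (u⁻¹ * w * u)⁻¹ := by group
      _ = w2 * (r' * (w7 * (w * a * w⁻¹) * w7⁻¹) * r'⁻¹) * w2⁻¹ := by rw [ua, e2]; group
      _ = _ := by rw [s1, s2, a2_cj (V_commute h2 (by norm_num) (by norm_num) s3)]
  have c4 : Commute e4 (b * a') := V_commute h4 (j := 3) (k := 4) (by norm_num) (by norm_num)
    (mul_mem (mem_I (by norm_num) (by norm_num) hb) (mem_I (by norm_num) (by norm_num) ha'.1))
  have s5 : r1 * x * c = b * a' * f4 * x * (r' * f * r'⁻¹) := by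
    calc _ = e4⁻¹ * a⁻¹ * (a * e4 * (r1 * x) * (c * e6)) * e6⁻¹ := by group
      _ = e4⁻¹ * (b * a' * e4) * (f4 * x * (r' * f * r'⁻¹)) := by rw [s4]; group
      _ = _ := by rw [← c4.eq]; group
  have hs : b * a' * f4 ∈ W.I 2 4 := mul_mem (mul_mem (mem_I (by norm_num) (by norm_num) hb)
    (mem_I (by norm_num) (by norm_num) ha'.1)) (I_mono (by norm_num) (by norm_num) hf4)
  have hx' : x ∈ W.I 2 5 := mem_I (by norm_num) (by norm_num) hx
  have hF' : r' * f * r'⁻¹ ∈ W.I 3 5 := by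
    refine inter (i := 2) (by norm_num) (by norm_num) (by norm_num) (by norm_num) ?_ hF
    rw [show r' * f * r'⁻¹ = (b * a' * f4 * x)⁻¹ * (r1 * x * c) by rw [s5]; group]
    exact mul_mem (inv_mem (mul_mem (I_mono (by norm_num) (by norm_num) hs) hx'))
      (mul_mem (mul_mem (I_mono (by norm_num) (by norm_num) hr1) hx') hc)
  obtain rfl : f = 1 := by
    have := conj_mem (a := 3) (b := 5) (by norm_num) (by norm_num) (by norm_num) (inv_mem hr') hF'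
    rw [show r'⁻¹ * (r' * f * r'⁻¹) * r'⁻¹⁻¹ = f by group] at this
    exact disj (by norm_num) (by norm_num) (by norm_num) this hf
  refine ⟨mul_inv_eq_iff_eq_mul.1 (e4'.trans (mul_one x)), r1⁻¹ * (b * a' * f4), mul_mem (inv_mem hr1) hs, ?_⟩
  calc _ = r1⁻¹ * (r1 * x * c) := by rw [e9]; group
    _ = _ := by rw [s5]; group

theorem beta (hE : W.Ev) {u m e : G} (h : W.M 1 u m) (he : e ∈ W.V 6) :
    m⁻¹ * e * m ∈ W.V 4 ∧ u⁻¹ * e * u = m⁻¹ * e * m * e := by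
  have h4 : m⁻¹ * e * m ∈ W.V 4 := h.ref.mem_V' he
  refine ⟨h4, ?_⟩
  rcases eq_or_ne e 1 with rfl | e1
  · simp
  obtain ⟨-, b, hb, -, e2⟩ := a2_v27 (W := W.rf 8) (a := e) ((W.rf_M 8 7 _ _).2 h.inv) (by rw [rf_V]; exact he)
  have hb : b ∈ W.U 5 := hb
  rw [inv_inv, inv_inv] at e2
  obtain ⟨w, hw, w1⟩ := hE 8 (by decide)
  obtain ⟨mw, ew⟩ := W.exists_M hw.1 w1
  have ha : mw⁻¹ * e * mw ∈ W.V 2 := ew.ref8.mem_V' he
  obtain ⟨ma, ea⟩ := W.exists_M ha.1 fun c => e1 (a2_one c)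
  obtain ⟨k4, -, x, hx, e3⟩ := v28 ea ew ha hw
  rw [show mw * (mw⁻¹ * e * mw) * mw⁻¹ = e by group] at e3
  obtain ⟨-, s, hs, e4⟩ := a2_key h.mem h.ne ew ha hw k4 hx he e3
  generalize m⁻¹ * e * m = c at h4 e2 ⊢
  have c1 : Commute e (b * c) := V_commute he (j := 4) (k := 5) (by norm_num) (by norm_num)
    (mul_mem (mem_I (by norm_num) (by norm_num) hb) (mem_I (by norm_num) (by norm_num) h4.1))
  have e5 : u⁻¹ * e * u = b * c * e := by rw [e2, mul_assoc, c1.eq]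
  rw [e5, mul_inv_cancel_right, ← mul_assoc,
    ← (h4.2 5 (by norm_num) (by norm_num) _ (mul_mem hx hb)).eq] at e4
  have := (uniq (i := 2) (j := 4) (k := 5) (l := 5) (by norm_num) (by norm_num) (by norm_num)
    (mem_I (by norm_num) (by norm_num) h4.1) hs (I_self.2 (mul_mem hx hb)) (I_self.2 hx) e4).2
  rw [e5, mul_eq_left.1 this, one_mul]

theorem a2_beta (hE : W.Ev) {u e : G} (hu : u ∈ W.U 1) (he : e ∈ W.V 6) :
    ∃ c ∈ W.V 4, u⁻¹ * e * u = c * e ∧ (c = 1 → u = 1 ∨ e = 1) := by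
  rcases eq_or_ne u 1 with rfl | u1
  · exact ⟨1, one_mem _, by simp, fun _ => Or.inl rfl⟩
  obtain ⟨m, h⟩ := W.exists_M hu u1
  exact ⟨_, (beta hE h he).1, (beta hE h he).2, fun c => Or.inr (a2_one c)⟩

theorem beta_up (hE : W.Ev) {i : ℤ} (hi : Odd i) {u e : G} (hu : u ∈ W.U i) (he : e ∈ W.V (i + 5)) :
    ∃ c ∈ W.V (i + 3), u⁻¹ * e * u = c * e ∧ (c = 1 → u = 1 ∨ e = 1) := by
  have := a2_beta (W := W.sh (i - 1)) (hE.sh (hi.sub_odd odd_one)) (u := u) (e := e)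
    (by rwa [sh_U, add_sub_cancel]) (by rwa [sh_V, show 6 + (i - 1) = i + 5 by ring])
  rwa [sh_V, show 4 + (i - 1) = i + 3 by ring] at this

theorem beta_dn (hE : W.Ev) {i : ℤ} (hi : Odd i) {u e : G} (hu : u ∈ W.U i) (he : e ∈ W.V (i - 5)) :
    ∃ c ∈ W.V (i - 3), u⁻¹ * e * u = c * e ∧ (c = 1 → u = 1 ∨ e = 1) := by
  have := a2_beta (W := W.rf (i + 1)) (hE.rf hi.add_one) (u := u) (e := e)
    (by rwa [rf_U, add_sub_cancel_right]) (by rwa [rf_V, show i + 1 - 6 = i - 5 by ring])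
  rwa [rf_V, show i + 1 - 4 = i - 3 by ring] at this

theorem key57 {u a w m e4 x e6 : G} (hu : u ∈ W.U 1) (e : W.M 8 w m) (ha : a ∈ W.V 2) (hw : w ∈ W.V 8)
    (h4 : e4 ∈ W.V 4) (hx : x ∈ W.U 5) (h6 : e6 ∈ W.V 6) (h : w * a * w⁻¹ = a * e4 * x * e6) :
    Commute (m * u * m⁻¹) x := by
  rcases eq_or_ne u 1 with rfl | u1
  · simp
  · exact (a2_key hu u1 e ha hw h4 hx h6 h).1

end W8

end FS8
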