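import Mathlib
import Cfsg.Agent.Lib.FS8.A2

set_option autoImplicit false

open scoped commutatorElement

namespace FS8

open H78.Oct H78.Oct.Co

namespace W8

variable {G : Type*} [Group G] {W : W8 G}

private theorem inj_up (hE : W.Ev) {i : ℤ} (hi : Odd i) {u e : G} (hu : u ∈ W.U i) (he : e ∈ W.V (i + 5))
    (e1 : e ≠ 1) (h : u⁻¹ * e * u = e) : u = 1 := by
  obtain ⟨c, -, hc, h1⟩ := beta_up hE hi hu he
  exact (h1 (mul_eq_right.1 (hc.symm.trans h))).resolve_right e1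

private theorem ev5 {i : ℤ} (hi : Odd i) : Even (i + 5) := hi.add_odd (by decide)

theorem ab_odd (hE : W.Ev) {i : ℤ} (hi : Odd i) {x y : G} (hx : x ∈ W.U i) (hy : y ∈ W.U i) :
    Commute x y := by
  obtain ⟨e, he, e1⟩ := hE (i + 5) (ev5 hi)
  obtain ⟨c, hc, ec, -⟩ := beta_up hE hi hx he
  obtain ⟨d, hd, ed, -⟩ := beta_up hE hi hy he
  have cy : Commute c y := hc.2 i (by omega) (by omega) y hy
  have dx : Commute d x := hd.2 i (by omega) (by omega) x hx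
  have cd : Commute c d := hc.2 (i + 3) (by omega) (by omega) d hd.1
  have h1 : (x * y)⁻¹ * e * (x * y) = c * d * e := by
    calc _ = y⁻¹ * (x⁻¹ * e * x) * y := by group
      _ = y⁻¹ * c * (e * y) := by rw [ec]; group
      _ = c * (y⁻¹ * e * y) := by rw [← cy.inv_right.eq]; group
      _ = _ := by rw [ed, mul_assoc]
  have h2 : (y * x)⁻¹ * e * (y * x) = c * d * e := by
    calc _ = x⁻¹ * (y⁻¹ * e * y) * x := by group
      _ = x⁻¹ * d * (e * x) := by rw [ed]; group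
      _ = d * (x⁻¹ * e * x) := by rw [← dx.inv_right.eq]; group
      _ = _ := by rw [ec, cd.eq, mul_assoc]
  have h3 := inj_up hE hi (u := x * y * (y * x)⁻¹)
    (mul_mem (mul_mem hx hy) (inv_mem (mul_mem hy hx))) he e1 (by
      calc _ = y * x * ((x * y)⁻¹ * e * (x * y)) * (y * x)⁻¹ := by group
        _ = e := by rw [h1, ← h2]; group)
  exact mul_inv_eq_one.1 h3

private theorem conj26 (hE : W.Ev) {w w' m u r x : G} (e : W.M 8 w m) (hw : w ∈ W.V 8) (hw' : w' ∈ W.V 8)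
    (hu : u ∈ W.U 1) (u1 : u ≠ 1) (hr : r ∈ W.I 2 6) (hx : x ∈ W.U 7) (h : u⁻¹ * w' * u = r * x * w') :
    w * r * w⁻¹ ∈ W.I 2 6 := by
  obtain ⟨n, hn⟩ := W.exists_M hu u1
  obtain ⟨r1, hr1, e1⟩ := sl1 hn hw'.1
  have ha : n⁻¹ * w' * n ∈ W.V 2 := hn.ref.mem_V' hw'
  set a := n⁻¹ * w' * n
  have e2 : a⁻¹ * r = r1 * x⁻¹ := by
    have := mul_right_cancel (h.symm.trans e1)
    calc _ = a⁻¹ * (r * x) * x⁻¹ := by group
      _ = _ := by rw [this]; group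
  have hs : a⁻¹ * r ∈ W.I 3 6 :=
    inter (i := 2) (l := 7) (by norm_num) (by norm_num) (by norm_num) (by norm_num)
      (mul_mem (inv_mem (mem_I le_rfl (by norm_num) ha.1)) hr)
      (e2 ▸ mul_mem hr1 (inv_mem (mem_I (by norm_num) le_rfl hx)))
  obtain ⟨d, hd, s, hs', e3⟩ := split_lo (by norm_num) hs
  obtain ⟨h6, d', hd', r', hr', e4⟩ := u28 e ha
  obtain ⟨c, hc, e5, -⟩ := beta_up hE (i := 3) (by decide) hd hw
  have ws : Commute w s := V_commute hw (by norm_num) (by norm_num) hs'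
  have e6 : w * r * w⁻¹ = w * a * w⁻¹ * (d * c) * s := by
    calc _ = w * a * (a⁻¹ * r) * w⁻¹ := by group
      _ = w * a * w⁻¹ * (d * (d⁻¹ * w * d)) * (s * w⁻¹) := by rw [e3]; group
      _ = _ := by rw [e5, ← ws.inv_left.eq]; group
  rw [e6, e4]
  refine mul_mem (mul_mem (mul_mem (mul_mem (mul_mem ?_ ?_) ?_) ?_) (mul_mem ?_ ?_)) ?_
  · exact mem_I le_rfl (by norm_num) ha.1
  · exact mem_I (by norm_num) (by norm_num) hd'
  · exact I_mono (by norm_num) (by norm_num) hr'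
  · exact mem_I (by norm_num) le_rfl h6.1
  · exact mem_I (by norm_num) (by norm_num) hd
  · exact mem_I (k := 3 + 3) (by norm_num) (by norm_num) hc.1
  · exact I_mono (by norm_num) le_rfl hs'

private theorem psi_gen (hE : W.Ev) {w w' m m' u : G} (e : W.M 8 w m) (e' : W.M 8 w' m')
    (hw : w ∈ W.V 8) (hw' : w' ∈ W.V 8) (hu : u ∈ W.U 1) (u1 : u ≠ 1) :
    ∃ r ∈ W.I 2 6, u⁻¹ * (w * w') * u = r * (m * u * m⁻¹ * (m' * u * m'⁻¹)) * (w * w') := by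
  obtain ⟨r, hr, e1⟩ := sl8 e hu
  obtain ⟨r', hr', e2⟩ := sl8 e' hu
  have hx : m * u * m⁻¹ ∈ W.U 7 := e.ref8.mem hu
  have hx' : m' * u * m'⁻¹ ∈ W.U 7 := e'.ref8.mem hu
  have h1 := conj26 hE e hw hw' hu u1 hr' hx' e2
  set x := m * u * m⁻¹
  set x' := m' * u * m'⁻¹
  have wx : Commute w x' := hw.2 7 (by norm_num) (by norm_num) x' hx'
  refine ⟨r * (x * (w * r' * w⁻¹) * x⁻¹), mul_mem hr (conj_mem (i := 7) (j := 7) (by norm_num) (by norm_num)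
    (by norm_num) (I_self.2 hx) h1), ?_⟩
  calc _ = (u⁻¹ * w * u) * (u⁻¹ * w' * u) := by group
    _ = r * x * (w * r' * w⁻¹) * (w * x') * w' := by rw [e1, e2]; group
    _ = _ := by rw [wx.eq]; group

theorem psi_mul (hE : W.Ev) {w w' m m' m'' u : G} (e : W.M 8 w m) (e' : W.M 8 w' m')
    (e'' : W.M 8 (w * w') m'') (hw : w ∈ W.V 8) (hw' : w' ∈ W.V 8) (hu : u ∈ W.U 1) :
    m'' * u * m''⁻¹ = m * u * m⁻¹ * (m' * u * m'⁻¹) := by
  by_cases u1 : u = 1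
  · simp [u1]
  obtain ⟨r, hr, e1⟩ := psi_gen hE e e' hw hw' hu u1
  obtain ⟨r', hr', e2⟩ := sl8 e'' hu
  have hx : m * u * m⁻¹ ∈ W.U 7 := e.ref8.mem hu
  have hx' : m' * u * m'⁻¹ ∈ W.U 7 := e'.ref8.mem hu
  have hx'' : m'' * u * m''⁻¹ ∈ W.U 7 := e''.ref8.mem hu
  exact (uniq (k := 7) (l := 7) (by norm_num) (by norm_num) (by norm_num) hr' hr (I_self.2 hx'')
    (I_self.2 (mul_mem hx hx')) (mul_right_cancel (e2.symm.trans e1))).2

private theorem psi_inv (hE : W.Ev) {w m u : G} (e : W.M 8 w m) (hw : w ∈ W.V 8) (hu : u ∈ W.U 1) :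
    m * m * u * (m * m)⁻¹ = u⁻¹ := by
  by_cases u1 : u = 1
  · simp [u1]
  obtain ⟨r, hr, e1⟩ := psi_gen hE e e.inv hw (inv_mem hw) hu u1
  have hx : m * u * m⁻¹ ∈ W.U 7 := e.ref8.mem hu
  have hx' : m⁻¹ * u * m⁻¹⁻¹ ∈ W.U 7 := e.inv.ref8.mem hu
  have e2 : r * (m * u * m⁻¹ * (m⁻¹ * u * m⁻¹⁻¹)) = 1 * 1 := by simpa using e1.symm
  have e3 := (uniq (k := 7) (l := 7) (by norm_num) (by norm_num) (by norm_num) hr (one_mem _)
    (I_self.2 (mul_mem hx hx')) (one_mem _) e2).2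
  calc _ = m * (m * u * m⁻¹ * (m⁻¹ * u * m⁻¹⁻¹)) * m⁻¹ * u⁻¹ := by group
    _ = _ := by rw [e3]; group

theorem psi_inj (hE : W.Ev) {w w' m m' u : G} (e : W.M 8 w m) (e' : W.M 8 w' m') (hw : w ∈ W.V 8)
    (hw' : w' ∈ W.V 8) (hu : u ∈ W.U 1) (h1 : u ≠ 1) (h : m * u * m⁻¹ = m' * u * m'⁻¹) : w = w' := by
  by_contra hne
  have hv : w * w'⁻¹ ∈ W.V 8 := mul_mem hw (inv_mem hw')
  obtain ⟨n, hn⟩ := W.exists_M hv.1 fun h => hne (mul_inv_eq_one.1 h)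
  have h2 := psi_mul hE hn e' (m'' := m) (by rwa [inv_mul_cancel_right]) hv hw' hu
  rw [h, eq_comm, mul_eq_right, conj_eq_one_iff] at h2
  exact h1 h2

private theorem ex_psi (hE : W.Ev) {u : G} (hu : u ∈ W.U 1) (h1 : u ≠ 1) :
    ∃ g : W.V 8 → W.U 7, Function.Injective g ∧
      ∀ w : W.V 8, ((w : G) = 1 ∧ (g w : G) = 1) ∨ ∃ m, W.M 8 w m ∧ m * u * m⁻¹ = g w := by
  have : ∀ w : W.V 8, ∃ x : W.U 7, ((w : G) = 1 ∧ (x : G) = 1) ∨ ∃ m, W.M 8 w m ∧ m * u * m⁻¹ = x := by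
    intro w
    by_cases h : (w : G) = 1
    · exact ⟨1, Or.inl ⟨h, rfl⟩⟩
    · obtain ⟨m, hm⟩ := W.exists_M w.2.1 h
      exact ⟨⟨m * u * m⁻¹, hm.ref8.mem hu⟩, Or.inr ⟨m, hm, rfl⟩⟩
  choose g hg using this
  refine ⟨g, fun w w' h => Subtype.ext ?_, hg⟩
  rcases hg w with ⟨a, b⟩ | ⟨m, a, b⟩ <;> rcases hg w' with ⟨a', b'⟩ | ⟨m', a', b'⟩
  · rw [a, a']
  · rw [← h, b, conj_eq_one_iff] at b'
    exact absurd b' h1
  · rw [h, b', conj_eq_one_iff] at b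
    exact absurd b h1
  · exact psi_inj hE a a' w.2 w'.2 hu h1 (by rw [b, b', h])

theorem card_eq [Finite G] (hE : W.Ev) {i j : ℤ} (hi : Odd i) (hj : Even j) :
    Nat.card (W.U i) = Nat.card (W.V j) := by
  have hU : ∀ k, Odd k → Nat.card (W.U k) = Nat.card (W.U i) := fun k hk => by
    obtain ⟨m, hm⟩ := exists_Ref (W := W) (hk.add_odd hi)
    simpa using hm.card_U i
  have hV : ∀ k, Even k → Nat.card (W.V k) = Nat.card (W.V j) := fun k hk => by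
    obtain ⟨m, hm⟩ := exists_Ref (W := W) (hk.add hj)
    simpa using hm.card_V j
  refine le_antisymm ?_ ?_
  · obtain ⟨e, he, e1⟩ := hE (i + 5) (ev5 hi)
    rw [← hV (i + 3) (hi.add_odd (by decide))]
    have : ∀ u : W.U i, ∃ c : W.V (i + 3), (u : G)⁻¹ * e * u = c * e := fun u => by
      obtain ⟨c, hc, ec, -⟩ := beta_up hE hi u.2 he
      exact ⟨⟨c, hc⟩, ec⟩
    choose f hf using this
    refine Nat.card_le_card_of_injective f fun u u' h => Subtype.ext (mul_inv_eq_one.1 ?_)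
    refine inj_up hE hi (mul_mem u.2 (inv_mem u'.2)) he e1 ?_
    calc _ = u' * ((u : G)⁻¹ * e * u) * (u' : G)⁻¹ := by group
      _ = e := by rw [hf, h, ← hf]; group
  · obtain ⟨u, hu, u1⟩ := W.ne 1
    obtain ⟨g, hg, -⟩ := ex_psi hE hu u1
    rw [← hV 8 (by decide), ← hU 7 (by decide)]
    exact Nat.card_le_card_of_injective g hg

theorem psi_surj [Finite G] (hE : W.Ev) {u x : G} (hu : u ∈ W.U 1) (h1 : u ≠ 1) (hx : x ∈ W.U 7)
    (h2 : x ≠ 1) : ∃ w ∈ W.V 8, ∃ m, W.M 8 w m ∧ m * u * m⁻¹ = x := by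
  obtain ⟨g, hg, h⟩ := ex_psi hE hu h1
  obtain ⟨w, hw⟩ := (hg.bijective_of_nat_card_le (card_eq hE (by decide) (by decide)).le).2 ⟨x, hx⟩
  rcases h w with ⟨-, b⟩ | ⟨m, a, b⟩
  · rw [hw] at b
    exact absurd b h2
  · rw [hw] at b
    exact ⟨w, w.2, m, a, b⟩

private theorem sq8 (hE : W.Ev) {w : G} (hw : w ∈ W.V 8) : w * w = 1 := by
  by_cases w1 : w = 1
  · simp [w1]
  obtain ⟨m, e⟩ := W.exists_M hw.1 w1
  have hT : W.Tor (m * m) := e.ref8.mul e.ref8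
  have h7 : ∀ x ∈ W.U 7, m * m * x * (m * m)⁻¹ = x⁻¹ := fun x hx => by
    have := psi_inv hE e hw (u := m⁻¹ * x * m) (e.ref8.mem' hx)
    calc _ = m * (m * m * (m⁻¹ * x * m) * (m * m)⁻¹) * m⁻¹ := by group
      _ = _ := by rw [this]; group
  have h4 : ∀ c ∈ W.V 4, m * m * c * (m * m)⁻¹ = c := fun c hc => by
    have : Commute c m := e.commute (hc.2 8 (by norm_num) (by norm_num) w hw.1) fun u hu =>
      hc.2 0 (by norm_num) (by norm_num) u (by rwa [← U_per 0 (j := 8 + 8) rfl])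
    rw [← (this.mul_right this).eq, mul_inv_cancel_right]
  have h8 : m * m * w * (m * m)⁻¹ = w := by
    obtain ⟨u, hu, u1⟩ := W.ne 1
    exact psi_inj hE (e.conj_tor hT) e (hT.mem_V hw) hw hu u1 (by group)
  set h := m * m
  obtain ⟨a, ha, a1⟩ := hE 2 (by decide)
  have h2 : h * a * h⁻¹ = a⁻¹ := by
    obtain ⟨x, hx, x1⟩ := W.ne 7
    have ha' : h * a * h⁻¹ ∈ W.V 2 := hT.mem_V ha
    obtain ⟨c, hc, ec, -⟩ := beta_dn hE (i := 7) (by decide) hx ha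
    replace hc : c ∈ W.V 4 := hc
    obtain ⟨c', -, ec', n'⟩ := beta_dn hE (i := 7) (by decide) (inv_mem hx) (mul_mem ha' ha)
    have cx : Commute c x := hc.2 7 (by norm_num) (by norm_num) x hx
    have ca : Commute c (h * a * h⁻¹) := hc.2 2 (by norm_num) (by norm_num) _ ha'.1
    have e1 : x * (h * a * h⁻¹) * x⁻¹ = c * (h * a * h⁻¹) := by
      calc _ = (h * x * h⁻¹)⁻¹ * (h * a * h⁻¹) * (h * x * h⁻¹) := by rw [h7 x hx, inv_inv]
        _ = h * (x⁻¹ * a * x) * h⁻¹ := by group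
        _ = h * c * h⁻¹ * (h * a * h⁻¹) := by rw [ec]; group
        _ = _ := by rw [h4 c hc]
    have e2 : x * a * x⁻¹ = c⁻¹ * a := by
      calc _ = c⁻¹ * (c * x) * a * x⁻¹ := by group
        _ = c⁻¹ * x * (c * a) * x⁻¹ := by rw [cx.eq]; group
        _ = _ := by rw [← ec]; group
    have e3 : x⁻¹⁻¹ * (h * a * h⁻¹ * a) * x⁻¹ = h * a * h⁻¹ * a := by
      calc _ = x * (h * a * h⁻¹) * x⁻¹ * (x * a * x⁻¹) := by group
        _ = _ := by rw [e1, e2, ca.eq]; group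
    rcases n' (mul_eq_right.1 (ec'.symm.trans e3)) with h | h
    · exact absurd (inv_eq_one.1 h) x1
    · exact eq_inv_of_mul_eq_one_left h
  obtain ⟨n, hn⟩ := W.exists_M ha.1 a1
  obtain ⟨m4, m6, x, hx, e1⟩ := v28 hn e ha hw
  set e4 := n⁻¹ * w * n with he4
  set e6 := m * a * m⁻¹
  have a4 : Commute a e4 := ha.2 4 (by norm_num) (by norm_num) _ m4.1
  have hy : x * e6 ∈ W.I 5 6 :=
    mul_mem (mem_I le_rfl (by norm_num) hx) (mem_I (by norm_num) le_rfl m6.1)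
  have ay : Commute a (x * e6) := V_commute ha (by norm_num) (by norm_num) hy
  have y4 : Commute e4 (x * e6) := V_commute m4 (by norm_num) (by norm_num) hy
  have e2 : w * a⁻¹ * w⁻¹ = a⁻¹ * (e4 * (h * (x * e6) * h⁻¹)) := by
    calc _ = (h * w * h⁻¹) * (h * a * h⁻¹) * (h * w * h⁻¹)⁻¹ := by rw [h8, h2]
      _ = h * (w * a * w⁻¹) * h⁻¹ := by group
      _ = (h * a * h⁻¹) * ((h * e4 * h⁻¹) * (h * (x * e6) * h⁻¹)) := by rw [e1]; group
      _ = _ := by rw [h2, h4 e4 m4]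
  have e3 : w * a⁻¹ * w⁻¹ = a⁻¹ * (e4⁻¹ * (x * e6)⁻¹) := by
    calc _ = (w * a * w⁻¹)⁻¹ := by group
      _ = (a * (e4 * (x * e6)))⁻¹ := by rw [e1]; group
      _ = _ := by rw [(a4.mul_right ay).eq, y4.eq]; group
  have e5 := (uniq (i := 4) (j := 4) (by norm_num) (by norm_num) (by norm_num) (I_self.2 m4.1)
    (I_self.2 (inv_mem m4.1)) (hT.mem_I hy) (inv_mem hy) (mul_left_cancel (e2.symm.trans e3))).1
  have e7 : e4 * e4 = 1 := mul_eq_one_iff_eq_inv.2 e5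
  calc w * w = n * (e4 * e4) * n⁻¹ := by rw [he4]; group
    _ = 1 := by rw [e7]; group

theorem sqV (hE : W.Ev) {j : ℤ} (hj : Even j) {a : G} (ha : a ∈ W.V j) : a * a = 1 := by
  obtain ⟨n, hn⟩ := exists_Ref (W := W) (c := 8 + j) (Even.add (by decide) hj)
  have h := sq8 hE (w := n * a * n⁻¹) (by simpa using hn.mem_V ha)
  rwa [conj_mul, conj_eq_one_iff] at h

theorem sqU (hE : W.Ev) {i : ℤ} (hi : Odd i) {u : G} (hu : u ∈ W.U i) : u * u = 1 := by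
  obtain ⟨e, he, e1⟩ := hE (i + 5) (ev5 hi)
  obtain ⟨c, hc, ec, -⟩ := beta_up hE hi hu he
  have cu : Commute c u := hc.2 i (by omega) (by omega) u hu
  refine inj_up hE hi (mul_mem hu hu) he e1 ?_
  calc _ = u⁻¹ * (u⁻¹ * e * u) * u := by group
    _ = u⁻¹ * c * (e * u) := by rw [ec]; group
    _ = c * (u⁻¹ * e * u) := by rw [← cu.inv_right.eq]; group
    _ = e := by rw [ec, ← mul_assoc, sqV hE (hi.add_odd (by decide)) hc, one_mul]

end W8

end FS8
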