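import Mathlib
import Cfsg.Agent.Lib.FS8.A3

/-! Finite Moufang octagons (blueprint/FS8): package A4. -/

set_option autoImplicit false

open scoped commutatorElement

namespace FS8

open H78.Oct H78.Oct.Co

namespace A4

variable {G : Type*} [Group G] {W : W8 G}

open W8

theorem vc {i j : ℤ} {a u : G} (ha : a ∈ W.V i) (hu : u ∈ W.U j) (h1 : i - 4 ≤ j := by omega)
    (h2 : j ≤ i + 4 := by omega) : Commute a u := ha.2 j h1 h2 u hu

theorem ui {i j k : ℤ} {x : G} (hx : x ∈ W.U k) (h1 : i ≤ k := by omega) (h2 : k ≤ j := by omega) :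
    x ∈ W.I i j := mem_I h1 h2 hx

theorem ev (hE : W.Ev) (j : ℤ) (h : j % 2 = 0 := by omega) : ∃ a ∈ W.V j, a ≠ 1 := hE j (Int.even_iff.2 h)

theorem sq2 (hE : W.Ev) {j : ℤ} {a : G} (ha : a ∈ W.V j) (h : j % 2 = 0 := by omega) : a * a = 1 :=
  sqV hE (Int.even_iff.2 h) ha

theorem sw {u v w : G} (h : u * v = w) (y : G) : u * (v * y) = w * y := by rw [← mul_assoc, h]

theorem cj {g y : G} (h : Commute g y) : g * y * g⁻¹ = y := by rw [h.eq, mul_inv_cancel_right]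

theorem base (hE : W.Ev) {a k l : G} (e : W.Mu 8 a k l) (ha : a ∈ W.V 8) : l ∈ W.U 0 ∧ k = l⁻¹ ∧
    W.Ref (k * a * l) 8 ∧ ∀ y, Commute a y → k * a * l * (l⁻¹ * y * l) * (k * a * l)⁻¹ = l⁻¹ * y * l := by
  have hk := e.invol (sq2 hE ha)
  refine ⟨U_per (W := W) 0 rfl ▸ e.l_mem, hk, e.M.ref8, fun y h => ?_⟩
  rw [hk, show l⁻¹ * a * l * (l⁻¹ * y * l) * (l⁻¹ * a * l)⁻¹ = l⁻¹ * (a * y * a⁻¹) * l by group, cj h]

theorem r8I {m y : G} {i j i' j' : ℤ} (h : W.Ref m 8) (hy : y ∈ W.I i j) (h1 : i' = 8 - j := by omega)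
    (h2 : j' = 8 - i := by omega) : m * y * m⁻¹ ∈ W.I i' j' := by
  subst h1 h2
  exact h.mem_I hy

theorem ex28 {a w : G} (ha : a ∈ W.V 2) (hw : w ∈ W.V 8) :
    ∃ e4 ∈ W.V 4, ∃ x ∈ W.U 5, ∃ e6 ∈ W.V 6, w * a * w⁻¹ = a * e4 * x * e6 := by
  by_cases h : a = 1 ∨ w = 1
  · exact ⟨1, one_mem _, 1, one_mem _, 1, one_mem _, by rcases h with rfl | rfl <;> simp⟩
  obtain ⟨ma, e⟩ := W.exists_M ha.1 (not_or.1 h).1
  obtain ⟨mw, e'⟩ := W.exists_M hw.1 (not_or.1 h).2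
  obtain ⟨h4, h6, x, hx, h⟩ := v28 e e' ha hw
  exact ⟨_, h4, x, hx, _, h6, h⟩

theorem c5 {x r : G} (hE : W.Ev) (hx : x ∈ W.U 5) (h3 : ∀ y ∈ W.U 3, Commute y x) (hr : r ∈ W.I 3 6) :
    Commute x r := by
  refine commute_I (fun k h1 h2 u hu => ?_) hr
  interval_cases k
  exacts [(h3 u hu).symm, (adj hu hx).symm, ab_odd hE (by decide) hx hu, adj hx hu]

end A4

open A4

namespace W8

variable {G : Type*} [Group G] {W : W8 G}

theorem c4 (hE : W.Ev) {a k l y : G} (e : W.Mu 8 a k l) (ha : a ∈ W.V 8) (hy : y ∈ W.U 4) :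
    Commute l y ∧ Commute (k * a * l) y := by
  obtain ⟨hl, -, hm, hc⟩ := base hE e ha
  obtain ⟨r, hr, h⟩ := exists_hi (i := 0) (j := 0) (k := 4) (by omega) (by omega) (ui (inv_mem hl)) hy
  rw [inv_inv] at h
  have t1 : l⁻¹ * y * l ∈ W.I 1 4 := by
    rw [h]
    exact mul_mem (I_mono (by omega) (by omega) hr) (ui hy)
  have t2 : l⁻¹ * y * l ∈ W.I 4 7 := by
    rw [← hc y (vc ha hy)]
    exact r8I hm t1
  have t3 : l⁻¹ * y * l ∈ W.I 4 4 := inter (by omega) (by omega) (by omega) (by omega) t1 t2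
  have r1 : r = 1 := disj (k := 4) (l := 4) (by omega) (by omega) (by omega) hr
    (by rw [eq_mul_inv_of_mul_eq h.symm]; exact mul_mem t3 (inv_mem (ui hy)))
  rw [r1, one_mul] at h
  have := hc y (vc ha hy)
  rw [h] at this
  exact ⟨by rw [Commute, SemiconjBy, ← h, ← mul_assoc, ← mul_assoc, mul_inv_cancel, one_mul, h],
    mul_inv_eq_iff_eq_mul.1 this⟩

theorem w5 (hE : W.Ev) {a k l u : G} (e : W.Mu 8 a k l) (ha : a ∈ W.V 8) (hu : u ∈ W.U 5) :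
    ∃ r ∈ W.U 4, l⁻¹ * u * l = k * a * l * u * (k * a * l)⁻¹ * r * u := by
  obtain ⟨hl, -, hm, hc⟩ := base hE e ha
  generalize k * a * l = m at *
  obtain ⟨r, hr, h⟩ := exists_hi (i := 0) (j := 0) (k := 5) (by omega) (by omega) (ui (inv_mem hl)) hu
  rw [inv_inv] at h
  have u3 : m * u * m⁻¹ ∈ W.U 3 := hm.mem hu
  have r' : m * r * m⁻¹ ∈ W.I 4 7 := r8I hm hr
  have t := hc u (vc ha hu)
  rw [h] at t ⊢
  refine ⟨(m * u * m⁻¹)⁻¹ * r, I_self.1 (inter (i := 1) (l := 7) (by omega) (by omega) (by omega) (by omega)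
    (mul_mem (inv_mem (ui u3)) hr) ?_), by group⟩
  rw [show (m * u * m⁻¹)⁻¹ * r = (m * u * m⁻¹)⁻¹ * (m * r * m⁻¹) * (m * u * m⁻¹)⁻¹⁻¹ * u⁻¹ by
    rw [eq_mul_inv_iff_mul_eq, mul_assoc, ← t]; group]
  exact mul_mem (conj_mem (i := 3) (j := 3) (by omega) (by omega) (by omega) (inv_mem (ui u3)) r')
    (inv_mem (ui hu))

theorem e5_ne (hE : W.Ev) {a w e4 x e6 : G} (ha : a ∈ W.V 2) (h1 : a ≠ 1) (hw : w ∈ W.V 8) (h2 : w ≠ 1)
    (h4 : e4 ∈ W.U 4) (hx : x ∈ W.U 5) (h6 : e6 ∈ W.U 6) (h : w * a * w⁻¹ = a * e4 * x * e6) :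
    x ≠ 1 := by
  rintro rfl
  obtain ⟨ma, ea⟩ := W.exists_M ha.1 h1
  obtain ⟨k, l, e⟩ := W.exists_Mu hw.1 h2
  obtain ⟨hl, hk, hm, -⟩ := base hE e hw
  obtain ⟨f4, f6, x, hx', h'⟩ := v28 ea e.M ha hw
  generalize ma⁻¹ * w * ma = d at f4 h'
  have q := h.symm.trans h'
  simp only [mul_assoc, mul_right_inj, one_mul] at q
  obtain ⟨q1, q2⟩ := uniq (i := 4) (j := 5) (k := 6) (l := 6) (by omega) (by omega) (by omega) (ui h4)
    (mul_mem (ui f4.1) (ui hx')) (ui h6) (ui f6.1) (q.trans (by simp only [mul_assoc]))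
  obtain ⟨rfl, -⟩ := uniq (i := 4) (j := 4) (k := 5) (l := 5) (by omega) (by omega) (by omega) (ui h4)
    (ui f4.1) (one_mem _) (ui hx') ((mul_one _).trans q1)
  have la := (vc ha hl).symm
  have s1 : l * e6 * l⁻¹ = a * e4 * e6 := by
    rw [q2, hk, show l * (l⁻¹ * w * l * a * (l⁻¹ * w * l)⁻¹) * l⁻¹ = w * (l * a * l⁻¹) * w⁻¹ by group, cj la,
      h, mul_one, q2, hk]
  have s2 : l * l * e6 * (l * l)⁻¹ = e6 := by
    rw [show l * l * e6 * (l * l)⁻¹ = l * (l * e6 * l⁻¹) * l⁻¹ by group, s1,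
      show l * (a * e4 * e6) * l⁻¹ = l * a * l⁻¹ * (l * e4 * l⁻¹) * (l * e6 * l⁻¹) by group, s1, cj la,
      cj (vc f4 hl).symm]
    simp only [mul_assoc, (vc f4 ha.1).left_comm, sw (sq2 hE ha), sw (sq2 hE f4), one_mul]
  have l2 : l * l = 1 := disj (i := 0) (j := 0) (by omega) (by omega) (by omega) (ui (mul_mem hl hl))
    (L1 (i := 0) (k := 6) (by omega) (ui (mul_mem hl hl)) h6 (fun e => h1 (conj_eq_one_iff.1 (q2.symm.trans e)))
      (mul_inv_eq_iff_eq_mul.1 s2))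
  have lV : l ∈ W.V 0 := by
    have := hm.mem_V hw
    nth_rewrite 2 [e.swap.invol l2] at this
    generalize k * w * l = m at this
    simpa [hk, mul_assoc] using this
  obtain ⟨u, hu, u1⟩ := W.ne 5
  obtain ⟨c, hc, b, b'⟩ := beta_dn hE (i := 5) (by decide) hu lV
  obtain ⟨r, hr, t⟩ := w5 hE e hw hu
  have u3 : k * w * l * u * (k * w * l)⁻¹ ∈ W.U 3 := hm.mem hu
  have : c = k * w * l * u * (k * w * l)⁻¹ * r := by
    rw [← mul_left_inj u, ← t, (vc hc hu).eq, inv_eq_of_mul_eq_one_right l2, eq_mul_inv_of_mul_eq b.symm,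
      inv_eq_of_mul_eq_one_right l2]
    group
  exact (b' (disj (i := 2) (j := 2) (k := 3) (l := 4) (by omega) (by omega) (by omega) (ui (k := 2) hc.1)
    (this ▸ mul_mem (ui u3) (ui hr)))).elim u1 e.swap.ne

theorem e5_surj [Finite G] (hE : W.Ev) {w x : G} (hw : w ∈ W.V 8) (h1 : w ≠ 1) (hx : x ∈ W.U 5) :
    ∃ a ∈ W.V 2, ∃ e4 ∈ W.V 4, ∃ e6 ∈ W.V 6, w * a * w⁻¹ = a * e4 * x * e6 := by
  choose e4 h4 y hy e6 h6 h using fun a : W.V 2 => ex28 a.2 hw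
  have inj : Function.Injective fun a => (⟨y a, hy a⟩ : W.U 5) := fun a b q => by
    replace q : y a = y b := congrArg Subtype.val q
    by_contra n
    refine e5_ne hE (mul_mem a.2 (inv_mem b.2)) (fun e => n (Subtype.ext (mul_inv_eq_one.1 e))) hw h1
      (mul_mem (h4 a).1 (inv_mem (h4 b).1)) (one_mem _) (mul_mem (h6 a).1 (inv_mem (h6 b).1)) ?_ rfl
    have c6 := mul_mem (h6 a) (inv_mem (h6 b))
    rw [show w * (a * (b : G)⁻¹) * w⁻¹ = w * a * w⁻¹ * (w * b * w⁻¹)⁻¹ by group, h, h, q,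
      show a * e4 a * y b * e6 a * (b * e4 b * y b * e6 b)⁻¹ =
        a * e4 a * (y b * (e6 a * (e6 b)⁻¹) * (y b)⁻¹) * ((e4 b)⁻¹ * (b : G)⁻¹) by group,
      cj (vc c6 (hy b)).symm]
    generalize e6 a * (e6 b)⁻¹ = c at c6
    simp only [mul_assoc, mul_one, (vc c6 (inv_mem (h4 b).1)).left_comm, (vc c6 (inv_mem b.2.1)).eq,
      (vc (inv_mem (h4 b)) (inv_mem b.2.1)).left_comm, (vc (h4 a) (inv_mem b.2.1)).left_comm]
  obtain ⟨a, e⟩ := (inj.bijective_of_nat_card_le (card_eq hE (by decide) (by decide)).le).2 ⟨x, hx⟩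
  replace e : y a = x := congrArg Subtype.val e
  exact ⟨a, a.2, _, h4 a, _, h6 a, e ▸ h a⟩

theorem e5_surj' [Finite G] (hE : W.Ev) {a x : G} (ha : a ∈ W.V 2) (h1 : a ≠ 1) (hx : x ∈ W.U 5) :
    ∃ w ∈ W.V 8, ∃ e4 ∈ W.V 4, ∃ e6 ∈ W.V 6, w * a * w⁻¹ = a * e4 * x * e6 := by
  obtain ⟨w, hw, f6, h6, f4, h4, h⟩ := e5_surj (hE.rf (c := 10) (by decide)) (w := a) (x := x)
    (by rw [rf_V]; exact ha) h1 hx
  rw [rf_V] at hw h6 h4
  replace h6 : f6 ∈ W.V 6 := h6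
  replace h4 : f4 ∈ W.V 4 := h4
  refine ⟨w⁻¹, inv_mem hw, f4, h4, f6, h6, ?_⟩
  rw [show w⁻¹ * a * w⁻¹⁻¹ = w⁻¹ * (a * w * a⁻¹) * a by group, h]
  simp only [mul_assoc, inv_mul_cancel_left, (vc h6 hx).left_comm, (vc h6 h4.1).left_comm,
    (vc h6 ha.1).eq, (vc h4 hx).symm.left_comm, (vc ha hx).symm.left_comm, (vc h4 ha.1).left_comm]

theorem codd2 [Finite G] (hE : W.Ev) {i : ℤ} (hi : Odd i) {x y : G} (hx : x ∈ W.U i)
    (hy : y ∈ W.U (i + 2)) : Commute x y := by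
  have key : ∀ {W : W8 G}, W.Ev → x ∈ W.U 5 → y ∈ W.U 7 → Commute x y := fun {W} hE hx hy => by
    obtain ⟨w, hw, w1⟩ := ev hE 8
    obtain ⟨m, e⟩ := W.exists_M hw.1 w1
    obtain ⟨a, ha, e4, h4, e6, h6, h⟩ := e5_surj hE hw w1 hx
    have := key57 (e.ref8.mem' hy) e ha hw h4 hx h6 h
    simpa [mul_assoc] using this.symm
  exact key (hE.sh (c := i - 5) (hi.sub_odd (by decide))) (by simpa using hx)
    (by rw [sh_U, show 7 + (i - 5) = i + 2 by ring]; exact hy)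

theorem A4_c15 [Finite G] (hE : W.Ev) {u x : G} (hu : u ∈ W.U 1) (hx : x ∈ W.U 5) :
    x⁻¹ * u⁻¹ * x * u ∈ W.U 4 := by
  by_cases u1 : u = 1
  · simp [u1]
  obtain ⟨w, hw, w1⟩ := ev hE 8
  obtain ⟨m, e⟩ := W.exists_M hw.1 w1
  obtain ⟨n, e'⟩ := W.exists_M hu u1
  obtain ⟨a, ha, e4, h4, e6, h6, h⟩ := e5_surj hE hw w1 hx
  obtain ⟨r, hr, s⟩ := sl8 e hu
  obtain ⟨r', hr', s'⟩ := sl1 e' hw.1
  have h7 : m * u * m⁻¹ ∈ W.U 7 := e.ref8.mem hu
  have h2 : n⁻¹ * w * n ∈ W.V 2 := e'.ref.mem_V' hw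
  generalize m * u * m⁻¹ = w7 at *
  generalize n⁻¹ * w * n = w2 at *
  have r3 : w2⁻¹ * r ∈ W.I 3 6 := inter (i := 2) (l := 7) (by omega) (by omega) (by omega) (by omega)
    (mul_mem (inv_mem (ui h2.1)) hr) (by
      rw [show w2⁻¹ * r = r' * w7⁻¹ by
        rw [eq_mul_inv_iff_mul_eq, mul_assoc, mul_right_cancel (s.symm.trans s'), inv_mul_cancel_left]]
      exact mul_mem hr' (inv_mem (ui h7)))
  have rx : Commute r x := by
    rw [← mul_inv_cancel_left w2 r]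
    exact (vc h2 hx).mul_left (c5 hE hx (fun y hy => codd2 hE (by decide) hy hx) r3).symm
  obtain ⟨c, hc, b, -⟩ := beta_dn hE (i := 7) (by decide) (inv_mem h7) ha
  obtain ⟨d, hd, b', -⟩ := beta_up hE (i := 1) (by decide) hu h6
  replace hc : c ∈ W.V 4 := hc
  replace hd : d ∈ W.V 4 := hd
  rw [inv_inv] at b
  have t1 : u⁻¹ * (w * a * w⁻¹) * u = c * a * e4 * x * e6 := by
    rw [show u⁻¹ * (w * a * w⁻¹) * u = u⁻¹ * w * u * (u⁻¹ * a * u⁻¹⁻¹) * (u⁻¹ * w * u)⁻¹ by group,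
      cj (vc ha (inv_mem hu)).symm, s,
      show r * w7 * w * a * (r * w7 * w)⁻¹ = r * (w7 * (w * a * w⁻¹) * w7⁻¹) * r⁻¹ by group, h,
      show w7 * (a * e4 * x * e6) * w7⁻¹ = w7 * a * w7⁻¹ * (w7 * (e4 * x * e6) * w7⁻¹) by group, b,
      cj (((vc h4 h7).symm.mul_right (codd2 hE (by decide) hx h7).symm).mul_right (vc h6 h7).symm), cj]
    · simp only [mul_assoc]
    have v : ∀ {i : ℤ} {y : G}, y ∈ W.V i → 2 ≤ i → i ≤ 6 → Commute r y := fun hy _ _ =>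
      (V_commute hy (by omega) (by omega) hr).symm
    exact ((v hc (by omega) (by omega)).mul_right (v ha (by omega) (by omega))).mul_right
      (((v h4 (by omega) (by omega)).mul_right rx).mul_right (v h6 (by omega) (by omega)))
  rw [h, show u⁻¹ * (a * e4 * x * e6) * u = u⁻¹ * (a * e4) * u⁻¹⁻¹ * (u⁻¹ * x * u) * (u⁻¹ * e6 * u) by group,
    b', cj ((vc ha (inv_mem hu)).symm.mul_right (vc h4 (inv_mem hu)).symm)] at t1
  simp only [mul_assoc, (vc hc ha.1).left_comm, (vc hc h4.1).left_comm, (vc hc hx).left_comm,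
    mul_right_inj] at t1
  rw [show x⁻¹ * u⁻¹ * x * u = c * d⁻¹ by
    rw [← mul_left_inj (d * e6)]; simp only [mul_assoc, t1, inv_mul_cancel_left]]
  exact mul_mem hc.1 (inv_mem hd.1)

theorem codd4 [Finite G] (hE : W.Ev) {i : ℤ} (hi : Odd i) {x y : G} (hx : x ∈ W.U i)
    (hy : y ∈ W.U (i + 4)) : Commute x y := by
  have key : ∀ {W : W8 G}, W.Ev → x ∈ W.U 1 → y ∈ W.U 5 → Commute x y := fun {W} hE hx hy => by
    have a1 := A4_c15 hE hx hy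
    have a2 : x⁻¹ * y⁻¹ * x * y ∈ W.U 2 := A4_c15 (hE.rf (c := 6) (by decide)) hy hx
    have := disj (i := 2) (j := 2) (k := 4) (l := 4) (by omega) (by omega) (by omega) (ui a2)
      (by simpa [mul_assoc] using ui (i := 4) (j := 4) (inv_mem a1))
    rw [Commute, SemiconjBy, ← mul_one (y * x), ← this]
    group
  exact key (hE.sh (c := i - 1) (hi.sub_odd (by decide))) (by simpa using hx)
    (by rw [sh_U, show 5 + (i - 1) = i + 4 by ring]; exact hy)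

end W8

end FS8
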