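import Mathlib
import Cfsg.Agent.Lib.FS8.A4

set_option autoImplicit false

open scoped commutatorElement

namespace FS8

open H78.Oct H78.Oct.Co

namespace W8

variable {G : Type*} [Group G] {W : W8 G}

private theorem cj {g y : G} (h : Commute g y) : g * y * g⁻¹ = y := by rw [h.eq, mul_inv_cancel_right]

private theorem jc {g y : G} (h : g * y * g⁻¹ = y) : Commute g y := mul_inv_eq_iff_eq_mul.1 h

private theorem vc {i j : ℤ} {a x : G} (ha : a ∈ W.V i) (hx : x ∈ W.U j)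
    (h1 : i - 4 ≤ j := by norm_num) (h2 : j ≤ i + 4 := by norm_num) : Commute a x :=
  ha.2 j h1 h2 x hx

private theorem key [Finite G] (hE : W.Ev) {w a z e4 x e6 d r a' f : G} (hw : w ∈ W.U 8)
    (hz : z ∈ W.V 8) (h4 : e4 ∈ W.V 4) (hx : x ∈ W.U 5) (h6 : e6 ∈ W.V 6) (hd : d ∈ W.U 3)
    (hr : r ∈ W.I 4 5) (ha' : a' ∈ W.V 6) (hf : f ∈ W.V 6)
    (e1 : z * a * z⁻¹ = a * e4 * x * e6) (e2 : w * a * w⁻¹ = a * d * r * a')
    (e3 : z * d * z⁻¹ = d * f) : w * x * w⁻¹ = x * f := by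
  have L : w * (z * a * z⁻¹) * w⁻¹ =
      w * a * w⁻¹ * (w * e4 * w⁻¹) * (w * x * w⁻¹) * (w * e6 * w⁻¹) := by rw [e1]; group
  have R : z * (w * a * w⁻¹) * z⁻¹ =
      z * a * z⁻¹ * (z * d * z⁻¹) * (z * r * z⁻¹) * (z * a' * z⁻¹) := by rw [e2]; group
  have E : w * (z * a * z⁻¹) * w⁻¹ = z * (w * a * w⁻¹) * z⁻¹ := by
    calc _ = w * z * a * (w * z)⁻¹ := by group
      _ = z * w * a * (z * w)⁻¹ := by rw [(vc hz hw).eq]
      _ = _ := by group
  rw [L, R, e1, e2, e3, cj (vc h4 hw).symm, cj (vc h6 hw).symm,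
    cj (V_commute hz (by norm_num) (by norm_num) hr), cj (vc hz ha'.1)] at E
  have c1 : Commute e4 d := vc h4 hd
  have c2 : Commute e4 r := V_commute h4 (by norm_num) (by norm_num) hr
  have c3 : Commute e4 a' := vc h4 ha'.1
  have c4 : Commute x d := (codd2 hE (i := 3) (by decide) hd hx).symm
  have c5 : Commute x r := commute_I (fun k h1 h2 u hu => by
    interval_cases k
    · exact (adj (i := 4) hu hx).symm
    · exact ab_odd hE (by decide) hx hu) hr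
  have c6 : Commute x a' := (vc ha' hx).symm
  have c7 : Commute e6 d := vc h6 hd
  have c8 : Commute e6 f := vc h6 hf.1
  have c9 : Commute e6 r := V_commute h6 (by norm_num) (by norm_num) hr
  have c10 : Commute e6 a' := vc h6 ha'.1
  have c11 : Commute f r := V_commute hf (by norm_num) (by norm_num) hr
  have c12 : Commute f a' := vc hf ha'.1
  have F : a * e4 * x * e6 * (d * f) * r * a' = a * d * r * a' * e4 * (x * f) * e6 := by
    simp only [mul_assoc, c1.left_comm, c2.left_comm, c3.left_comm, c4.left_comm, c5.left_comm,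
      c6.left_comm, c7.left_comm, c8.left_comm, c9.left_comm, c10.eq, c11.left_comm, c12.left_comm]
  rw [F] at E
  exact mul_left_cancel (mul_right_cancel E)

private theorem u28' {w a : G} (hw : w ∈ W.U 8) (ha : a ∈ W.V 2) :
    ∃ d ∈ W.U 3, ∃ r ∈ W.I 4 5, ∃ a' ∈ W.V 6, w * a * w⁻¹ = a * d * r * a' := by
  by_cases h : w = 1
  · exact ⟨1, one_mem _, 1, one_mem _, 1, one_mem _, by simp [h]⟩
  · obtain ⟨m, hm⟩ := W.exists_M hw h
    obtain ⟨h6, d, hd, r, hr, e⟩ := u28 hm ha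
    exact ⟨d, hd, r, hr, _, h6, e⟩

private theorem b38 (hE : W.Ev) {d z : G} (hd : d ∈ W.U 3) (hz : z ∈ W.V 8) :
    ∃ f ∈ W.V 6, z * d * z⁻¹ = d * f ∧ (f = 1 → d = 1 ∨ z = 1) := by
  obtain ⟨c, hc, e, h⟩ := beta_up hE (i := 3) (by decide) hd hz
  refine ⟨c, hc, ?_, h⟩
  calc z * d * z⁻¹ = d * (d⁻¹ * z * d) * z⁻¹ := by group
    _ = _ := by rw [e]; group

theorem c58 [Finite G] (hE : W.Ev) {w x : G} (hw : w ∈ W.U 8) (hx : x ∈ W.U 5) :
    ∃ f ∈ W.V 6, w * x * w⁻¹ = x * f := by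
  obtain ⟨z, hz, h1⟩ := hE 8 (by decide)
  obtain ⟨a, ha, e4, h4, e6, h6, e1⟩ := e5_surj hE hz h1 hx
  obtain ⟨d, hd, r, hr, a', ha', e2⟩ := u28' hw ha
  obtain ⟨f, hf, e3, -⟩ := b38 hE hd hz
  exact ⟨f, hf, key hE hw hz h4 hx h6 hd hr ha' hf e1 e2 e3⟩

private theorem lo25 {v a : G} (hv : v ∈ W.U 8) (ha : a ∈ W.V 2) (h1 : a ≠ 1)
    (h : v * a * v⁻¹ ∈ W.I 2 5) : v = 1 := by
  by_contra hn
  obtain ⟨m, hm⟩ := W.exists_M hv hn
  obtain ⟨h6, d, hd, r, hr, e⟩ := u28 hm ha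
  have h2 : a * d * r ∈ W.I 2 5 :=
    mul_mem (mul_mem (mem_I (by norm_num) (by norm_num) ha.1) (mem_I (by norm_num) (by norm_num) hd))
      (I_mono (by norm_num) (by norm_num) hr)
  have h3 : m * a * m⁻¹ ∈ W.I 2 5 := by
    rw [e] at h
    exact (mul_mem_cancel_left h2).1 h
  have h4 := disj (by norm_num) (by norm_num) (by norm_num) h3 (I_self.2 h6.1)
  exact h1 (by simpa [mul_inv_eq_one] using h4)

private theorem v28' {z a : G} (hz : z ∈ W.V 8) (ha : a ∈ W.V 2) (h1 : a ≠ 1) :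
    ∃ e6 ∈ W.V 6, ∃ e4 ∈ W.V 4, ∃ x ∈ W.U 5, z * a * z⁻¹ = a * e4 * x * e6 := by
  by_cases h : z = 1
  · exact ⟨1, one_mem _, 1, one_mem _, 1, one_mem _, by simp [h]⟩
  · obtain ⟨m, hm⟩ := W.exists_M hz.1 h
    obtain ⟨ma, hma⟩ := W.exists_M ha.1 h1
    obtain ⟨h4, h6, x, hx, e⟩ := v28 hma hm ha hz
    exact ⟨_, h6, _, h4, x, hx, e⟩

private theorem surj_of [Finite G] (hE : W.Ev) {i j : ℤ} (hi : Even i) (hj : Even j)
    (φ : W.V i → W.V j) (h : Function.Injective φ) : Function.Surjective φ := by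
  have e : Nat.card (W.V i) = Nat.card (W.V j) :=
    (card_eq hE (i := 1) (by decide) hi).symm.trans (card_eq hE (i := 1) (by decide) hj)
  exact ((Nat.bijective_iff_injective_and_card φ).2 ⟨h, e⟩).2

private theorem e6_surj [Finite G] (hE : W.Ev) {a b : G} (ha : a ∈ W.V 2) (h1 : a ≠ 1)
    (hb : b ∈ W.V 6) : ∃ z ∈ W.V 8, ∃ e4 ∈ W.V 4, ∃ x ∈ W.U 5, z * a * z⁻¹ = a * e4 * x * b := by
  choose φ h6 e4 h4 x hx e using fun z : W.V 8 => v28' z.2 ha h1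
  have hi : Function.Injective fun z => (⟨φ z, h6 z⟩ : W.V 6) := by
    intro z z' h
    have h' : φ z = φ z' := congrArg Subtype.val h
    have c1 : Commute (z' : G) (e4 z * x z * φ z) :=
      ((vc z'.2 (h4 z).1).mul_right (vc z'.2 (hx z))).mul_right (vc z'.2 (h6 z).1)
    have c2 : Commute (z' : G) (e4 z' * x z' * φ z') :=
      ((vc z'.2 (h4 z').1).mul_right (vc z'.2 (hx z'))).mul_right (vc z'.2 (h6 z').1)
    have c3 : Commute (φ z) ((e4 z' * x z')⁻¹ * (e4 z * x z)) :=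
      ((vc (h6 z) (h4 z').1).mul_right (vc (h6 z) (hx z'))).inv_right.mul_right
        ((vc (h6 z) (h4 z).1).mul_right (vc (h6 z) (hx z)))
    have e1 : (z' : G)⁻¹ * a * z' = a * (e4 z' * x z' * φ z')⁻¹ := by
      calc _ = (z' : G)⁻¹ * (a * e4 z' * x z' * φ z') * z' *
            ((z' : G)⁻¹ * (e4 z' * x z' * φ z') * (z' : G)⁻¹⁻¹)⁻¹ := by group
        _ = _ := by rw [cj c2.inv_left, ← e z']; group
    have e2 : (z' : G)⁻¹ * z * a * ((z' : G)⁻¹ * z)⁻¹ = a * ((e4 z' * x z')⁻¹ * (e4 z * x z)) := by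
      calc _ = (z' : G)⁻¹ * (z * a * (z : G)⁻¹) * z' := by group
        _ = (z' : G)⁻¹ * a * z' * ((z' : G)⁻¹ * (e4 z * x z * φ z) * (z' : G)⁻¹⁻¹) := by
          rw [e z]; group
        _ = a * ((φ z)⁻¹ * ((e4 z' * x z')⁻¹ * (e4 z * x z)) * (φ z)⁻¹⁻¹) := by
          rw [cj c1.inv_left, e1, ← h']; group
        _ = _ := by rw [cj c3.inv_left]
    have m45 : ∀ y : W.V 8, e4 y * x y ∈ W.I 2 5 := fun y =>
      mul_mem (mem_I (by norm_num) (by norm_num) (h4 y).1) (mem_I (by norm_num) (by norm_num) (hx y))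
    have e3 := lo25 (mul_mem (inv_mem z'.2.1) z.2.1) ha h1 (by
      rw [e2]
      exact mul_mem (mem_I (by norm_num) (by norm_num) ha.1) (mul_mem (inv_mem (m45 z')) (m45 z)))
    exact Subtype.ext (inv_mul_eq_one.1 e3).symm
  obtain ⟨z, hz⟩ := surj_of hE (by decide) (by decide) _ hi ⟨b, hb⟩
  have hz' : φ z = b := congrArg Subtype.val hz
  exact ⟨z, z.2, e4 z, h4 z, x z, hx z, hz' ▸ e z⟩

theorem k8 [Finite G] (hE : W.Ev) {w x : G} (hw : w ∈ W.U 8) (hx : x ∈ W.U 5) (h1 : x ≠ 1)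
    (h : Commute w x) : w ∈ W.V 8 := by
  obtain ⟨a, ha, ha1⟩ := hE 2 (by decide)
  obtain ⟨d, hd, r, hr, a', ha', e2⟩ := u28' hw ha
  have hd1 : d = 1 := by
    obtain ⟨z, hz, e4, h4, e6, h6, e1⟩ := e5_surj' hE ha ha1 hx
    obtain ⟨f, hf, e3, h3⟩ := b38 hE hd hz
    have e4' := key hE hw hz h4 hx h6 hd hr ha' hf e1 e2 e3
    rw [cj h] at e4'
    rcases h3 (by simpa using e4') with h3 | h3
    · exact h3
    · exact absurd (by
        have e5 : e4 * x * e6 = 1 := by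
          rw [h3] at e1
          have : a * 1 = a * (e4 * x * e6) := by simpa [mul_assoc] using e1
          exact (mul_left_cancel this).symm
        have e7 := (uniq (i := 4) (j := 5) (k := 6) (l := 6) (by norm_num) (by norm_num) (by norm_num)
          (mul_mem (mem_I (by norm_num) (by norm_num) h4.1) (mem_I (by norm_num) (by norm_num) hx))
          (one_mem _) (I_self.2 h6.1) (one_mem _) (e5.trans (one_mul 1).symm)).1
        exact (uniq (i := 4) (j := 4) (k := 5) (l := 5) (by norm_num) (by norm_num) (by norm_num)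
          (I_self.2 h4.1) (one_mem _) (I_self.2 hx) (one_mem _) (e7.trans (one_mul 1).symm)).2) h1
  obtain ⟨z, hz, e4, h4, y, hy, e1⟩ := e6_surj hE ha ha1 (inv_mem ha')
  have cy : w * y * w⁻¹ = y := by
    simpa using key hE hw hz h4 hy (inv_mem ha') hd hr ha' (one_mem _) e1 e2 (by simp [hd1])
  have c3 : Commute a' (e4 * y) := (vc ha' h4.1).mul_right (vc ha' hy)
  have e5 : w * z * a * (w * z)⁻¹ = a * d * r * (e4 * y) := by
    calc _ = w * (z * a * z⁻¹) * w⁻¹ := by group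
      _ = w * a * w⁻¹ * (w * e4 * w⁻¹) * (w * y * w⁻¹) * (w * a'⁻¹ * w⁻¹) := by rw [e1]; group
      _ = a * d * r * (a' * (e4 * y) * a'⁻¹) := by
        rw [e2, cy, cj (vc h4 hw).symm, cj (vc (inv_mem ha') hw).symm]; group
      _ = _ := by rw [cj c3]
  have e6 := lo25 (mul_mem hw hz.1) ha ha1 (by
    rw [e5]
    exact mul_mem (mul_mem (mul_mem (mem_I (by norm_num) (by norm_num) ha.1)
      (mem_I (by norm_num) (by norm_num) hd)) (I_mono (by norm_num) (by norm_num) hr))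
      (mul_mem (mem_I (by norm_num) (by norm_num) h4.1) (mem_I (by norm_num) (by norm_num) hy)))
  rw [eq_inv_of_mul_eq_one_left e6]
  exact inv_mem hz

private theorem c03 [Finite G] (hE : W.Ev) {l x : G} (hl : l ∈ W.U 0) (hx : x ∈ W.U 3) :
    ∃ c ∈ W.V 2, l * x * l⁻¹ = x * c := by
  obtain ⟨c, hc, e⟩ := c58 (W := W.rf 8) (hE.rf (by decide)) (w := l) (x := x) hl hx
  rw [rf_V] at hc
  exact ⟨c, hc, e⟩

theorem lsq [Finite G] (hE : W.Ev) {a k l : G} (e : W.Mu 8 a k l) (ha : a ∈ W.V 8) :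
    l * l = k * a * l * a * (k * a * l)⁻¹ := by
  have ha2 := sqV hE (by decide) ha
  have hk : k = l⁻¹ := e.invol ha2
  have hl : l ∈ W.U 0 := U_per (W := W) 0 rfl ▸ e.l_mem
  have hM := e.M
  have hm2 := hM.sq ha2
  have hR := hM.ref8
  have hc4 : ∀ y ∈ W.U 4, Commute l y ∧ Commute (k * a * l) y := fun y hy => c4 hE e ha hy
  have hw5 : ∀ u ∈ W.U 5, ∃ r ∈ W.U 4, l⁻¹ * u * l = k * a * l * u * (k * a * l)⁻¹ * r * u :=
    fun u hu => w5 hE e ha hu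
  have hm : k * a * l = l⁻¹ * a * l := by rw [hk]
  generalize k * a * l = m at *
  have hb : l * l ∈ W.V 0 := by
    obtain ⟨x, hx, h1⟩ := W.ne 3
    obtain ⟨c, hc, e1⟩ := c03 hE hl hx
    have := k8 (W := W.rf 8) (hE.rf (by decide)) (w := l * l) (x := x) (mul_mem hl hl) hx h1 (jc (by
      calc l * l * x * (l * l)⁻¹ = l * (l * x * l⁻¹) * l⁻¹ := by group
        _ = l * (x * c) * l⁻¹ := by rw [e1]
        _ = l * x * l⁻¹ * (l * c * l⁻¹) := by group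
        _ = x * (c * c) := by rw [e1, cj (vc hc hl).symm, mul_assoc]
        _ = x := by rw [sqV hE (by decide) hc, mul_one]))
    rwa [rf_V] at this
  have hb' : m * a * m⁻¹ ∈ W.V 0 := hR.mem_V ha
  obtain ⟨a2, h2, h21⟩ := hE 2 (by decide)
  obtain ⟨ma, hma⟩ := W.exists_M h2.1 h21
  obtain ⟨h4, h6, x, hx, e1⟩ := v28 hma hM h2 ha
  generalize ma⁻¹ * a * ma = e4 at h4 e1
  obtain ⟨r4, hr4, e2⟩ := hw5 x hx
  have hr3 : m * x * m⁻¹ ∈ W.U 3 := hR.mem hx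
  obtain ⟨c, hc, e3⟩ := c03 hE hl hr3
  have e4' : l * (m * a2 * m⁻¹) * l⁻¹ = a * a2 * a⁻¹ := by
    calc _ = a * (l * a2 * l⁻¹) * a⁻¹ := by rw [hm]; group
      _ = _ := by rw [cj (vc h2 hl).symm]
  have e5 : m * (m * a2 * m⁻¹) * m⁻¹ = a2 := by
    calc _ = m * m * a2 * (m * m)⁻¹ := by group
      _ = _ := by rw [hm2]; group
  have e6' : m * a * m⁻¹ * (m * a2 * m⁻¹) * (m * a * m⁻¹)⁻¹ =
      m * a2 * m⁻¹ * (e4 * (m * x * m⁻¹) * a2) := by
    calc _ = m * (a * a2 * a⁻¹) * m⁻¹ := by group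
      _ = m * a2 * m⁻¹ * (m * e4 * m⁻¹ * (m * x * m⁻¹) * (m * (m * a2 * m⁻¹) * m⁻¹)) := by
        rw [e1]; group
      _ = _ := by rw [e5, cj (hc4 _ h4.1).2]
  have h61 : m * a2 * m⁻¹ ≠ 1 := fun h => h21 (by simpa [mul_inv_eq_one] using h)
  generalize m * a2 * m⁻¹ = e6 at *
  generalize m * x * m⁻¹ = r3 at *
  generalize m * a * m⁻¹ = b' at *
  have e7 : l * x * l⁻¹ = r4⁻¹ * c⁻¹ * r3⁻¹ * x := by
    have : x = r3 * c * r4 * (l * x * l⁻¹) := by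
      calc x = l * (l⁻¹ * x * l) * l⁻¹ := by group
        _ = l * r3 * l⁻¹ * (l * r4 * l⁻¹) * (l * x * l⁻¹) := by rw [e2]; group
        _ = _ := by rw [e3, cj (hc4 _ hr4).1]
    calc _ = r4⁻¹ * c⁻¹ * r3⁻¹ * (r3 * c * r4 * (l * x * l⁻¹)) := by group
      _ = _ := by rw [← this]
  have p1 : Commute (a2 * e4) (r4⁻¹ * c⁻¹ * r3⁻¹ * x) :=
    ((((vc h2 hr4).inv_right.mul_right (vc h2 hc.1).inv_right).mul_right
      (vc h2 hr3).inv_right).mul_right (vc h2 hx)).mul_left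
    ((((vc h4 hr4).inv_right.mul_right (vc h4 hc.1).inv_right).mul_right
      (vc h4 hr3).inv_right).mul_right (vc h4 hx))
  have p2 : a2 * e4 * (a2 * e4) = 1 := by
    calc _ = a2 * (e4 * a2) * e4 := by group
      _ = a2 * a2 * (e4 * e4) := by rw [(vc h4 h2.1).eq]; group
      _ = 1 := by rw [sqV hE (by decide) h2, sqV hE (by decide) h4, mul_one]
  have e8 : l * l * e6 * (l * l)⁻¹ = r4⁻¹ * c⁻¹ * r3⁻¹ * e6 := by
    calc _ = l * (l * e6 * l⁻¹) * l⁻¹ := by group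
      _ = l * (a2 * e4 * x * e6) * l⁻¹ := by rw [e4', e1]
      _ = l * a2 * l⁻¹ * (l * e4 * l⁻¹) * (l * x * l⁻¹) * (l * e6 * l⁻¹) := by group
      _ = a2 * e4 * (r4⁻¹ * c⁻¹ * r3⁻¹ * x) * (a2 * e4 * x * e6) := by
        rw [e7, e4', e1, cj (vc h2 hl).symm, cj (vc h4 hl).symm]
      _ = r4⁻¹ * c⁻¹ * r3⁻¹ * x * (a2 * e4 * (a2 * e4)) * x * e6 := by rw [p1.eq]; group
      _ = r4⁻¹ * c⁻¹ * r3⁻¹ * (x * x) * e6 := by rw [p2]; group
      _ = _ := by rw [sqU hE (by decide) hx, mul_one]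
  generalize l * l = b at *
  by_contra hne
  have q1 : ∀ v ∈ W.V 0, Commute v (e4 * r3 * a2) := fun v hv =>
    ((vc hv h4.1).mul_right (vc hv hr3)).mul_right (vc hv h2.1)
  have e9 : b'⁻¹ * e6 * b' = e6 * (e4 * r3 * a2)⁻¹ := by
    calc _ = b'⁻¹ * (e6 * (e4 * r3 * a2)) * b' * (b'⁻¹ * (e4 * r3 * a2) * b'⁻¹⁻¹)⁻¹ := by group
      _ = _ := by rw [cj (q1 _ hb').inv_left, ← e6']; group
  have q2 : Commute e6 (r4⁻¹ * c⁻¹ * r3⁻¹) :=
    ((vc h6 hr4).inv_right.mul_right (vc h6 hc.1).inv_right).mul_right (vc h6 hr3).inv_right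
  have q3 : Commute e4 (c⁻¹ * a2⁻¹) := (vc h4 hc.1).inv_right.mul_right (vc h4 h2.1).inv_right
  have e10 : b * b'⁻¹ * e6 * (b * b'⁻¹)⁻¹ = e6 * (r4⁻¹ * e4⁻¹) * 1 * (c⁻¹ * a2⁻¹) := by
    calc _ = b * (b'⁻¹ * e6 * b') * b⁻¹ := by group
      _ = b * e6 * b⁻¹ * (b * (e4 * r3 * a2) * b⁻¹)⁻¹ := by rw [e9]; group
      _ = e6 * (r4⁻¹ * c⁻¹ * r3⁻¹) * (e4 * r3 * a2)⁻¹ := by rw [e8, cj (q1 _ hb), q2.eq]
      _ = e6 * r4⁻¹ * c⁻¹ * (r3 * (a2 * r3))⁻¹ * e4⁻¹ := by group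
      _ = e6 * r4⁻¹ * c⁻¹ * (r3 * r3 * a2)⁻¹ * e4⁻¹ := by rw [(vc h2 hr3).eq, mul_assoc r3]
      _ = e6 * r4⁻¹ * (c⁻¹ * a2⁻¹ * e4⁻¹) := by rw [sqU hE (by decide) hr3]; group
      _ = _ := by rw [← q3.inv_left.eq]; group
  exact e5_ne (W := W.rf 8) (hE.rf (by decide)) (a := e6) (w := b * b'⁻¹) (by rw [rf_V]; exact h6) h61
    (by rw [rf_V]; exact mul_mem hb (inv_mem hb')) (fun h => hne (mul_inv_eq_one.1 h))
    (show r4⁻¹ * e4⁻¹ ∈ W.U 4 from mul_mem (inv_mem hr4) (inv_mem h4.1)) (one_mem _)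
    (show c⁻¹ * a2⁻¹ ∈ W.U 2 from mul_mem (inv_mem hc.1) (inv_mem h2.1)) e10 rfl

private theorem lsq0 [Finite G] (hE : W.Ev) {a k l : G} (e : W.Mu 0 a k l) (ha : a ∈ W.V 0) :
    l * l = k * a * l * a * (k * a * l)⁻¹ :=
  lsq (W := W.rf 8) (hE.rf (by decide)) ((W.rf_Mu 8 8 a k l).2 e) (by rw [rf_V]; exact ha)

theorem cover [Finite G] (hE : W.Ev) {w : G} (hw : w ∈ W.U 8) :
    w ∈ W.V 8 ∨ ∃ a k l z, W.Mu 0 a k l ∧ a ∈ W.V 0 ∧ z ∈ W.V 8 ∧ w = l * z := by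
  obtain ⟨x, hx, hx1⟩ := W.ne 5
  have K : ∀ l ∈ W.U 8, ∀ l' ∈ W.U 8, l * x * l⁻¹ = l' * x * l'⁻¹ → l⁻¹ * l' ∈ W.V 8 :=
    fun l hl l' hl' h => k8 hE (mul_mem (inv_mem hl) hl') hx hx1 (jc (by
      calc l⁻¹ * l' * x * (l⁻¹ * l')⁻¹ = l⁻¹ * (l' * x * l'⁻¹) * l := by group
        _ = x := by rw [← h]; group))
  have A : ∀ a : W.V 0, ∃ f ∈ W.V 6, ∃ k l, l ∈ W.U 8 ∧ l * x * l⁻¹ = x * f ∧
      ((a : G) = 1 ∧ l = 1 ∨ W.Mu 0 a k l) := fun a => by
    by_cases h : (a : G) = 1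
    · exact ⟨1, one_mem _, 1, 1, one_mem _, by simp, Or.inl ⟨h, rfl⟩⟩
    · obtain ⟨k, l, e⟩ := W.exists_Mu a.2.1 h
      obtain ⟨f, hf, e'⟩ := c58 hE (w := l) e.l_mem hx
      exact ⟨f, hf, k, l, e.l_mem, e', Or.inr e⟩
  choose φ h6 k l hl e h using A
  have N : ∀ a : W.V 0, W.Mu 0 a (k a) (l a) → l a * l a ≠ 1 := fun a m h' => by
    rw [lsq0 hE m a.2] at h'
    exact m.ne (mul_eq_left.1 (mul_inv_eq_one.1 h'))
  have hi : Function.Injective fun a => (⟨φ a, h6 a⟩ : W.V 6) := by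
    intro a a' h0
    have h1 : φ a = φ a' := congrArg Subtype.val h0
    have hz := K _ (hl a) _ (hl a') (by rw [e, e, h1])
    have h2 : l a' * l a' = l a * l a := by
      calc _ = l a * ((l a)⁻¹ * l a' * l a) * ((l a)⁻¹ * l a') := by group
        _ = l a * l a * ((l a)⁻¹ * l a' * ((l a)⁻¹ * l a')) := by rw [(vc hz (hl a)).eq]; group
        _ = _ := by rw [sqV hE (by decide) hz, mul_one]
    rcases h a with ⟨p, q⟩ | p <;> rcases h a' with ⟨p', q'⟩ | p'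
    · exact Subtype.ext (p.trans p'.symm)
    · exact absurd (by rw [h2, q, one_mul]) (N _ p')
    · exact absurd (by rw [← h2, q', one_mul]) (N _ p)
    · rw [lsq0 hE p a.2, lsq0 hE p' a'.2] at h2
      have m1 := p.M.conj_ref p.M.ref
      have m2 := p'.M.conj_ref p'.M.ref
      rw [h2] at m2
      have m3 := m1.uniq m2
      rw [mul_inv_cancel_right, mul_inv_cancel_right] at m3
      rw [← m3] at h2
      exact Subtype.ext (mul_left_cancel (mul_right_cancel h2)).symm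
  obtain ⟨f, hf, ew⟩ := c58 hE hw hx
  obtain ⟨a, ha⟩ := surj_of hE (by decide) (by decide) _ hi ⟨f, hf⟩
  have ha' : φ a = f := congrArg Subtype.val ha
  have hz := K _ (hl a) _ hw (by rw [e, ew, ha'])
  rcases h a with ⟨-, q⟩ | p
  · left
    simpa [q] using hz
  · exact Or.inr ⟨a, k a, l a, _, p, a.2, hz, by group⟩

private theorem cev48 [Finite G] (hE : W.Ev) {x y : G} (hx : x ∈ W.U 4) (hy : y ∈ W.U 8) :
    Commute x y := by
  rcases cover hE hy with h | ⟨a, k, l, z, e, ha, hz, rfl⟩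
  · exact (vc h hx).symm
  · exact ((c4 (W := W.rf 8) (hE.rf (by decide)) ((W.rf_Mu 8 8 a k l).2 e) (by rw [rf_V]; exact ha)
      (y := x) hx).1.mul_left (vc hz hx)).symm

theorem cev4 [Finite G] (hE : W.Ev) {j : ℤ} (hj : Even j) {x y : G} (hx : x ∈ W.U j)
    (hy : y ∈ W.U (j + 4)) : Commute x y :=
  cev48 (W := W.sh (j - 4)) (hE.sh (hj.sub (by decide)))
    (by rw [sh_U, show 4 + (j - 4) = j by ring]; exact hx)
    (by rw [sh_U, show 8 + (j - 4) = j + 4 by ring]; exact hy)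

end W8

end FS8
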