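import Mathlib
import Cfsg.Agent.Lib.FS8.Bs2

/-! Finite Moufang octagons: torus elements which act by scalars. -/

set_option autoImplicit false

open scoped commutatorElement

namespace FS8

open H78.Oct H78.Oct.Co

namespace C1

variable {G : Type*} [Group G] {W : W8 G} {K : Type} [Field K] (C : C1 W K)

theorem ref1 : W.Ref C.n1 10 := C.m1.ref

theorem ref2 : W.Ref C.n2 8 := C.m2.ref8

private theorem cjm (a b y : G) : a * b * y * (a * b)⁻¹ = a * (b * y * b⁻¹) * a⁻¹ := by group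

private theorem cj3 (g a b : G) :
    g * (a⁻¹ * b * a) * g⁻¹ = (g * a * g⁻¹)⁻¹ * (g * b * g⁻¹) * (g * a * g⁻¹) := by group

theorem exists_sh (k : ℤ) : ∃ g : G, (∀ j y, y ∈ W.U j ↔ g * y * g⁻¹ ∈ W.U (j + 2 * k)) ∧
    (∀ i t, g * C.x i t * g⁻¹ = C.x (i + 2 * k) t) ∧ ∀ j u, g * C.z j u * g⁻¹ = C.z (j + 2 * k) u := by
  induction k using Int.induction_on with
  | zero => exact ⟨1, by simp, by simp, by simp⟩
  | succ k ih =>
    obtain ⟨g, h1, h2, h3⟩ := ih
    have e : ∀ j : ℤ, 10 - (8 - (j + 2 * k)) = j + 2 * (k + 1) := fun j => by ring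
    exact ⟨C.n1 * (C.n2 * g), fun j y => by rw [cjm, cjm, h1, C.ref2, C.ref1, e],
      fun i t => by rw [cjm, cjm, h2, C.x2, C.x1, e], fun j u => by rw [cjm, cjm, h3, C.z2, C.z1, e]⟩
  | pred k ih =>
    obtain ⟨g, h1, h2, h3⟩ := ih
    have e : ∀ j : ℤ, 8 - (10 - (j + 2 * (-k : ℤ))) = j + 2 * (-k - 1) := fun j => by ring
    exact ⟨C.n2 * (C.n1 * g), fun j y => by rw [cjm, cjm, h1, C.ref1, C.ref2, e],
      fun i t => by rw [cjm, cjm, h2, C.x1, C.x2, e], fun j u => by rw [cjm, cjm, h3, C.z1, C.z2, e]⟩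

theorem be_up {i : ℤ} (hi : Odd i) (t u : K) :
    (C.x i t)⁻¹ * C.z (i + 5) u * C.x i t = C.z (i + 3) (t * u) * C.z (i + 5) u := by
  obtain ⟨k, rfl⟩ := hi
  obtain ⟨g, -, h2, h3⟩ := C.exists_sh k
  have := congrArg (fun y => g * y * g⁻¹) (C.be t u)
  simp only [cj3] at this
  rw [← conj_mul, h2, h3, h3] at this
  rwa [show 1 + 2 * k = 2 * k + 1 by ring, show 6 + 2 * k = 2 * k + 1 + 5 by ring,
    show 4 + 2 * k = 2 * k + 1 + 3 by ring] at this

theorem be_dn {i : ℤ} (hi : Odd i) (t u : K) :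
    (C.x i t)⁻¹ * C.z (i - 5) u * C.x i t = C.z (i - 3) (t * u) * C.z (i - 5) u := by
  have := congrArg C.c2 (C.be_up (i := 8 - i) (Even.sub_odd (by decide) hi) t u)
  simp only [map_mul, map_inv, c2_x, c2_z] at this
  rwa [sub_sub_cancel, show 8 - (8 - i + 5) = i - 5 by ring, show 8 - (8 - i + 3) = i - 3 by ring] at this

private theorem trip {h : G} {i j k : ℤ} (hk : Even k)
    (b : ∀ t u, (C.x i t)⁻¹ * C.z j u * C.x i t = C.z k (t * u) * C.z j u) {t u t' u' s : K}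
    (e1 : h * C.x i t * h⁻¹ = C.x i t') (e2 : h * C.z j u * h⁻¹ = C.z j u')
    (e3 : h * C.z k (t * u) * h⁻¹ = C.z k s) : s = t' * u' := by
  have := congrArg (fun y => h * y * h⁻¹) (b t u)
  simp only [cj3] at this
  rw [← conj_mul, e1, e2, e3, b] at this
  exact C.zi k hk (mul_right_cancel this).symm

private theorem step {h : G} (hh : W.Tor h) {i : ℤ} (hi : Odd i)
    (H : (∃ c : Kˣ, ∀ u, h * C.z (i + 3) u * h⁻¹ = C.z (i + 3) (c * u)) ∨
      ∃ c : Kˣ, ∀ u, h * C.z (i + 5) u * h⁻¹ = C.z (i + 5) (c * u)) :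
    (∃ c : Kˣ, ∀ t, h * C.x i t * h⁻¹ = C.x i (c * t)) ∧
      (∃ c : Kˣ, ∀ u, h * C.z (i + 3) u * h⁻¹ = C.z (i + 3) (c * u)) ∧
      ∃ c : Kˣ, ∀ u, h * C.z (i + 5) u * h⁻¹ = C.z (i + 5) (c * u) := by
  have h3 : Even (i + 3) := hi.add_odd (by decide)
  have h5 : Even (i + 5) := hi.add_odd (by decide)
  choose f hf using fun t => (C.xm i hi _).1 (hh.mem (C.x_mem hi t))
  choose g hg using fun u => (C.zm _ h5 _).1 (hh.mem_V (C.z_mem h5 u))
  choose e he using fun u => (C.zm _ h3 _).1 (hh.mem_V (C.z_mem h3 u))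
  have key : ∀ t u, e (t * u) = f t * g u := fun t u => C.trip h3 (C.be_up hi) (hf t) (hg u) (he _)
  have f1 : f 1 ≠ 0 := fun e => by
    have := hf 1
    rw [e, x_zero, conj_eq_one_iff, ← C.x_zero i] at this
    exact one_ne_zero (C.xi i hi this)
  obtain ⟨c, hc⟩ : ∃ c : Kˣ, ∀ u, e u = c * u := by
    rcases H with ⟨c, hc⟩ | ⟨c, hc⟩
    · exact ⟨c, fun u => C.zi _ h3 ((he u).symm.trans (hc u))⟩
    · refine ⟨Units.mk0 _ f1 * c, fun u => ?_⟩
      have := key 1 u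
      rw [one_mul, C.zi _ h5 ((hg u).symm.trans (hc u))] at this
      rw [this, Units.val_mul, Units.val_mk0, mul_assoc]
  have g1 : g 1 ≠ 0 := fun e => by
    have := key 1 1
    rw [e, hc] at this
    simp at this
  refine ⟨⟨c * (Units.mk0 _ g1)⁻¹, fun t => ?_⟩, ⟨c, fun u => by rw [he, hc]⟩,
    c * (Units.mk0 _ f1)⁻¹, fun u => ?_⟩
  · have := key t 1
    rw [hc] at this
    rw [hf]
    congr 1
    simp only [Units.val_mul, Units.val_inv_eq_inv_val, Units.val_mk0]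
    field_simp
    linear_combination -this
  · have := key 1 u
    rw [hc] at this
    rw [hg]
    congr 1
    simp only [Units.val_mul, Units.val_inv_eq_inv_val, Units.val_mk0]
    field_simp
    linear_combination -this

theorem lin {h : G} (hh : W.Tor h) {j : ℤ} (hj : Even j) (hc : ∀ u, Commute h (C.z j u)) :
    ∃ w, C.Sc h w ∧ w j = 1 := by
  have h0 : ∀ u, h * C.z j u * h⁻¹ = C.z j (((1 : Kˣ) : K) * u) := fun u => by
    rw [(hc u).eq, mul_inv_cancel_right, Units.val_one, one_mul]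
  have o : ∀ k : ℤ, Odd (j + 2 * k - 3) := fun k => (hj.add (even_two_mul k)).sub_odd (by decide)
  have all : ∀ k : ℤ, ∃ c : Kˣ, ∀ u, h * C.z (j + 2 * k) u * h⁻¹ = C.z (j + 2 * k) (c * u) := by
    intro k
    induction k using Int.induction_on with
    | zero => exact ⟨1, by simpa using h0⟩
    | succ k ih =>
      have := (C.step hh (o k) (.inl (by rwa [sub_add_cancel]))).2.2
      rwa [show j + 2 * k - 3 + 5 = j + 2 * (k + 1) by ring] at this
    | pred k ih =>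
      have := (C.step hh (o (-k - 1)) (.inr (by
        rwa [show j + 2 * (-k - 1) - 3 + 5 = j + 2 * (-k : ℤ) by ring]))).2.1
      rwa [sub_add_cancel] at this
  have ev : ∀ i, Even i → ∃ c : Kˣ, ∀ u, h * C.z i u * h⁻¹ = C.z i (c * u) := fun i hi => by
    obtain ⟨k, hk⟩ := hi.sub hj
    have := all k
    rwa [show j + 2 * k = i by omega] at this
  have key : ∀ i, ∃ c : Kˣ, (Odd i → ∀ t, h * C.x i t * h⁻¹ = C.x i (c * t)) ∧
      (Even i → ∀ u, h * C.z i u * h⁻¹ = C.z i (c * u)) ∧ (i = j → c = 1) := fun i => by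
    rcases Int.even_or_odd i with hi | hi
    · by_cases e : i = j
      · exact ⟨1, fun k => absurd hi (Int.not_even_iff_odd.2 k), fun _ => e ▸ h0, fun _ => rfl⟩
      · obtain ⟨c, k⟩ := ev i hi
        exact ⟨c, fun k => absurd hi (Int.not_even_iff_odd.2 k), fun _ => k, fun k => absurd k e⟩
    · obtain ⟨c, k⟩ := (C.step hh hi (.inl (ev _ (hi.add_odd (by decide))))).1
      exact ⟨c, fun _ => k, fun k => absurd k (Int.not_even_iff_odd.2 hi),
        fun e => absurd (e ▸ hj) (Int.not_even_iff_odd.2 hi)⟩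
  choose w h1 h2 h3 using key
  exact ⟨w, ⟨h1, h2⟩, h3 j rfl⟩

variable {C}

theorem Sc.rel {h : G} {w : ℤ → Kˣ} (e : C.Sc h w) {i : ℤ} (hi : Odd i) :
    w i * w (i + 5) = w (i + 3) ∧ w i * w (i - 5) = w (i - 3) := by
  have a3 : Even (i + 3) := hi.add_odd (by decide)
  have a5 : Even (i + 5) := hi.add_odd (by decide)
  have b3 : Even (i - 3) := hi.sub_odd (by decide)
  have b5 : Even (i - 5) := hi.sub_odd (by decide)
  have h1 := C.trip a3 (C.be_up hi) (e.1 i hi 1) (e.2 _ a5 1) (e.2 _ a3 _)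
  have h2 := C.trip b3 (C.be_dn hi) (e.1 i hi 1) (e.2 _ b5 1) (e.2 _ b3 _)
  simp only [mul_one] at h1 h2
  exact ⟨Units.ext h1.symm, Units.ext h2.symm⟩

theorem Sc.mul {h h' : G} {w w' : ℤ → Kˣ} (e : C.Sc h w) (e' : C.Sc h' w') : C.Sc (h * h') (w * w') :=
  ⟨fun i hi t => by rw [cjm, e'.1 i hi, e.1 i hi, Pi.mul_apply, Units.val_mul, mul_assoc],
    fun i hi t => by rw [cjm, e'.2 i hi, e.2 i hi, Pi.mul_apply, Units.val_mul, mul_assoc]⟩

private theorem cj4 (n h y : G) :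
    n * h * n⁻¹ * (n * y * n⁻¹) * (n * h * n⁻¹)⁻¹ = n * (h * y * h⁻¹) * n⁻¹ := by group

theorem Sc.conj1 {h : G} {w : ℤ → Kˣ} (e : C.Sc h w) :
    C.Sc (C.n1 * h * C.n1⁻¹) fun i => w (10 - i) := by
  refine ⟨fun i hi t => ?_, fun i hi t => ?_⟩
  · have := cj4 C.n1 h (C.x (10 - i) t)
    rwa [e.1 _ (Even.sub_odd (by decide) hi), C.x1, C.x1, sub_sub_cancel] at this
  · have := cj4 C.n1 h (C.z (10 - i) t)
    rwa [e.2 _ (Even.sub (by decide) hi), C.z1, C.z1, sub_sub_cancel] at this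

theorem Sc.conj2 {h : G} {w : ℤ → Kˣ} (e : C.Sc h w) :
    C.Sc (C.n2 * h * C.n2⁻¹) fun i => w (8 - i) := by
  refine ⟨fun i hi t => ?_, fun i hi t => ?_⟩
  · have := cj4 C.n2 h (C.x (8 - i) t)
    rwa [e.1 _ (Even.sub_odd (by decide) hi), C.x2, C.x2, sub_sub_cancel] at this
  · have := cj4 C.n2 h (C.z (8 - i) t)
    rwa [e.2 _ (Even.sub (by decide) hi), C.z2, C.z2, sub_sub_cancel] at this

end C1

end FS8
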