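import Mathlib
import Cfsg.Agent.Lib.FS8.A3
import Cfsg.Agent.Lib.FS8.Lin

set_option autoImplicit false

open scoped commutatorElement

namespace FS8

open H78.Oct H78.Oct.Co

namespace Tr

variable {G : Type*} [Group G] {W : W8 G} {K : Type} [Field K] {C : C1 W K}

theorem cmp {a a' b b' : K} {e e' : G} (he : e ∈ W.U 5) (he' : e' ∈ W.U 5)
    (h : C.z 4 a * e * C.z 6 b = C.z 4 a' * e' * C.z 6 b') : a = a' ∧ b = b' := by
  have m4 : ∀ a, C.z 4 a ∈ W.I 4 4 := fun a => W8.I_self.2 (C.z_mem (by decide) a).1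
  have m45 : ∀ a, ∀ e ∈ W.U 5, C.z 4 a * e ∈ W.I 4 5 := fun a e he =>
    mul_mem (W8.I_mono le_rfl (by decide) (m4 a)) (W8.mem_I (by decide) le_rfl he)
  have m6 : ∀ a, C.z 6 a ∈ W.I 6 6 := fun a => W8.I_self.2 (C.z_mem (by decide) a).1
  obtain ⟨h1, h2⟩ := W8.uniq (by decide) (by decide) (by decide) (m45 a e he) (m45 a' e' he') (m6 b) (m6 b') h
  exact ⟨C.zi 4 (by decide) (W8.uniq (by decide) (by decide) (by decide) (m4 a) (m4 a')
    (W8.I_self.2 he) (W8.I_self.2 he') h1).1, C.zi 6 (by decide) h2⟩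

variable [Tits K]

theorem wt (hS : C.Sg) {h : G} {w : ℤ → Kˣ} (hh : W.Tor h) (e : C.Sc h w) :
    σ (w 2 : K) * w 8 = w 4 ∧ σ (w 8 : K) * w 2 = w 6 := by
  obtain ⟨x, hx, h1⟩ := hS.e46 1 1
  obtain ⟨x', hx', h2⟩ := hS.e46 (w 2) (w 8)
  have h3 := congrArg (MulAut.conj h) h1
  simp only [map_mul, map_inv, MulAut.conj_apply, e.2 8 (by decide), e.2 2 (by decide), e.2 4 (by decide),
    e.2 6 (by decide), map_one, mul_one] at h3
  rw [h2, mul_assoc, mul_assoc, mul_assoc (C.z 2 _), mul_assoc (C.z 2 _), mul_right_inj, ← mul_assoc] at h3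
  exact cmp hx' (hh.mem hx) h3

theorem tz_of (hS : C.Sg) {h : G} {w : ℤ → Kˣ} (hh : W.Tor h) (e : C.Sc h w) {c k : Kˣ}
    (h4 : (w 4 : K) = c * σ (c : K)) (h6 : (w 6 : K) = k * σ (k : K)) : C.Tz h c k := by
  obtain ⟨a1, a2⟩ := wt hS hh e
  have a3 : σ (w 6 : K) * w 0 = w 4 := (wt hS (C.ref2.conj hh) e.conj2).1
  have r1 : (w 1 : K) * w 6 = w 4 := congrArg Units.val (e.rel (i := 1) (by decide)).1
  have r3 : (w 3 : K) * w 8 = w 6 := congrArg Units.val (e.rel (i := 3) (by decide)).1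
  have r5 : (w 5 : K) * w 0 = w 2 := congrArg Units.val (e.rel (i := 5) (by decide)).2
  have r7 : (w 7 : K) * w 2 = w 4 := congrArg Units.val (e.rel (i := 7) (by decide)).2
  have b1 := congrArg σ a1
  have b2 := congrArg σ a2
  rw [map_mul, σσ, h4, map_mul, σσ] at b1
  rw [map_mul, σσ, h6, map_mul, σσ] at b2
  rw [h6, map_mul, σσ] at a3
  rw [h4] at a1 a3 r1 r7
  rw [h6] at a2 r1 r3
  have c0 := c.ne_zero
  have k0 := k.ne_zero
  have c1 := σ_ne c0
  have k1 := σ_ne k0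
  have e2 : (w 2 : K) = (c : K) ^ 2 * σ (c : K) * ((k : K) * σ (k : K))⁻¹ := by
    field_simp
    linear_combination b1 - (w 2 : K) * a2
  have e8 : (w 8 : K) = (k : K) ^ 2 * σ (k : K) * ((c : K) * σ (c : K))⁻¹ := by
    field_simp
    linear_combination b2 - (w 8 : K) * a1
  have e1 : (w 1 : K) = (c : K) * σ (c : K) * ((k : K) * σ (k : K))⁻¹ := by
    rw [← r1]; field_simp
  have e3 : (w 3 : K) = (c : K) * σ (c : K) * (k : K)⁻¹ :=
    mul_right_cancel₀ (w 8).ne_zero (by rw [r3, e8]; field_simp)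
  have e7 : (w 7 : K) = (k : K) * σ (k : K) * (c : K)⁻¹ :=
    mul_right_cancel₀ (w 2).ne_zero (by rw [r7, e2]; field_simp)
  have e0 : (w 0 : K) = (c : K) * σ (c : K) * (σ (k : K) * (k : K) ^ 2)⁻¹ := by
    rw [← a3]; field_simp
  have e5 : (w 5 : K) = (c : K) * k :=
    mul_right_cancel₀ (w 0).ne_zero (by rw [r5, e2, e0]; field_simp)
  intro a
  rw [e.1 1 (by decide), e.2 2 (by decide), e.1 3 (by decide), e.2 4 (by decide), e.1 5 (by decide),
    e.2 6 (by decide), e.1 7 (by decide), e.2 8 (by decide), e1, e2, e3, h4, e5, h6, e7, e8]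
  exact ⟨rfl, rfl, rfl, rfl, rfl, rfl, rfl, rfl⟩

theorem exists_wt (hS : C.Sg) (d : Kˣ) : ∃ h w, W.Tor h ∧ C.Sc h w ∧ w 4 = 1 ∧ w 6 = d := by
  obtain ⟨u, hu⟩ := (σ (K := K)).surjective (d⁻¹ : Kˣ)
  have u0 : C.z 8 u ≠ 1 := fun k => by
    rw [← C.z_zero 8] at k
    rw [C.zi 8 (by decide) k, map_zero] at hu
    exact (d⁻¹).ne_zero hu.symm
  have m8 := (C.z_mem (j := 8) (by decide) u).1
  obtain ⟨m, hm⟩ := W.exists_M m8 u0
  have hh : W.Tor (C.n2 * m) := C.ref2.mul hm.ref8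
  obtain ⟨w, e, h4⟩ := C.lin hh (j := 4) (by decide) fun v => by
    have hv := (C.z_mem (j := 4) (by decide) v).2
    refine Commute.mul_left (mul_inv_eq_iff_eq_mul.1 (C.z2 4 v)) (hm.commute
      (hv 8 (by decide) (by decide) _ m8) fun y hy => hv 0 (by decide) (by decide) y ?_).symm
    rwa [W8.U_per 0 (j := 8 + 8) rfl] at hy
  refine ⟨_, w, hh, e, h4, ?_⟩
  have h1 := e.1 1 (by decide) 1
  rw [mul_inv_rev, show ∀ a b c d e : G, a * b * c * (d * e) = a * (b * c * d) * e from fun _ _ _ _ _ => by group,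
    hS.ps u m 1 hm, C.x2, hu] at h1
  have h2 : d⁻¹ = w 1 := Units.ext (by simpa using C.xi 1 (by decide) h1)
  have r1 : w 1 * w 6 = w 4 := (e.rel (i := 1) (by decide)).1
  rw [← h2, h4, inv_mul_eq_one] at r1
  exact r1.symm

end Tr

namespace C1

variable {G : Type*} [Group G] {W : W8 G} {K : Type} [Field K] (C : C1 W K)

theorem tz [Finite K] [Tits K] (hS : C.Sg) (c k : Kˣ) : ∃ h, W.Tor h ∧ C.Tz h c k := by
  obtain ⟨h, w, hh, e, h4, h6⟩ := Tr.exists_wt hS (k * σu k)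
  obtain ⟨h', w', hh', e', h4', h6'⟩ := Tr.exists_wt hS (c * σu c)
  have t := hh.mul (C.ref1.conj hh')
  refine ⟨_, t, Tr.tz_of hS t (e.mul e'.conj1) ?_ ?_⟩
  · change ((w 4 * w' 6 : Kˣ) : K) = _
    rw [h4, h6', one_mul, Units.val_mul, σu_val]
  · change ((w 6 * w' 4 : Kˣ) : K) = _
    rw [h6, h4', mul_one, Units.val_mul, σu_val]

end C1

end FS8
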