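import Mathlib
import Cfsg.Agent.Lib.FS8.A5
import Cfsg.Agent.Lib.FS8.Tr

set_option autoImplicit false

open scoped commutatorElement

namespace FS8

open H78.Oct H78.Oct.Co

namespace Kc

variable {G : Type*} [Group G] {W : W8 G} {K : Type} [Field K] {C : C1 W K} [Finite K] [Tits K]

theorem scal (hS : C.Sg) : ∃ κ : K, ∀ s u, C.z 8 u * C.z 2 s * (C.z 8 u)⁻¹ =
    C.z 2 s * C.z 4 (σ s * u) * C.x 5 (s * u * κ) * C.z 6 (σ u * s) := by
  obtain ⟨e, he, h1⟩ := hS.e46 1 1
  obtain ⟨κ, rfl⟩ := (C.xm 5 (by decide) e).1 he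
  refine ⟨κ, fun s u => ?_⟩
  rcases eq_or_ne s 0 with rfl | s0
  · simp
  rcases eq_or_ne u 0 with rfl | u0
  · simp
  have s1 := σ_ne s0
  have u1 := σ_ne u0
  obtain ⟨c, hc⟩ := N_surj (σ s * u)
  obtain ⟨k, hk⟩ := N_surj (σ u * s)
  have c0 : c ≠ 0 := by rintro rfl; exact mul_ne_zero s1 u0 (by rw [← hc, zero_mul])
  have k0 : k ≠ 0 := by rintro rfl; exact mul_ne_zero u1 s0 (by rw [← hk, zero_mul])
  obtain ⟨h, -, t⟩ := C.tz hS (Units.mk0 c c0) (Units.mk0 k k0)
  obtain ⟨-, t2, -, t4, t5, t6, -, t8⟩ := t ⟨0, 0, 1, 0, 0, 1, κ, 0, 1, 0, 0, 1⟩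
  have hc' := congrArg σ hc
  have hk' := congrArg σ hk
  rw [map_mul, map_mul, σσ, σσ] at hc' hk'
  have e2 : c ^ 2 * σ c * (σ u * s)⁻¹ = s := by rw [mul_comm (c ^ 2), hc']; field_simp
  have e8 : k ^ 2 * σ k * (σ s * u)⁻¹ = u := by rw [mul_comm (k ^ 2), hk']; field_simp
  have e5 : c * k = s * u := N_inj (by rw [map_mul, map_mul, mul_mul_mul_comm, hc, hk]; ring)
  simp only [tor_b2, tor_b4, tor_a5, tor_b6, tor_b8, Units.val_mk0, mul_one, hc, hk, e2, e8, e5] at t2 t4 t5 t6 t8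
  have h3 := congrArg (MulAut.conj h) h1
  simpa only [map_mul, map_inv, MulAut.conj_apply, map_one, mul_one, t2, t4, t5, t6, t8] using h3

theorem main [Finite G] {κ : K} (hκ : ∀ s, C.z 8 1 * C.z 2 s * (C.z 8 1)⁻¹ =
    C.z 2 s * C.z 4 (σ s) * C.x 5 (s * κ) * C.z 6 s) {k l : G} (e : W.Mu 8 (C.z 8 1) k l) (s : K) :
    l⁻¹ * C.x 5 (s * κ) * l = C.x 3 (s * κ) * C.z 4 (σ s) * C.x 5 (s * κ) ∧
      l * C.x 3 (s * κ) * l⁻¹ = C.z 2 s * C.x 3 (s * κ) ∧ s = s * κ := by
  have hE := C.ev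
  have v8 := C.z_mem (j := 8) (by decide) 1
  have hm : k * C.z 8 1 * l = C.n2 := e.M.uniq C.m2
  have hk : k = l⁻¹ := e.invol (W8.sqV hE (by decide) v8)
  have l0 : l ∈ W.U 0 := by have := e.l_mem; rwa [W8.U_per 0 (j := 8 + 8) rfl] at this
  have ll : l * l = C.z 0 1 := by rw [W8.lsq hE e v8, hm, C.z2]; rfl
  have ha := C.z_mem (j := 2) (by decide) s
  have hd := C.z_mem (j := 4) (by decide) (σ s)
  have hy := C.z_mem (j := 6) (by decide) s
  have hb := C.x_mem (i := 3) (by decide) (s * κ)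
  have hx := C.x_mem (i := 5) (by decide) (s * κ)
  obtain ⟨r, hr, e5⟩ := W8.w5 hE e v8 hx
  rw [hm, C.x2, show (8 - 5 : ℤ) = 3 from rfl] at e5
  obtain ⟨f, hf, e3⟩ := W8.c58 (W := W.rf 8) (hE.rf (by decide)) (w := l) (x := C.x 3 (s * κ)) l0 hb
  rw [W8.rf_V, show (8 - 6 : ℤ) = 2 from rfl] at hf
  have e0 := congrArg C.c2 (hκ s)
  have e6 := C.be_dn (i := 5) (by decide) (s * κ) 1
  have y2 := C.z2 2 s
  simp only [map_mul, map_inv, C1.c2_x, C1.c2_z] at e0
  norm_num only [mul_one] at e0 e6 y2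
  have zi := C.zi 2 (by decide) (a₁ := s) (a₂ := s * κ)
  have ha' := C.z_mem (j := 2) (by decide) (s * κ)
  have hκ := hκ s
  rw [← hm, hk] at y2
  rw [← ll] at e0 e6
  generalize C.z 2 s = a, C.z 4 (σ s) = d, C.z 6 s = y, C.x 3 (s * κ) = b, C.x 5 (s * κ) = x,
    C.z 2 (s * κ) = a', C.z 8 1 = w at *
  let φ := MulAut.conj l
  have fx : ∀ g, Commute g l → φ g = g := fun g h => by
    rw [MulAut.conj_apply, ← h.eq, mul_inv_cancel_right]
  have al := ha.2 0 (by decide) (by decide) l l0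
  have φa := fx a al
  have φd := fx d (hd.2 0 (by decide) (by decide) l l0)
  have φf := fx f (hf.2 0 (by decide) (by decide) l l0)
  have φr := fx r (W8.c4 hE e v8 hr).1.symm
  have φb : φ b = b * f := e3
  have aa := W8.sqV hE (by decide) ha
  have dd := W8.sqV hE (by decide) hd
  have ff := W8.sqV hE (by decide) hf
  have bb := W8.sqU hE (by decide) hb
  have xx := W8.sqU hE (by decide) hx
  have ab := ha.2 3 (by decide) (by decide) b hb
  have ad := ha.2 4 (by decide) (by decide) d hd.1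
  have db := hd.2 3 (by decide) (by decide) b hb
  have φx : φ x = r⁻¹ * f * b * x := by
    have : φ (b * r * x) = x := by rw [← e5, MulAut.conj_apply]; group
    rw [map_mul, map_mul, φb, φr] at this
    rw [← inv_eq_of_mul_eq_one_left ff, ← inv_eq_of_mul_eq_one_left bb]
    conv_rhs => rw [← this]
    group
  have φy : φ y = a * d * x * y := by
    rw [← hκ, ← y2, MulAut.conj_apply]
    calc _ = w * φ a * w⁻¹ := by rw [MulAut.conj_apply]; group
      _ = _ := by rw [φa]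
  have m25 : φ x ∈ W.I 2 5 := by
    rw [φx]
    exact mul_mem (mul_mem (mul_mem (W8.mem_I (by decide) (by decide) (inv_mem hr))
      (W8.mem_I (by decide) (by decide) hf.1)) (W8.mem_I (by decide) (by decide) hb))
      (W8.mem_I (by decide) (by decide) hx)
  have k1 : r⁻¹ * (f * b) * y = d * (b * a) * y := by
    calc _ = φ x * (a * a) * (d * d) * x * y := by rw [aa, dd, φx, mul_one, mul_one, mul_assoc _ x x, xx]; group
      _ = a * d * φ x * (a * d * x * y) := by
        rw [mul_assoc a d, (W8.V_commute hd (by decide) (by decide) m25).eq, ← mul_assoc a,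
          (W8.V_commute ha (by decide) (by decide) m25).eq, mul_assoc _ d (_ * _), ← mul_assoc d, ← mul_assoc d,
          ← mul_assoc d, ← ad.eq]
        group
      _ = φ (φ y) := by rw [φy, map_mul, map_mul, map_mul, φa, φd, φy]
      _ = y * (d * (b * a)) := by
        rw [← mul_assoc, ← mul_assoc, ← e0, MulAut.conj_apply, MulAut.conj_apply]; group
      _ = _ := (((hy.2 4 (by decide) (by decide) d hd.1).mul_right
        ((hy.2 3 (by decide) (by decide) b hb).mul_right (hy.2 2 (by decide) (by decide) a ha.1))).eq)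
  have k2 := congrArg (·⁻¹) (mul_right_cancel k1)
  simp only [mul_inv_rev (_ : G) (_ * _), inv_inv] at k2
  obtain ⟨k3, k4⟩ := W8.uniq (W := W) (i := 2) (j := 3) (k := 4) (l := 4) (by decide) (by decide) (by decide)
    (inv_mem (mul_mem (W8.mem_I (by decide) (by decide) hf.1) (W8.mem_I (by decide) (by decide) hb)))
    (inv_mem (mul_mem (W8.mem_I (by decide) (by decide) hb) (W8.mem_I (by decide) (by decide) ha.1)))
    (W8.I_self.2 hr) (W8.I_self.2 (inv_mem hd.1)) k2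
  rw [inv_inj, ← ab.eq, mul_left_inj] at k3
  rw [inv_eq_of_mul_eq_one_left dd] at k4
  subst k3 k4
  refine ⟨e5, by rw [e3, ab.eq], zi ?_⟩
  have k5 : φ (φ x) = x * a' := by
    rw [MulAut.conj_apply, MulAut.conj_apply, ← mul_inv_cancel_right a' (l * l), ← e6]; group
  rw [φx, map_mul, map_mul, map_mul, map_inv, φr, φf, φb, φx, inv_eq_of_mul_eq_one_left dd] at k5
  have k6 : r * f * (b * f) * (r * f * b * x) = f * x := by
    calc _ = r * (f * (b * f)) * r * (f * b) * x := by group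
      _ = (r * r) * (b * (f * f) * b) * f * x := by
        rw [ab.eq, mul_assoc r _ r, ← (ad.symm.mul_right (db.mul_right ad.symm)).eq, ← mul_assoc f b f, ab.eq]
        group
      _ = _ := by rw [dd, ff, mul_one, bb, one_mul, one_mul]
  rw [k6, (ha.2 5 (by decide) (by decide) x hx).eq, mul_right_inj] at k5
  exact k5

theorem one [Finite G] (hS : C.Sg) : ∀ s u, C.z 8 u * C.z 2 s * (C.z 8 u)⁻¹ =
    C.z 2 s * C.z 4 (σ s * u) * C.x 5 (s * u * 1) * C.z 6 (σ u * s) := by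
  obtain ⟨κ, h⟩ := scal hS
  obtain ⟨k, l, e, -⟩ := C.m2
  have := (main (κ := κ) (fun s => by simpa using h s 1) e 1).2.2
  rw [one_mul] at this
  rwa [← this] at h

end Kc

namespace C1

variable {G : Type*} [Group G] {W : W8 G} {K : Type} [Field K] (C : C1 W K)

theorem k28 [Finite G] [Finite K] [Tits K] (hS : C.Sg) (s u : K) : C.z 8 u * C.z 2 s * (C.z 8 u)⁻¹ =
    C.z 2 s * C.z 4 (σ s * u) * C.x 5 (s * u) * C.z 6 (σ u * s) := by
  simpa only [mul_one] using Kc.one hS s u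

theorem lam [Finite G] [Finite K] [Tits K] (hS : C.Sg) {k l : G} (e : W.Mu 8 (C.z 8 1) k l) (t : K) :
    l⁻¹ * C.x 5 t * l = C.x 3 t * C.z 4 (σ t) * C.x 5 t ∧ l * C.x 3 t * l⁻¹ = C.z 2 t * C.x 3 t := by
  have := Kc.main (κ := 1) (fun s => by simpa using Kc.one hS s 1) e t
  rw [mul_one] at this
  exact ⟨this.1, this.2.1⟩

end C1

end FS8
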