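import Mathlib
import Cfsg.Agent.Lib.FS8.Kc

set_option autoImplicit false

open scoped commutatorElement

namespace FS8

open H78.Oct H78.Oct.Co

namespace C2

variable {G : Type*} [Group G] [Finite G] {W : W8 G} {K : Type} [Field K] [Finite K] [Tits K] (C : C2 W K)

omit [Finite G] [Finite K] in
theorem R28_zc {j k : ℤ} (hj : Even j) (u : K) {g : G} (hg : g ∈ W.U k) (h1 : j - 4 ≤ k) (h2 : k ≤ j + 4) :
    Commute (C.z j u) g := (C.z_mem hj u).2 k h1 h2 g hg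

omit [Finite G] [Finite K] in
theorem R28_zU {j : ℤ} (hj : Even j) (u : K) : C.z j u ∈ W.U j := (C.z_mem hj u).1

theorem R28_one (v : K) : C.y 8 1 1 * C.z 2 v * (C.y 8 1 1)⁻¹ =
    C.z 2 v * C.x 3 v * C.z 4 (σ v) * C.z 6 v := by
  have e0 : C.y 0 1 0 * C.y 0 1 1 = 1 := by
    rw [C.ya]; simp [CharTwo.add_self_eq_zero]
  have e1 : C.n2 = (C.y 0 1 1)⁻¹ * C.z 8 1 * C.y 0 1 1 := by
    have := congrArg C.c2 C.n2y
    simp only [map_mul, map_inv, C1.c2_z, c2_y] at this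
    norm_num at this
    rw [C1.c2_apply, mul_inv_cancel_right] at this
    rw [this, ← eq_inv_of_mul_eq_one_left e0, inv_eq_of_mul_eq_one_right e0]
  have c := C.R28_zc (j := 2) (k := 0) (by decide) v (C.y_mem (by decide) 1 1) (by norm_num) (by norm_num)
  have e2 : C.y 0 1 1 * C.z 6 v * (C.y 0 1 1)⁻¹ = C.z 8 1 * C.z 2 v * (C.z 8 1)⁻¹ := by
    have := C.z2 2 v
    norm_num at this
    rw [← this, e1]
    calc _ = C.z 8 1 * (C.y 0 1 1 * C.z 2 v) * (C.y 0 1 1)⁻¹ * (C.z 8 1)⁻¹ := by group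
      _ = _ := by rw [← c.eq]; group
  rw [C.k28 C.sg] at e2
  have := congrArg C.c2 e2
  simp only [map_mul, map_inv, C1.c2_z, C1.c2_x, c2_y] at this
  norm_num at this
  rw [this]
  have x3 := C.x_mem (i := 3) (by decide) v
  have c1 := C.R28_zc (j := 6) (k := 4) (by decide) v (C.R28_zU (by decide) (σ v)) (by norm_num) (by norm_num)
  have c2 := C.R28_zc (j := 6) (by decide) v x3 (by norm_num) (by norm_num)
  have c3 := C.R28_zc (j := 6) (k := 2) (by decide) v (C.R28_zU (by decide) v) (by norm_num) (by norm_num)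
  have c4 := C.R28_zc (j := 4) (by decide) (σ v) x3 (by norm_num) (by norm_num)
  have c5 := C.R28_zc (j := 4) (k := 2) (by decide) (σ v) (C.R28_zU (by decide) v) (by norm_num) (by norm_num)
  have c6 := C.R28_zc (j := 2) (by decide) v x3 (by norm_num) (by norm_num)
  rw [mul_assoc, mul_assoc, (c1.mul_right (c2.mul_right c3)).eq, (c4.mul_right c5).eq, c6.eq]

theorem R28_base (s v : K) : C.y 8 s (s * σ s) * C.z 2 v * (C.y 8 s (s * σ s))⁻¹ =
    C.z 2 v * C.x 3 (s * v) * C.z 4 (s * σ s * σ v) * C.z 6 (s ^ 2 * σ s * v) := by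
  by_cases hs : s = 0
  · subst hs; simp
  obtain ⟨k, rfl⟩ := (σ : K ≃+* K).surjective s
  have hk : k ≠ 0 := fun e => hs (by rw [e, map_zero])
  obtain ⟨h, -, H⟩ := C.ν_tor 1 (Units.mk0 k hk)
  have a1 := H (y8 1 1)
  have a2 := H (Co.y2 0 (k * σ k * v))
  have a3 := H (x3 (k * σ k * v))
  have a4 := H (y4 0 (σ (k * σ k * v)))
  have a5 := H (y6 0 (k * σ k * v))
  rw [show tor 1 (Units.mk0 k hk) (y8 1 1) = y8 (σ k) (σ k * σ (σ k)) by ext <;> simp; ring] at a1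
  rw [show tor 1 (Units.mk0 k hk) (Co.y2 0 (k * σ k * v)) = Co.y2 0 v by ext <;> simp; field_simp] at a2
  rw [show tor 1 (Units.mk0 k hk) (x3 (k * σ k * v)) = x3 (σ k * v) by ext <;> simp; field_simp] at a3
  rw [show tor 1 (Units.mk0 k hk) (y4 0 (σ (k * σ k * v))) = y4 0 (σ k * σ (σ k) * σ v) by
    ext <;> simp] at a4
  rw [show tor 1 (Units.mk0 k hk) (y6 0 (k * σ k * v)) = y6 0 (σ k ^ 2 * σ (σ k) * v) by
    ext <;> simp; ring] at a5
  simp only [ν_y8, ν_y2, ν_x3, ν_y4, ν_y6, C.y0] at a1 a2 a3 a4 a5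
  rw [← a1, ← a2, ← a3, ← a4, ← a5]
  calc _ = h * (C.y 8 1 1 * C.z 2 (k * σ k * v) * (C.y 8 1 1)⁻¹) * h⁻¹ := by group
    _ = _ := by rw [C.R28_one]; group

theorem r28 (s u v : K) : C.y 8 s u * C.y 2 0 v * (C.y 8 s u)⁻¹ =
    C.y 2 0 v * C.x 3 (s * v) * C.y 4 0 (u * σ v) * C.x 5 ((s * σ s + u) * v) *
      C.y 6 0 ((s ^ 2 * σ s + s * u + σ u) * v) := by
  have e : C.y 8 s u = C.y 8 s (s * σ s) * C.z 8 (s * σ s + u) := by
    rw [← C.y0, C.ya]; congr 1 <;> simp <;> grind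
  simp only [C.y0]
  obtain ⟨w, hw⟩ : ∃ w, w = s * σ s + u := ⟨_, rfl⟩
  rw [← hw] at e ⊢
  have hY := C.y_mem (j := 8) (by decide) s (s * σ s)
  have c1 := C.R28_zc (j := 4) (by decide) (σ v * w) hY (by norm_num) (by norm_num)
  have c2 := C.R28_zc (j := 6) (by decide) (σ w * v) hY (by norm_num) (by norm_num)
  have c3 := C.R28_zc (j := 6) (k := 4) (by decide) (s ^ 2 * σ s * v) (C.R28_zU (by decide) (σ v * w))
    (by norm_num) (by norm_num)
  have c4 := C.R28_zc (j := 6) (by decide) (s ^ 2 * σ s * v) (C.x_mem (i := 5) (by decide) (v * w))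
    (by norm_num) (by norm_num)
  have b := C.R28_base s v
  have r := C.r58 s (s * σ s) (v * w)
  generalize C.y 8 s (s * σ s) = Y at *
  have e4 : u * σ v = s * σ s * σ v + σ v * w := by grind
  have e6 : (s ^ 2 * σ s + s * u + σ u) * v = s ^ 2 * σ s * v + s * (v * w) + σ w * v := by
    simp only [hw, map_add, map_mul, σσ]; grind
  calc _ = Y * (C.z 8 w * C.z 2 v * (C.z 8 w)⁻¹) * Y⁻¹ := by rw [e]; group
    _ = (Y * C.z 2 v * Y⁻¹) * (Y * C.z 4 (σ v * w) * Y⁻¹) * (Y * C.x 5 (v * w) * Y⁻¹) *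
        (Y * C.z 6 (σ w * v) * Y⁻¹) := by rw [C.k28 C.sg]; group
    _ = C.z 2 v * C.x 3 (s * v) * C.z 4 (s * σ s * σ v) * (C.z 6 (s ^ 2 * σ s * v) *
        (C.z 4 (σ v * w) * C.x 5 (v * w))) * C.z 6 (s * (v * w)) * C.z 6 (σ w * v) := by
      rw [b, r, ← c1.eq, ← c2.eq]; group
    _ = _ := by rw [(c3.mul_right c4).eq, e4, e6, C.za, C.za, C.za, mul_comm w v]; group

theorem r68 (s u s' u' : K) :
    C.y 8 s u * C.y 6 s' u' * (C.y 8 s u)⁻¹ = C.y 6 s' u' * C.x 7 (s * s') := by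
  have ha := C.y_mem (j := 8) (by decide) s u
  have hb := C.y_mem (j := 6) (by decide) s' u'
  obtain ⟨r, hr, e⟩ := W8.exists_lo (i := 8) (j := 8) (k := 6) (by norm_num) (by norm_num)
    (W8.I_self.2 ha) hb
  obtain ⟨δ, rfl⟩ := (C.xm 7 (by decide) r).1 (W8.I_self.1 hr)
  have x7 := C.x_mem (i := 7) (by decide) δ
  have g := C.r28 s u 1
  simp only [C.y0] at g
  have r3 : C.y 6 s' u' * C.x 3 (s * 1) * (C.y 6 s' u')⁻¹ = C.x 3 (s * 1) * C.z 4 (s' * (s * 1)) := by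
    have := congrArg (fun g => C.c2 (C.c1 g)) (C.r58 s' u' (s * 1))
    simp only [map_mul, map_inv, C1.c2_z, C1.c2_x, c2_y, C1.c1_z, C1.c1_x, c1_y] at this
    norm_num at this
    simpa using this
  have bd := C.be_dn (i := 7) (by decide) δ 1
  norm_num at bd
  have c78 : Commute (C.x 7 δ) (C.y 8 s u) := W8.adj x7 ha
  have z2 := C.R28_zc (j := 2) (by decide) 1 hb (by norm_num) (by norm_num)
  have z4 := fun t => C.R28_zc (j := 4) (by decide) t hb (by norm_num) (by norm_num)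
  have z6 := fun t => C.R28_zc (j := 6) (by decide) t hb (by norm_num) (by norm_num)
  have z8 := C.R28_zc (j := 4) (by decide) δ ha (by norm_num) (by norm_num)
  have x5 : ∀ t, Commute (C.x 5 t) (C.y 6 s' u') := fun t => W8.adj (C.x_mem (by decide) t) hb
  have c67 : Commute (C.y 6 s' u') (C.x 7 δ) := W8.adj hb x7
  have z42 := C.R28_zc (j := 4) (k := 2) (by decide) (s' * (s * 1)) (C.R28_zU (by decide) 1)
    (by norm_num) (by norm_num)
  have z43 := C.R28_zc (j := 4) (by decide) (s' * (s * 1)) (C.x_mem (i := 3) (by decide) (s * 1))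
    (by norm_num) (by norm_num)
  have key : C.z 4 δ = C.z 4 (s' * (s * 1)) := by
    generalize C.y 8 s u = a at *
    generalize C.y 6 s' u' = b at *
    have e1 : a⁻¹ * b * a = b * (C.x 7 δ)⁻¹ := by
      have : b = a * b * a⁻¹ * (C.x 7 δ)⁻¹ := by rw [e]; group
      calc a⁻¹ * b * a = a⁻¹ * (a * b * a⁻¹ * (C.x 7 δ)⁻¹) * a := by rw [← this]
        _ = b * (a⁻¹ * ((C.x 7 δ)⁻¹ * a)) := by group
        _ = _ := by rw [c78.inv_left.eq]; group
    have e2 : b * (a * C.z 2 1 * a⁻¹) * b⁻¹ = C.z 4 δ * (a * C.z 2 1 * a⁻¹) := by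
      calc _ = a * (a⁻¹ * b * a) * C.z 2 1 * (a⁻¹ * b * a)⁻¹ * a⁻¹ := by group
        _ = a * (b * ((C.x 7 δ)⁻¹ * C.z 2 1 * C.x 7 δ)) * b⁻¹ * a⁻¹ := by rw [e1]; group
        _ = a * C.z 4 δ * C.z 2 1 * a⁻¹ := by rw [bd, ← ((z4 δ).mul_left z2).eq]; group
        _ = _ := by rw [← z8.eq]; group
    have e3 : b * (a * C.z 2 1 * a⁻¹) * b⁻¹ = C.z 4 (s' * (s * 1)) * (a * C.z 2 1 * a⁻¹) := by
      rw [g]
      calc _ = b * C.z 2 1 * b⁻¹ * (b * C.x 3 (s * 1) * b⁻¹) * (b * (C.z 4 (u * σ 1) *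
            C.x 5 ((s * σ s + u) * 1) * C.z 6 ((s ^ 2 * σ s + s * u + σ u) * 1))) * b⁻¹ := by group
        _ = C.z 2 1 * C.x 3 (s * 1) * C.z 4 (s' * (s * 1)) * (C.z 4 (u * σ 1) *
            C.x 5 ((s * σ s + u) * 1) * C.z 6 ((s ^ 2 * σ s + s * u + σ u) * 1)) := by
          rw [r3, ← z2.eq, ← (((z4 _).mul_left (x5 _)).mul_left (z6 _)).eq]; group
        _ = _ := by rw [← (z42.mul_right z43).eq]; group
    exact mul_right_cancel (e2.symm.trans e3)
  rw [e, C.zi 4 (by decide) key, mul_one, mul_comm s' s]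

end C2

end FS8
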