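import Mathlib
import Cfsg.Agent.Lib.FS8.A5
import Cfsg.Agent.Lib.FS8.R28

set_option autoImplicit false

open scoped commutatorElement

namespace FS8

open H78.Oct H78.Oct.Co

namespace C2

variable {G : Type*} [Group G] [Finite G] {W : W8 G} {K : Type} [Field K] [Finite K] [Tits K] (C : C2 W K)

private theorem p2 (s u v : K) : C.ν (y8 s u * Co.y2 0 v) = C.y 8 s u * C.y 2 0 v := by
  rw [← mul_inv_cancel_right (C.y 8 s u * C.y 2 0 v) (C.y 8 s u)⁻¹, C.r28, inv_inv,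
    show y8 s u * Co.y2 0 v = (⟨0, 0, v, s * v, 0, u * σ v, (s * σ s + u) * v, 0,
      (s ^ 2 * σ s + s * u + σ u) * v, 0, s, u⟩ : Co K) by ext <;> simp <;> ring]
  simp [ν_def]

private theorem p3 (s u t : K) : C.ν (y8 s u * Co.x3 t) = C.y 8 s u * C.x 3 t := by
  rw [← mul_inv_cancel_right (C.y 8 s u * C.x 3 t) (C.y 8 s u)⁻¹, C.r38, inv_inv,
    show y8 s u * Co.x3 t = (⟨0, 0, 0, t, 0, s * σ t, σ s * t, 0, u * t, 0, s, u⟩ : Co K) by ext <;> simp]
  simp [ν_def, C.y0]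

private theorem p4 (s u s' u' : K) : C.ν (y8 s u * Co.y4 s' u') = C.y 8 s u * C.y 4 s' u' := by
  rw [← (W8.cev4 C.ev (j := 4) (by decide) (C.y_mem (by decide) s' u') (C.y_mem (j := 8) (by decide) s u)).eq,
    show y8 s u * Co.y4 s' u' = (⟨0, 0, 0, 0, s', u', 0, 0, 0, 0, s, u⟩ : Co K) by ext <;> simp]
  simp [ν_def]

private theorem p5 (s u t : K) : C.ν (y8 s u * Co.x5 t) = C.y 8 s u * C.x 5 t := by
  rw [← mul_inv_cancel_right (C.y 8 s u * C.x 5 t) (C.y 8 s u)⁻¹, C.r58, inv_inv,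
    show y8 s u * Co.x5 t = (⟨0, 0, 0, 0, 0, 0, t, 0, s * t, 0, s, u⟩ : Co K) by ext <;> simp]
  simp [ν_def, C.y0]

private theorem p6 (s u s' u' : K) : C.ν (y8 s u * Co.y6 s' u') = C.y 8 s u * C.y 6 s' u' := by
  rw [← mul_inv_cancel_right (C.y 8 s u * C.y 6 s' u') (C.y 8 s u)⁻¹, C.r68, inv_inv,
    show y8 s u * Co.y6 s' u' = (⟨0, 0, 0, 0, 0, 0, 0, s', u', s * s', s, u⟩ : Co K) by ext <;> simp]
  simp [ν_def]

private theorem p7 (s u t : K) : C.ν (y8 s u * Co.x7 t) = C.y 8 s u * C.x 7 t := by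
  rw [← (W8.adj (i := 7) (C.x_mem (by decide) t) (C.y_mem (j := 8) (by decide) s u)).eq,
    show y8 s u * Co.x7 t = (⟨0, 0, 0, 0, 0, 0, 0, 0, 0, t, s, u⟩ : Co K) by ext <;> simp]
  simp [ν_def]

private theorem p8 (s u s' u' : K) : C.ν (y8 s u * y8 s' u') = C.y 8 s u * C.y 8 s' u' := by
  rw [C.ya, show y8 s u * y8 s' u' = (y8 (s + s') (s * σ s' + u + u') : Co K) by ext <;> simp, ν_y8]

theorem prP (i : Fin 8) (hi : i ≠ 0) (a b : Co K) (h : i = 1 → a.a2 = 0) :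
    C.ν (rt 7 b * rt i a) = C.ν (rt 7 b) * C.ν (rt i a) := by
  have e7 : rt 7 b = y8 b.a8 b.b8 := rfl
  rw [e7, ν_y8]
  fin_cases i
  · exact absurd rfl hi
  · have e : rt 1 a = Co.y2 0 a.b2 := by rw [← h rfl]; rfl
    exact (congrArg (fun g => C.ν (_ * g)) e).trans ((p2 C _ _ _).trans
      (congrArg (_ * ·) ((congrArg C.ν e).trans (C.ν_y2 _ _)).symm))
  · exact (p3 C _ _ a.a3).trans (congrArg (_ * ·) (C.ν_x3 _).symm)
  · exact (p4 C _ _ a.a4 a.b4).trans (congrArg (_ * ·) (C.ν_y4 _ _).symm)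
  · exact (p5 C _ _ a.a5).trans (congrArg (_ * ·) (C.ν_x5 _).symm)
  · exact (p6 C _ _ a.a6 a.b6).trans (congrArg (_ * ·) (C.ν_y6 _ _).symm)
  · exact (p7 C _ _ a.a7).trans (congrArg (_ * ·) (C.ν_x7 _).symm)
  · exact (p8 C _ _ a.a8 a.b8).trans (congrArg (_ * ·) (C.ν_y8 _ _).symm)

theorem r2z (v s u : K) : C.ν (y8 0 v * Co.y2 s u) = C.y 8 0 v * C.y 2 s u := by
  have h := congrArg C.c1 (C.r28 s (u + s * σ s) v)
  simp only [map_mul, map_inv, c1_y, C1.c1_x] at h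
  norm_num at h
  have e1 : C.y 2 s (u + s * σ s) = (C.y 2 s u)⁻¹ := by
    refine eq_inv_of_mul_eq_one_right ?_
    rw [C.ya, show s + s = 0 from CharTwo.add_self_eq_zero s,
      show s * σ s + u + (u + s * σ s) = 0 by grind, y_zero]
  have e2 : (s * σ s + (u + s * σ s)) * v = v * u := by grind
  have e3 : (s ^ 2 * σ s + s * (u + s * σ s) + (σ u + σ s * s ^ 2)) * v =
      v * (s ^ 2 * σ s + s * u + σ u) := by grind
  rw [e1, inv_inv, e2, e3, mul_assoc, inv_mul_eq_iff_eq_mul] at h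
  rw [h, show y8 0 v * Co.y2 s u = (⟨0, s, u, 0, 0, v * (s ^ 2 * σ s + s * u + σ u), v * u, 0,
      (u + s * σ s) * σ v, s * v, 0, v⟩ : Co K) by ext <;> simp <;> ring]
  simp only [ν_def, C1.x_zero, one_mul, mul_one, C.y0, mul_assoc]
  congr 1
  have m8 := C.z_mem (j := 8) (by decide) v
  have m6 := C.z_mem (j := 6) (by decide) ((u + s * σ s) * σ v)
  have m4 := C.z_mem (j := 4) (by decide) (v * (s ^ 2 * σ s + s * u + σ u))
  have m7 := C.x_mem (i := 7) (by decide) (s * v)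
  have m5 := C.x_mem (i := 5) (by decide) (v * u)
  have c57 := W8.codd2 C.ev (i := 5) (by decide) m5 m7
  generalize C.z 8 v = z8 at *
  generalize C.z 6 _ = z6 at *
  generalize C.z 4 _ = z4 at *
  generalize C.x 7 _ = x7 at *
  generalize C.x 5 _ = x5 at *
  have c87 := m8.2 7 (by decide) (by decide) _ m7
  have c86 := m8.2 6 (by decide) (by decide) _ m6.1
  have c85 := m8.2 5 (by decide) (by decide) _ m5
  have c67 := m6.2 7 (by decide) (by decide) _ m7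
  have c65 := m6.2 5 (by decide) (by decide) _ m5
  have c48 := m4.2 8 (by decide) (by decide) _ m8.1
  have c47 := m4.2 7 (by decide) (by decide) _ m7
  have c46 := m4.2 6 (by decide) (by decide) _ m6.1
  have c45 := m4.2 5 (by decide) (by decide) _ m5
  rw [(c45.mul_right (c46.mul_right (c47.mul_right c48))).eq,
    (c65.symm.mul_right (c57.mul_right c85.symm)).eq, (c67.mul_right c86.symm).eq, c87.symm.eq]
  simp only [mul_assoc]

end C2

end FS8
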