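import Mathlib
import Cfsg.Agent.Lib.FS8.A4
import Cfsg.Agent.Lib.FS8.Lin

/-! The commutator relation of the first and the seventh root group. -/

set_option autoImplicit false

open scoped commutatorElement

namespace FS8

open H78.Oct H78.Oct.Co

namespace C2

variable {G : Type*} [Group G] [Finite G] {W : W8 G} {K : Type} [Field K] [Finite K] [Tits K] (C : C2 W K)

omit [Finite G] [Finite K] in
private theorem xsq {i : ℤ} (h : Odd i) (t : K) : C.x i t * C.x i t = 1 := W8.sqU C.ev h (C.x_mem h t)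

omit [Finite G] [Finite K] in
private theorem xinv {i : ℤ} (h : Odd i) (t : K) : (C.x i t)⁻¹ = C.x i t :=
  inv_eq_of_mul_eq_one_right (C.xsq h t)

omit [Finite G] [Finite K] in
private theorem mu1 : ∃ k, W.Mu 1 (C.x 1 1) k (C.x 9 1) ∧ C.n1 = k * C.x 1 1 * C.x 9 1 := by
  obtain ⟨k, l, e, hm⟩ := C.m1
  have h1 := e.invol (C.xsq (by decide) 1)
  have h2 := e.swap.invol (W8.sqU C.ev (by decide) e.l_mem)
  have h3 : l = C.x 9 1 := by
    rw [← hm] at h2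
    rw [show (9 : ℤ) = 10 - 1 by norm_num, ← C.x1, h2, h1]
    group
  exact ⟨k, h3 ▸ e, h3 ▸ hm⟩

theorem n1_eq : C.n1 = (C.x 1 1)⁻¹ * C.x 9 1 * C.x 1 1 := by
  obtain ⟨k, e, hm⟩ := C.mu1
  have h1 := e.invol (C.xsq (by decide) 1)
  have h2 : C.n1 * C.x 1 1 * C.n1⁻¹ = C.x 9 1 := C.x1 1 1
  have h3 : C.x 9 1 * C.n1 = C.x 1 1 * C.x 9 1 := by rw [hm, h1]; group
  rw [mul_inv_eq_iff_eq_mul, h3] at h2
  rw [C.xinv (by decide), ← h2, mul_assoc, C.xsq (by decide), mul_one]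

omit [Finite K] in
private theorem r11 : C.x 7 1 * C.x 1 1 * (C.x 7 1)⁻¹ = C.x 1 1 * C.x 3 1 * C.x 5 1 := by
  obtain ⟨k, e, hm⟩ := C.mu1
  have m1 := C.x_mem (i := 1) (by decide) 1
  have m3 := C.x_mem (i := 3) (by decide) 1
  have m5 := C.x_mem (i := 5) (by decide) 1
  have m7 := C.x_mem (i := 7) (by decide) 1
  have m9 := C.x_mem (i := 9) (by decide) 1
  have i1 := C.xinv (i := 1) (by decide) 1
  have i3 := C.xinv (i := 3) (by decide) 1
  have i5 := C.xinv (i := 5) (by decide) 1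
  have i7 := C.xinv (i := 7) (by decide) 1
  have i9 := C.xinv (i := 9) (by decide) 1
  have A := e.gs (w := C.x 7 1) (W8.codd2 C.ev (by decide) m7 e.k_mem)
  have n3 : C.n1⁻¹ * C.x 7 1 * C.n1 = C.x 3 1 := by
    have : C.n1 * C.x 3 1 * C.n1⁻¹ = C.x 7 1 := C.x1 3 1
    rw [← this]
    group
  rw [← hm, n3] at A
  obtain ⟨r, hr, e1⟩ := W8.exists_lo (i := 9) (j := 9) (k := 3) (by norm_num) (by norm_num) (W8.I_self.2 m9) m3
  obtain ⟨c, hc, e2⟩ := W8.exists_hi (i := 1) (j := 1) (k := 7) (by norm_num) (by norm_num)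
    (W8.I_self.2 (inv_mem m1)) m7
  rw [inv_inv] at e2
  have hs : (C.x 3 1)⁻¹ * c ∈ W.I 4 6 := by
    refine W8.inter (i := 2) (l := 8) (by norm_num) (by norm_num) (by norm_num) (by norm_num)
      (mul_mem (W8.mem_I (by norm_num) (by norm_num) (inv_mem m3)) hc) ?_
    have : (C.x 3 1)⁻¹ * c = r * (C.x 7 1)⁻¹ := by
      rw [eq_mul_inv_iff_mul_eq, mul_assoc, ← e2, A, e1, inv_mul_cancel_left]
    rw [this]
    exact mul_mem hr (W8.mem_I (by norm_num) (by norm_num) (inv_mem m7))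
  have ec : c = (C.x 1 1)⁻¹ * C.x 7 1 * C.x 1 1 * (C.x 7 1)⁻¹ := by rw [e2, mul_inv_cancel_right]
  have c2 : C.c2 c = c⁻¹ := by
    rw [ec]
    simp only [map_mul, map_inv, C1.c2_x, mul_inv_rev, inv_inv]
    norm_num
    rw [i1, i7]
    simp only [mul_assoc]
  have hs' : (C.x 5 1)⁻¹ * c⁻¹ ∈ W.I 2 4 := by
    have := C.ref2.mem_I hs
    rw [← C1.c2_apply, map_mul, map_inv, c2, C1.c2_x] at this
    exact this
  have h4 : (C.x 3 1)⁻¹ * c * C.x 5 1 ∈ W.U 4 := by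
    refine W8.I_self.1 (W8.inter (i := 2) (l := 6) (by norm_num) (by norm_num) (by norm_num) (by norm_num) ?_
      (mul_mem hs (W8.mem_I (by norm_num) (by norm_num) m5)))
    have := mul_mem (W8.mem_I (by norm_num) (by norm_num) (inv_mem m3)) (inv_mem hs')
    rwa [mul_inv_rev, inv_inv, inv_inv, ← mul_assoc] at this
  have h6 : (C.x 5 1)⁻¹ * ((C.x 3 1)⁻¹ * C.x 9 1 * C.x 3 1 * (C.x 9 1)⁻¹) * C.x 7 1 ∈ W.U 6 := by
    have := C.ref1.mem (C.ref2.mem h4)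
    rw [← C1.c2_apply, ← C1.c1_apply, ec] at this
    simp only [map_mul, map_inv, C1.c2_x, C1.c1_x] at this
    exact this
  have e6 : (C.x 5 1)⁻¹ * ((C.x 3 1)⁻¹ * C.x 9 1 * C.x 3 1 * (C.x 9 1)⁻¹) * C.x 7 1 =
      (C.x 3 1)⁻¹ * c * C.x 5 1 := by
    have cm : Commute ((C.x 3 1)⁻¹ * c * C.x 5 1) (C.x 5 1) := W8.adj h4 m5
    calc _ = (C.x 5 1)⁻¹ * ((C.x 3 1)⁻¹ * (C.x 9 1 * C.x 3 1 * (C.x 9 1)⁻¹)) * C.x 7 1 := by group
      _ = (C.x 5 1)⁻¹ * ((C.x 3 1)⁻¹ * c * C.x 5 1) * (C.x 5 1)⁻¹ * (C.x 7 1 * C.x 7 1) := by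
        rw [← A, e2]; group
      _ = _ := by
        rw [C.xsq (by decide), mul_one, mul_assoc, cm.inv_right.eq, ← mul_assoc, i5, C.xsq (by decide), one_mul]
  rw [e6] at h6
  have := W8.disj (i := 4) (j := 4) (k := 6) (l := 6) (by norm_num) (by norm_num) (by norm_num)
    (W8.I_self.2 h4) (W8.I_self.2 h6)
  rw [mul_eq_one_iff_eq_inv, inv_mul_eq_iff_eq_mul, i5, ec] at this
  rw [mul_assoc (C.x 1 1), ← this]
  group

theorem r17 (t t' : K) :
    C.x 7 t * C.x 1 t' * (C.x 7 t)⁻¹ = C.x 1 t' * C.x 3 (t * σ t') * C.x 5 (σ t * t') := by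
  rcases eq_or_ne t 0 with rfl | ht
  · simp
  rcases eq_or_ne t' 0 with rfl | ht'
  · simp
  obtain ⟨c, hc⟩ := (σ : K ≃+* K).surjective (t * t')
  have c0 : c ≠ 0 := by
    rintro rfl
    exact mul_ne_zero ht ht' (by rw [← hc, map_zero])
  obtain ⟨k, hk⟩ := N_surj (t * c)
  have k0 : k ≠ 0 := by
    rintro rfl
    exact mul_ne_zero ht c0 (by rw [← hk, zero_mul])
  have c2 : c ^ 2 = σ t * σ t' := by rw [← σσ, hc, map_mul]
  have ck : c * k = σ t * t' := N_inj (by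
    rw [map_mul, map_mul, σσ, hc]
    linear_combination (c * t * t') * hk + (t ^ 2 * t') * c2)
  obtain ⟨h, -, e⟩ := C.ν_tor (Units.mk0 c c0) (Units.mk0 k k0)
  have e1 : h * C.x 1 1 * h⁻¹ = C.x 1 t' := by
    rw [← C.ν_x1, e, ← C.ν_x1]
    congr 1
    ext <;> simp
    rw [← mul_inv_rev, hk, hc]
    field_simp
  have e3 : h * C.x 3 1 * h⁻¹ = C.x 3 (t * σ t') := by
    rw [← C.ν_x3, e, ← C.ν_x3]
    congr 1
    ext <;> simp
    rw [hc, mul_inv_eq_iff_eq_mul₀ k0]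
    refine mul_left_cancel₀ c0 ?_
    linear_combination (t * t') * c2 - (t * σ t') * ck
  have e5 : h * C.x 5 1 * h⁻¹ = C.x 5 (σ t * t') := by
    rw [← C.ν_x5, e, ← C.ν_x5]
    congr 1
    ext <;> simp
    exact ck
  have e7 : h * C.x 7 1 * h⁻¹ = C.x 7 t := by
    rw [← C.ν_x7, e, ← C.ν_x7]
    congr 1
    ext <;> simp
    rw [hk]
    field_simp
  rw [← e1, ← e3, ← e5, ← e7, conj_mul, conj_mul, conj_mul, conj_inv, conj_mul, C.r11]

end C2

end FS8
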