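import Mathlib
import Cfsg.Agent.Lib.FS8.A5
import Cfsg.Agent.Lib.FS8.R28
import Cfsg.Agent.Lib.FS8.R17

set_option autoImplicit false
set_option linter.unusedSectionVars false

open scoped commutatorElement

namespace FS8

open H78.Oct H78.Oct.Co

namespace PrQ

variable {G : Type*} [Group G] [Finite G] {W : W8 G} {K : Type} [Field K] [Finite K] [Tits K] (C : C2 W K)

theorem sw {a b r : G} (h : a * b * a⁻¹ = r) : r * a = a * b := by
  rw [← h]; group

theorem zc {j k : ℤ} (hj : Even j) (h1 : j - 4 ≤ k) (h2 : k ≤ j + 4) (u : K) {g : G} (hg : g ∈ W.U k) :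
    Commute (C.z j u) g := (W8.mem_V W |>.1 (C.z_mem hj u)).2 k h1 h2 g hg

theorem zsq {j : ℤ} (hj : Even j) (u : K) : C.z j u * C.z j u = 1 :=
  W8.sqV C.ev hj (C.z_mem hj u)

theorem zU {j : ℤ} (hj : Even j) (u : K) : C.z j u ∈ W.U j := (C.z_mem hj u).1

theorem q63 (s u t : K) : C.x 3 t * C.z 4 (s * t) * C.y 6 s u = C.y 6 s u * C.x 3 t := by
  have h := congrArg C.c2 (congrArg C.c1 (C.r58 s u t))
  simp only [map_mul, map_inv, C1.c1_x, C1.c2_x, C1.c1_z, C1.c2_z, C2.c1_y, C2.c2_y] at h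
  norm_num at h
  exact sw h

theorem q41 (s u t : K) : C.x 1 t * C.z 2 (s * t) * C.y 4 s u = C.y 4 s u * C.x 1 t := by
  have h := congrArg C.c2 (congrArg C.c1 (q63 C s u t))
  simp only [map_mul, C1.c1_x, C1.c2_x, C1.c1_z, C1.c2_z, C2.c1_y, C2.c2_y] at h
  norm_num at h
  exact h

theorem q52 (s u t : K) : C.y 2 s u * C.z 4 (t * s) * C.x 5 t = C.x 5 t * C.y 2 s u := by
  have h := congrArg C.c1 (C.r58 s u t)
  simp only [map_mul, map_inv, C1.c1_x, C1.c1_z, C2.c1_y] at h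
  norm_num at h
  have h1 := sw h
  have e1 := zc C (j := 4) (k := 5) (by decide) (by norm_num) (by norm_num) (s * t) (C.x_mem (by decide) t)
  have e2 := zc C (j := 4) (k := 2) (by decide) (by norm_num) (by norm_num) (s * t) (C.y_mem (by decide) s u)
  have e3 := zsq C (j := 4) (by decide) (s * t)
  rw [mul_comm t s, mul_assoc, e1.eq, ← mul_assoc, ← h1, mul_assoc, mul_assoc, ← e2.eq,
    ← mul_assoc (C.z 4 _), e3, one_mul]

theorem q74 (s u t : K) : C.y 4 s u * C.z 6 (t * s) * C.x 7 t = C.x 7 t * C.y 4 s u := by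
  have h := congrArg C.c1 (congrArg C.c2 (q52 C s u t))
  simp only [map_mul, C1.c1_x, C1.c2_x, C1.c1_z, C1.c2_z, C2.c1_y, C2.c2_y] at h
  norm_num at h
  exact h

theorem q64 (s u s' u' : K) : C.y 4 s' u' * C.x 5 (s * s') * C.y 6 s u = C.y 6 s u * C.y 4 s' u' := by
  have h := congrArg C.c2 (congrArg C.c1 (C.r68 s u s' u'))
  simp only [map_mul, map_inv, C1.c1_x, C1.c2_x, C2.c1_y, C2.c2_y] at h
  norm_num at h
  exact sw h

theorem q42 (s u s' u' : K) : C.y 2 s' u' * C.x 3 (s * s') * C.y 4 s u = C.y 4 s u * C.y 2 s' u' := by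
  have h := congrArg C.c2 (congrArg C.c1 (q64 C s u s' u'))
  simp only [map_mul, C1.c1_x, C1.c2_x, C2.c1_y, C2.c2_y] at h
  norm_num at h
  exact h

theorem q61 (s u t : K) : C.x 1 t * C.z 2 (s * σ t) * C.x 3 (σ s * t) * C.z 4 (u * t) * C.y 6 s u =
    C.y 6 s u * C.x 1 t := by
  have h := congrArg C.c2 (congrArg C.c1 (C.r38 s u t))
  simp only [map_mul, map_inv, C1.c1_x, C1.c2_x, C1.c1_z, C1.c2_z, C2.c1_y, C2.c2_y] at h
  norm_num at h
  exact sw h

theorem q71 (t t' : K) : C.x 1 t' * C.x 3 (t * σ t') * C.x 5 (σ t * t') * C.x 7 t = C.x 7 t * C.x 1 t' :=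
  sw (C.r17 t t')

theorem yinv (j : ℤ) (s u : K) : C.y j s (u + s * σ s) * C.y j s u = 1 := by
  rw [C.ya]
  have e1 : s + s = 0 := CharTwo.add_self_eq_zero s
  have e2 : s * σ s + (u + s * σ s) + u = 0 := by
    have := CharTwo.add_self_eq_zero (s * σ s + u)
    linear_combination this
  rw [e1, e2, C2.y_zero]

theorem q72 (s u t : K) : C.y 2 s u * C.z 4 (t * s * σ s + t * u) * C.x 5 (t * σ s) * C.z 6 (σ t * s) *
    C.x 7 t = C.x 7 t * C.y 2 s u := by
  have h := congrArg C.c1 (C.r38 s (u + s * σ s) t)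
  simp only [map_mul, map_inv, C1.c1_x, C1.c1_z, C2.c1_y] at h
  norm_num at h
  have hi : C.y 2 s (u + s * σ s) = (C.y 2 s u)⁻¹ := eq_inv_of_mul_eq_one_left (yinv C 2 s u)
  rw [hi, inv_inv] at h
  have h1 : C.x 7 t * C.y 2 s u = C.y 2 s u * (C.x 7 t * C.z 6 (s * σ t) * C.x 5 (σ s * t) *
      C.z 4 ((u + s * σ s) * t)) := by rw [← h]; group
  have a1 : t * s * σ s + t * u = (u + s * σ s) * t := by ring
  rw [h1, a1, mul_comm t (σ s), mul_comm (σ t) s]
  set p := C.x 7 t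
  set q := C.z 6 (s * σ t)
  set r := C.x 5 (σ s * t)
  set v := C.z 4 ((u + s * σ s) * t)
  have c1 : Commute q p := zc C (j := 6) (k := 7) (by decide) (by norm_num) (by norm_num) _ (C.x_mem (by decide) t)
  have c2 : Commute q r := zc C (j := 6) (k := 5) (by decide) (by norm_num) (by norm_num) _ (C.x_mem (by decide) _)
  have c3 : Commute v p := zc C (j := 4) (k := 7) (by decide) (by norm_num) (by norm_num) _ (C.x_mem (by decide) t)
  have c4 : Commute v r := zc C (j := 4) (k := 5) (by decide) (by norm_num) (by norm_num) _ (C.x_mem (by decide) _)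
  have c5 : Commute v q := zc C (j := 4) (k := 6) (by decide) (by norm_num) (by norm_num) _ (zU C (by decide) _)
  have c6 : Commute r p := W8.codd2 C.ev (i := 5) (by decide) (C.x_mem (by decide) _) (C.x_mem (i := 7) (by decide) t)
  have k : v * r * q * p = p * q * r * v := by
    rw [mul_assoc, mul_assoc, ((c4.mul_right (c5.mul_right c3))).eq, c1.eq, ← mul_assoc, c6.eq, mul_assoc p r,
      ← c2.eq, ← mul_assoc]
  rw [← k]; simp only [mul_assoc]

theorem a21 (s u t : K) : C.x 1 t * C.y 2 s u = C.y 2 s u * C.x 1 t :=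
  (W8.adj (C.x_mem (i := 1) (by decide) t) (C.y_mem (j := 2) (by decide) s u)).eq
theorem a32 (s u t : K) : C.y 2 s u * C.x 3 t = C.x 3 t * C.y 2 s u :=
  (W8.adj (C.y_mem (j := 2) (by decide) s u) (C.x_mem (i := 3) (by decide) t)).eq
theorem a43 (s u t : K) : C.x 3 t * C.y 4 s u = C.y 4 s u * C.x 3 t :=
  (W8.adj (C.x_mem (i := 3) (by decide) t) (C.y_mem (j := 4) (by decide) s u)).eq
theorem a54 (s u t : K) : C.y 4 s u * C.x 5 t = C.x 5 t * C.y 4 s u :=
  (W8.adj (C.y_mem (j := 4) (by decide) s u) (C.x_mem (i := 5) (by decide) t)).eq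
theorem a65 (s u t : K) : C.x 5 t * C.y 6 s u = C.y 6 s u * C.x 5 t :=
  (W8.adj (C.x_mem (i := 5) (by decide) t) (C.y_mem (j := 6) (by decide) s u)).eq
theorem a76 (s u t : K) : C.y 6 s u * C.x 7 t = C.x 7 t * C.y 6 s u :=
  (W8.adj (C.y_mem (j := 6) (by decide) s u) (C.x_mem (i := 7) (by decide) t)).eq
theorem b31 (s t : K) : C.x 1 t * C.x 3 s = C.x 3 s * C.x 1 t :=
  (W8.codd2 C.ev (i := 1) (by decide) (C.x_mem (by decide) t) (C.x_mem (i := 3) (by decide) s)).eq
theorem b53 (s t : K) : C.x 3 t * C.x 5 s = C.x 5 s * C.x 3 t :=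
  (W8.codd2 C.ev (i := 3) (by decide) (C.x_mem (by decide) t) (C.x_mem (i := 5) (by decide) s)).eq
theorem b75 (s t : K) : C.x 5 t * C.x 7 s = C.x 7 s * C.x 5 t :=
  (W8.codd2 C.ev (i := 5) (by decide) (C.x_mem (by decide) t) (C.x_mem (i := 7) (by decide) s)).eq
theorem b51 (s t : K) : C.x 1 t * C.x 5 s = C.x 5 s * C.x 1 t :=
  (W8.codd4 C.ev (i := 1) (by decide) (C.x_mem (by decide) t) (C.x_mem (i := 5) (by decide) s)).eq
theorem b73 (s t : K) : C.x 3 t * C.x 7 s = C.x 7 s * C.x 3 t :=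
  (W8.codd4 C.ev (i := 3) (by decide) (C.x_mem (by decide) t) (C.x_mem (i := 7) (by decide) s)).eq
theorem b62 (s u s' u' : K) : C.y 2 s' u' * C.y 6 s u = C.y 6 s u * C.y 2 s' u' :=
  (W8.cev4 C.ev (j := 2) (by decide) (C.y_mem (by decide) s' u') (C.y_mem (j := 6) (by decide) s u)).eq

end PrQ

namespace C2

variable {G : Type*} [Group G] [Finite G] {W : W8 G} {K : Type} [Field K] [Finite K] [Tits K] (C : C2 W K)

open PrQ in
theorem prQ (i j : Fin 8) (h : i ≤ j) (hj : j ≠ 7) (a b : Co K) :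
    C.ν (rt j b * rt i a) = C.ν (rt j b) * C.ν (rt i a) := by
  fin_cases j <;> fin_cases i <;> first
    | exact absurd h (by decide)
    | exact absurd rfl hj
    | skip
  all_goals
    rw [C.ν_def (_ * _)]
    simp [rt, C.y0]
  all_goals first
    | exact C.xa _ _ _
    | exact (C.ya _ _ _ _ _).symm
    | exact a21 C _ _ _
    | exact a32 C _ _ _
    | exact a43 C _ _ _
    | exact a54 C _ _ _
    | exact a65 C _ _ _
    | exact a76 C _ _ _
    | exact b31 C _ _
    | exact b53 C _ _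
    | exact b75 C _ _
    | exact b51 C _ _
    | exact b73 C _ _
    | exact b62 C _ _ _ _
    | exact q41 C _ _ _
    | exact q42 C _ _ _ _
    | exact q52 C _ _ _
    | exact q61 C _ _ _
    | exact q63 C _ _ _
    | exact q64 C _ _ _ _
    | exact q71 C _ _
    | exact q72 C _ _ _
    | exact q74 C _ _ _

end C2

end FS8
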