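import Mathlib
import Cfsg.Agent.Lib.FS8.PrQ
import Cfsg.Agent.Lib.FS8.PrP
import Cfsg.Agent.Lib.FS8.Col

set_option autoImplicit false

open scoped commutatorElement

namespace FS8

open H78.Oct H78.Oct.Co

namespace C2

variable {G : Type*} [Group G] [Finite G] {W : W8 G} {K : Type} [Field K] [Finite K] [Tits K] (C : C2 W K)

set_option linter.unusedSectionVars false

omit [Finite K] in
theorem hq_y8 : (y8 0 0 : Co K) = 1 := by ext <;> simp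

omit [Finite K] in
theorem hq_rtQ {a : Co K} (ha : a ∈ (Q : Subgroup (Co K))) (i : Fin 8) : rt i a ∈ (Q : Subgroup (Co K)) := by
  fin_cases i <;> simp_all [rt]

theorem homQ : C.Hom Q := col C.ν C.ν_prod Q (fun _ ha => hq_rtQ ha) fun i j h a _ b hb => by
  by_cases hj : j = 7
  · have : rt j b = 1 := by
      rw [hj, ← hq_y8, ← hb.1, show rt 7 b = y8 b.a8 b.b8 from rfl, hb.1, hb.2]
    rw [this, one_mul, C.ν_one, one_mul]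
  · exact C.prQ i j h hj a b

theorem homP : C.Hom P := col C.ν C.ν_prod P (fun a ha i => by fin_cases i <;> simp_all [rt])
  fun i j h a ha b _ => by
  by_cases hj : j = 7
  · by_cases hi : i = 0
    · have : rt i a = 1 := by
        rw [hi, show rt 0 a = Co.x1 a.a1 from rfl, ha.1]
        ext <;> simp
      rw [this, mul_one, C.ν_one, mul_one]
    · rw [hj]; exact C.prP i hi a b fun _ => ha.2
  · exact C.prQ i j h hj a b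

theorem hq_ext {j k : ℤ} {g u : G} (hg : g ∈ W.I 1 j) (hu : u ∈ W.U k) (h : 1 ≤ j ∧ j < k := by norm_num) :
    g * u ∈ W.I 1 k :=
  mul_mem (W8.I_mono le_rfl h.2.le hg) (W8.mem_I (by omega) le_rfl hu)

theorem hq_mem (a : Co K) : C.x 1 a.a1 ∈ W.I 1 1 ∧ C.x 1 a.a1 * C.y 2 a.a2 a.b2 ∈ W.I 1 2 ∧
    C.x 1 a.a1 * C.y 2 a.a2 a.b2 * C.x 3 a.a3 ∈ W.I 1 3 ∧
    C.x 1 a.a1 * C.y 2 a.a2 a.b2 * C.x 3 a.a3 * C.y 4 a.a4 a.b4 ∈ W.I 1 4 ∧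
    C.x 1 a.a1 * C.y 2 a.a2 a.b2 * C.x 3 a.a3 * C.y 4 a.a4 a.b4 * C.x 5 a.a5 ∈ W.I 1 5 ∧
    C.x 1 a.a1 * C.y 2 a.a2 a.b2 * C.x 3 a.a3 * C.y 4 a.a4 a.b4 * C.x 5 a.a5 * C.y 6 a.a6 a.b6 ∈ W.I 1 6 ∧
    C.x 1 a.a1 * C.y 2 a.a2 a.b2 * C.x 3 a.a3 * C.y 4 a.a4 a.b4 * C.x 5 a.a5 * C.y 6 a.a6 a.b6 *
      C.x 7 a.a7 ∈ W.I 1 7 := by
  have h1 := W8.I_self.2 (C.x_mem (i := 1) (by decide) a.a1)
  have h2 := hq_ext h1 (C.y_mem (j := 2) (by decide) a.a2 a.b2)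
  have h3 := hq_ext h2 (C.x_mem (i := 3) (by decide) a.a3)
  have h4 := hq_ext h3 (C.y_mem (j := 4) (by decide) a.a4 a.b4)
  have h5 := hq_ext h4 (C.x_mem (i := 5) (by decide) a.a5)
  have h6 := hq_ext h5 (C.y_mem (j := 6) (by decide) a.a6 a.b6)
  exact ⟨h1, h2, h3, h4, h5, h6, hq_ext h6 (C.x_mem (i := 7) (by decide) a.a7)⟩

theorem hq_cut {j k : ℤ} {g g' u u' : G} (e : g * u = g' * u') (hg : g ∈ W.I 1 j) (hg' : g' ∈ W.I 1 j)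
    (hu : u ∈ W.U k) (hu' : u' ∈ W.U k) (h : j ≤ 7 ∧ k = j + 1 := by norm_num) : g = g' ∧ u = u' :=
  W8.uniq (by omega) (by omega) (by omega) hg hg' (W8.I_self.2 hu) (W8.I_self.2 hu') e

theorem ν_inj : Function.Injective C.ν := fun a b e => by
  obtain ⟨a1, a2, a3, a4, a5, a6, a7⟩ := C.hq_mem a
  obtain ⟨b1, b2, b3, b4, b5, b6, b7⟩ := C.hq_mem b
  obtain ⟨e, e8⟩ := hq_cut e a7 b7 (C.y_mem (j := 8) (by decide) _ _) (C.y_mem (by decide) _ _)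
  obtain ⟨e, e7⟩ := hq_cut e a6 b6 (C.x_mem (i := 7) (by decide) _) (C.x_mem (by decide) _)
  obtain ⟨e, e6⟩ := hq_cut e a5 b5 (C.y_mem (j := 6) (by decide) _ _) (C.y_mem (by decide) _ _)
  obtain ⟨e, e5⟩ := hq_cut e a4 b4 (C.x_mem (i := 5) (by decide) _) (C.x_mem (by decide) _)
  obtain ⟨e, e4⟩ := hq_cut e a3 b3 (C.y_mem (j := 4) (by decide) _ _) (C.y_mem (by decide) _ _)
  obtain ⟨e, e3⟩ := hq_cut e a2 b2 (C.x_mem (i := 3) (by decide) _) (C.x_mem (by decide) _)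
  obtain ⟨e, e2⟩ := hq_cut e a1 b1 (C.y_mem (j := 2) (by decide) _ _) (C.y_mem (by decide) _ _)
  have f2 := C.yi 2 (by decide) _ _ _ _ e2
  have f4 := C.yi 4 (by decide) _ _ _ _ e4
  have f6 := C.yi 6 (by decide) _ _ _ _ e6
  have f8 := C.yi 8 (by decide) _ _ _ _ e8
  exact Co.ext (C.xi 1 (by decide) e) f2.1 f2.2 (C.xi 3 (by decide) e3) f4.1 f4.2 (C.xi 5 (by decide) e5)
    f6.1 f6.2 (C.xi 7 (by decide) e7) f8.1 f8.2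

theorem hq_sp {j k : ℤ} {g : G} (hg : g ∈ W.I 1 j) (h : k = j - 1 ∧ j ≤ 8 := by norm_num) :
    ∃ a ∈ W.I 1 k, ∃ b ∈ W.U j, g = a * b := by
  rw [h.1]
  exact W8.split_hi (by omega) hg

theorem ν_surj {g : G} (hg : g ∈ W.I 1 7) : ∃ a ∈ (Q : Subgroup (Co K)), g = C.ν a := by
  obtain ⟨g6, k6, u7, h7, e7⟩ := hq_sp (k := 6) hg
  obtain ⟨g5, k5, u6, h6, e6⟩ := hq_sp (k := 5) k6
  obtain ⟨g4, k4, u5, h5, e5⟩ := hq_sp (k := 4) k5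
  obtain ⟨g3, k3, u4, h4, e4⟩ := hq_sp (k := 3) k4
  obtain ⟨g2, k2, u3, h3, e3⟩ := hq_sp (k := 2) k3
  obtain ⟨g1, k1, u2, h2, e2⟩ := hq_sp (k := 1) k2
  obtain ⟨a1, f1⟩ := (C.xm 1 (by decide) g1).1 (W8.I_self.1 k1)
  obtain ⟨a2, b2, f2⟩ := (C.ym 2 (by decide) _).1 h2
  obtain ⟨a3, f3⟩ := (C.xm 3 (by decide) _).1 h3
  obtain ⟨a4, b4, f4⟩ := (C.ym 4 (by decide) _).1 h4
  obtain ⟨a5, f5⟩ := (C.xm 5 (by decide) _).1 h5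
  obtain ⟨a6, b6, f6⟩ := (C.ym 6 (by decide) _).1 h6
  obtain ⟨a7, f7⟩ := (C.xm 7 (by decide) _).1 h7
  refine ⟨⟨a1, a2, b2, a3, a4, b4, a5, a6, b6, a7, 0, 0⟩, ⟨rfl, rfl⟩, ?_⟩
  rw [ν_def, C.y_zero, mul_one, e7, e6, e5, e4, e3, e2, f1, f2, f3, f4, f5, f6, f7]

theorem ν_mem {a : Co K} (ha : a ∈ (Q : Subgroup (Co K))) : C.ν a ∈ W.I 1 7 := by
  rw [ν_def, ha.1, ha.2, C.y_zero, mul_one]
  exact (C.hq_mem a).2.2.2.2.2.2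

theorem ν_mul_y8 {a : Co K} (ha : a ∈ (Q : Subgroup (Co K))) (s u : K) :
    C.ν (a * y8 s u) = C.ν a * C.y 8 s u := by
  simp [ν_def, ha.1, ha.2]

theorem hq_gen {S : Subgroup (Co K)} (hS : C.Hom S) (c : G →* G) (f : Co K → Co K)
    (hf : ∀ x ∈ S, ∀ y ∈ S, f (x * y) = f x * f y) (hm : ∀ x ∈ S, f x ∈ S) {a : Co K}
    (h1 : ∀ i, rt i a ∈ S) (hr : ∀ i, c (C.ν (rt i a)) = C.ν (f (rt i a))) : c (C.ν a) = C.ν (f a) := by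
  have m : ∀ {x y}, x ∈ S ∧ c (C.ν x) = C.ν (f x) → y ∈ S ∧ c (C.ν y) = C.ν (f y) →
      x * y ∈ S ∧ c (C.ν (x * y)) = C.ν (f (x * y)) := fun {x y} hx hy => ⟨mul_mem hx.1 hy.1, by
    rw [hS x hx.1 y hy.1, map_mul, hf x hx.1 y hy.1, hS _ (hm x hx.1) _ (hm y hy.1), hx.2, hy.2]⟩
  have k : ∀ i, rt i a ∈ S ∧ c (C.ν (rt i a)) = C.ν (f (rt i a)) := fun i => ⟨h1 i, hr i⟩
  rw [eq_prod a]
  exact (m (m (m (m (m (m (m (k 0) (k 1)) (k 2)) (k 3)) (k 4)) (k 5)) (k 6)) (k 7)).2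

theorem n2_ν {a : Co K} (ha : a ∈ (Q : Subgroup (Co K))) : C.n2 * C.ν a * C.n2⁻¹ = C.ν (w2 a) := by
  refine C.hq_gen C.homQ C.c2 w2 (fun _ hx _ hy => w2_mul hx hy) (fun x _ => w2_mem x) (hq_rtQ ha) fun i => ?_
  fin_cases i <;> simp [rt, ν_def, ha.1, ha.2]

theorem n1_ν {S : Subgroup (Co K)} (hS : C.Hom S) (h1 : ∀ a ∈ S, ∀ i, rt i a ∈ S) (h2 : S ≤ R)
    (h3 : ∀ a ∈ S, w1 a ∈ S) {a : Co K} (ha : a ∈ S) : C.n1 * C.ν a * C.n1⁻¹ = C.ν (w1 a) := by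
  refine C.hq_gen hS C.c1 w1 (fun _ hx _ hy => w1_mul (h2 hx) (h2 hy)) h3 (h1 a ha) fun i => ?_
  have : a.a1 = 0 := h2 ha
  fin_cases i <;> simp [rt, ν_def, this]

end C2

end FS8
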