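import Mathlib
import Cfsg.Agent.Lib.FS8.Hq

set_option autoImplicit false
set_option linter.unusedSectionVars false

open scoped commutatorElement

namespace FS8

open H78.Oct H78.Oct.Co

namespace DA

variable {K : Type} [Field K] [Tits K]

theorem cjQ (c : Co K) {a : Co K} (ha : a ∈ (Q : Subgroup (Co K))) : c * a * c⁻¹ ∈ (Q : Subgroup (Co K)) := by
  rw [mem_Q] at ha ⊢
  constructor <;> simp [ha] <;> grind

theorem cjP {c a : Co K} (hc : c ∈ (Q : Subgroup (Co K))) (ha' : a ∈ (Q : Subgroup (Co K)))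
    (ha : a ∈ (P : Subgroup (Co K))) : c * a * c⁻¹ ∈ (P : Subgroup (Co K)) := by
  rw [mem_Q] at hc ha'
  rw [mem_P] at ha ⊢
  constructor <;> simp [ha, hc, ha'] <;> grind

theorem cen {e : Co K} (he : e ∈ (Q : Subgroup (Co K)))
    (h : ∀ m ∈ (Q : Subgroup (Co K)), m ∈ (P : Subgroup (Co K)) → e * m = m * e) :
    ∃ p q r, e = ⟨0, 0, 0, 0, 0, p, q, 0, r, 0, 0, 0⟩ := by
  rw [mem_Q] at he
  have h1 := congrArg Co.b4 (h (y6 0 1) (by simp) (by simp))
  have h2 := congrArg Co.b4 (h (x5 1) (by simp) (by simp))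
  have h3 := congrArg Co.b4 (h (Co.y2 0 1) (by simp) (by simp))
  have h4 := congrArg Co.b4 (h (x3 1) (by simp) (by simp))
  have h5 := congrArg Co.b6 (h (x7 1) (by simp) (by simp))
  have h6 := congrArg Co.b4 (h (x7 1) (by simp) (by simp))
  have h7 := congrArg Co.b4 (h (y6 1 0) (by simp) (by simp))
  simp [he] at h1 h2 h3 h4
  simp [he, h1, h2] at h5 h6 h7
  exact ⟨e.b4, e.a5, e.b6, by ext <;> simp [*]⟩

variable {G : Type*} [Group G] [Finite G] {W : W8 G} [Finite K] {C : C2 W K} {s u : K}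

/-- conjugation by `y 8 s u`, compared with the model -/
structure Rl (C : C2 W K) (s u : K) (a d : Co K) : Prop where
  ha : a ∈ (Q : Subgroup (Co K))
  hd : d ∈ (Q : Subgroup (Co K))
  e : C.y 8 s u * C.ν a * (C.y 8 s u)⁻¹ = C.ν (y8 s u * d * (y8 s u)⁻¹)

theorem Rl.ex {a : Co K} (ha : a ∈ (Q : Subgroup (Co K))) : ∃ d, Rl C s u a d := by
  obtain ⟨b, hb, e⟩ := C.ν_surj (W8.conj_mem (i := 8) (j := 8) (by norm_num) (by norm_num) (by norm_num)
    (W8.I_self.2 (C.y_mem (by decide) s u)) (C.ν_mem ha))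
  exact ⟨(y8 s u)⁻¹ * b * (y8 s u)⁻¹⁻¹, ha, cjQ _ hb, by rw [e]; congr 1; group⟩

theorem Rl.mul {a d a' d' : Co K} (h : Rl C s u a d) (h' : Rl C s u a' d') : Rl C s u (a * a') (d * d') :=
  ⟨mul_mem h.ha h'.ha, mul_mem h.hd h'.hd, by
    rw [C.homQ _ h.ha _ h'.ha, ← conj_mul, h.e, h'.e, ← C.homQ _ (cjQ _ h.hd) _ (cjQ _ h'.hd), conj_mul]⟩

theorem Rl.uniq {a a' d d' : Co K} (h : Rl C s u a d) (h' : Rl C s u a' d') (e : a = a') : d = d' := by
  subst e
  simpa using C.ν_inj (h.e.symm.trans h'.e)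

theorem Rl.self {m : Co K} (h : m ∈ (Q : Subgroup (Co K))) (h' : m ∈ (P : Subgroup (Co K))) : Rl C s u m m := by
  have c : y8 s u ∈ (P : Subgroup (Co K)) := by simp
  refine ⟨h, h, ?_⟩
  have := C.homP _ c _ (inv_mem c)
  rw [mul_inv_cancel, C.ν_one, C.ν_y8] at this
  rw [C.homP _ (mul_mem c h') _ (inv_mem c), C.homP _ c _ h', C.ν_y8, inv_eq_of_mul_eq_one_right this.symm]

theorem Rl.form {a : Co K} (ha : a ∈ (Q : Subgroup (Co K))) :
    ∃ p q r, Rl C s u a (a * ⟨0, 0, 0, 0, 0, p, q, 0, r, 0, 0, 0⟩) := by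
  obtain ⟨d, h⟩ := Rl.ex (C := C) (s := s) (u := u) ha
  obtain ⟨p, q, r, e⟩ := cen (mul_mem (inv_mem ha) h.hd) fun m hm hm' => by
    have := (h.mul (.self hm hm')).uniq ((Rl.self (cjQ a hm) (cjP ha hm hm')).mul h) (by group)
    rw [mul_assoc, this]; group
  exact ⟨p, q, r, by rwa [← e, mul_inv_cancel_left]⟩

end DA

namespace C2

open DA

variable {G : Type*} [Group G] [Finite G] {W : W8 G} {K : Type} [Field K] [Finite K] [Tits K] (C : C2 W K)

theorem dlem (s u : K) : ∃ (κ : K) (ε η : K → K), ∀ t,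
    C.y 8 s u * C.x 1 t * (C.y 8 s u)⁻¹ =
      C.ν (y8 s u * (Co.x1 t * y4 0 (ε t) * x5 (κ * t)) * (y8 s u)⁻¹) ∧
    C.y 8 s u * C.y 2 t 0 * (C.y 8 s u)⁻¹ =
      C.ν (y8 s u * (Co.y2 t 0 * y4 0 (η t) * y6 0 (κ * t)) * (y8 s u)⁻¹) := by
  choose p q r h using fun t : K => Rl.form (C := C) (s := s) (u := u) (a := Co.x1 t) (by simp)
  choose p' q' r' h' using fun t : K => Rl.form (C := C) (s := s) (u := u) (a := Co.y2 t 0) (by simp)
  have r1 : r 1 = 0 := by
    have := congrArg Co.b4 (((h 1).mul (h 1)).uniq (.self (one_mem _) (one_mem _))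
      (by ext <;> simp [CharTwo.add_self_eq_zero]))
    simp at this
    grind
  have r0 : ∀ t, r t = 0 := fun t => by
    have := congrArg Co.b4 (((h t).mul (h 1)).uniq ((h 1).mul (h t)) (by ext <;> simp [add_comm]))
    simp [r1] at this
    grind
  have q0 : ∀ t, q' t = 0 := fun t => by
    by_cases c : t = 0
    · have := congrArg Co.a5 ((h' t).uniq (.self (one_mem _) (one_mem _)) (by ext <;> simp [c]))
      simpa using this
    · have := congrArg Co.b4 (((h' t).mul (h' t)).uniq (.self (m := Co.y2 0 (t * σ t)) (by simp) (by simp))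
        (by ext <;> simp [CharTwo.add_self_eq_zero]))
      simp at this
      grind
  have k : ∀ t t', q t * t' = r' t' * t := fun t t' => by
    have := congrArg Co.b4 (((h t).mul (h' t')).uniq ((h' t').mul (h t)) (by ext <;> simp))
    simp [r0, q0] at this
    grind
  have k1 : ∀ t, r' t = q 1 * t := fun t => by simpa using (k 1 t).symm
  have k2 : ∀ t, q t = q 1 * t := fun t => by simpa [k1] using k t 1
  refine ⟨q 1, p, p', fun t => ⟨?_, ?_⟩⟩
  · rw [← C.ν_x1, (h t).e, ← k2]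
    congr 3
    ext <;> simp [r0]
  · rw [← C.ν_y2, (h' t).e, ← k1]
    congr 3
    ext <;> simp [q0]

end C2

end FS8
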