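import Mathlib
import Cfsg.Agent.Lib.FS8.DA

set_option autoImplicit false
set_option linter.unusedSectionVars false

open scoped commutatorElement

namespace FS8

open H78.Oct H78.Oct.Co

namespace C2

variable {G : Type*} [Group G] [Finite G] {W : W8 G} {K : Type} [Field K] [Finite K] [Tits K] (C : C2 W K)

theorem DB_cjQ (c : Co K) {a : Co K} (ha : a ∈ (Q : Subgroup (Co K))) : c * a * c⁻¹ ∈ (Q : Subgroup (Co K)) := by
  rw [mem_Q] at ha ⊢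
  constructor <;> simp [ha] <;> grind

theorem DB_iff (s u : K) {a : Co K} (ha : a ∈ (Q : Subgroup (Co K))) :
    C.ν (y8 s u * a) = C.y 8 s u * C.ν a ↔
      C.y 8 s u * C.ν a * (C.y 8 s u)⁻¹ = C.ν (y8 s u * a * (y8 s u)⁻¹) := by
  have e : y8 s u * a = y8 s u * a * (y8 s u)⁻¹ * y8 s u := by group
  rw [mul_inv_eq_iff_eq_mul, ← C.ν_mul_y8 (DB_cjQ _ ha), ← e, eq_comm]

theorem DB_tor (c k : Kˣ) {a b : Co K} (h : C.ν (a * b) = C.ν a * C.ν b) :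
    C.ν (tor c k a * tor c k b) = C.ν (tor c k a) * C.ν (tor c k b) := by
  obtain ⟨g, -, e⟩ := C.ν_tor c k
  rw [← map_mul, ← e, ← e, ← e, h]; group

/-- `P ⊓ {a8 = 0}` -/
def DB_S (K : Type) [Field K] [Tits K] : Subgroup (Co K) where
  carrier := {a | a.a1 = 0 ∧ a.a2 = 0 ∧ a.a8 = 0}
  mul_mem' := fun ha hb => by simp_all
  one_mem' := by simp
  inv_mem' := fun ha => by simp_all

theorem DB_mem {a : Co K} : a ∈ DB_S K ↔ a.a1 = 0 ∧ a.a2 = 0 ∧ a.a8 = 0 := Iff.rfl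

theorem DB_one : C.ν (y8 0 1 * Co.x1 1) = C.y 8 0 1 * C.x 1 1 := by
  obtain ⟨κ, ε, η, h⟩ := C.dlem 0 1
  obtain ⟨h1, h2⟩ := h 1
  have k0 : κ = 0 := by
    have e := (C.DB_iff 0 1 (a := Co.y2 1 0) (by simp)).1 (by rw [C.r2z, ν_y2])
    rw [ν_y2, h2] at e
    have := congrArg Co.b6 (mul_left_cancel (mul_right_cancel (C.ν_inj e)))
    simpa using this
  have e5 : (x5 (κ * 1) : Co K) = 1 := by rw [k0]; ext <;> simp
  rw [e5, mul_one] at h1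
  have xQ : (Co.x1 1 : Co K) ∈ (Q : Subgroup (Co K)) := by simp
  have bQ : (Co.x1 1 * y4 0 (ε 1) : Co K) ∈ (Q : Subgroup (Co K)) := by simp
  have hg : C.x 1 1 * C.ν ((Co.x1 1)⁻¹ * y8 0 1 * (Co.x1 1 * y4 0 (ε 1))) = C.y 8 0 1 * C.x 1 1 := by
    have e : ((Co.x1 1)⁻¹ * y8 0 1 * (Co.x1 1 * y4 0 (ε 1)) : Co K) =
        (Co.x1 1)⁻¹ * (y8 0 1 * (Co.x1 1 * y4 0 (ε 1)) * (y8 0 1)⁻¹) * y8 0 1 := by group
    rw [e, C.ν_mul_y8 (mul_mem (inv_mem xQ) (DB_cjQ _ bQ)), ← mul_assoc, ← C.ν_x1,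
      ← C.homQ _ xQ _ (mul_mem (inv_mem xQ) (DB_cjQ _ bQ)), mul_inv_cancel_left, ← h1, ν_x1]
    group
  have hc : C.y 8 0 1 * C.x 9 1 = C.x 9 1 * C.y 8 0 1 :=
    W8.adj (i := 8) (C.y_mem (by decide) 0 1) (C.x_mem (i := 9) (by decide) 1)
  have hn := C.n1_ν (S := DB_S K) (fun a ha b hb => C.homP a ⟨ha.1, ha.2.1⟩ b ⟨hb.1, hb.2.1⟩)
    (fun a ha i => by rw [DB_mem] at ha ⊢; fin_cases i <;> simp [rt, ha]) (fun a ha => ha.1)
    (fun a ha => by rw [DB_mem] at ha ⊢; simp [ha])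
    (a := (Co.x1 1)⁻¹ * y8 0 1 * (Co.x1 1 * y4 0 (ε 1))) (by rw [DB_mem]; simp; grind)
  rw [← eq_inv_mul_iff_mul_eq] at hg
  have e : C.n1 * ((C.x 1 1)⁻¹ * (C.y 8 0 1 * C.x 1 1)) * C.n1⁻¹ = (C.x 1 1)⁻¹ * (C.y 8 0 1 * C.x 1 1) := by
    rw [C.n1_eq]
    calc _ = (C.x 1 1)⁻¹ * (C.x 9 1 * C.y 8 0 1) * (C.x 9 1)⁻¹ * C.x 1 1 := by group
      _ = _ := by rw [← hc]; group
  rw [hg, e, ← hg] at hn
  have e0 : ε 1 = 0 := by
    have := congrArg Co.b4 (C.ν_inj hn)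
    simp at this
    grind
  have e4 : (y4 0 (ε 1) : Co K) = 1 := by rw [e0]; ext <;> simp
  rw [e4, mul_one] at h1
  have := (C.DB_iff 0 1 xQ).2 (by rw [ν_x1, h1])
  rwa [ν_x1] at this

theorem r1z (u t : K) : C.ν (y8 0 u * Co.x1 t) = C.y 8 0 u * C.x 1 t := by
  by_cases hu : u = 0
  · have e : (y8 0 u : Co K) = 1 := by rw [hu]; ext <;> simp
    rw [e, one_mul, hu, ν_x1, y_zero, one_mul]
  by_cases ht : t = 0
  · have e : (Co.x1 t : Co K) = 1 := by rw [ht]; ext <;> simp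
    rw [e, mul_one, ht, ν_y8, C1.x_zero, mul_one]
  have hk : t * u ≠ 0 := mul_ne_zero ht hu
  have hk' := σ_ne hk
  obtain ⟨c, hc⟩ := N_surj (t * (t * u * σ (t * u)))
  have hc0 : c ≠ 0 := by
    rintro rfl
    exact mul_ne_zero ht (mul_ne_zero hk hk') (by rw [← hc, zero_mul])
  have := C.DB_tor (Units.mk0 c hc0) (Units.mk0 _ hk) (a := y8 0 1) (b := Co.x1 1)
    (by rw [C.DB_one, ν_y8, ν_x1])
  have e1 : tor (Units.mk0 c hc0) (Units.mk0 _ hk) (y8 0 1) = y8 0 u := by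
    ext <;> simp [-map_mul, hc]
    field_simp
  have e2 : tor (Units.mk0 c hc0) (Units.mk0 _ hk) (Co.x1 1) = Co.x1 t := by
    ext <;> simp [-map_mul, hc]
    field_simp
  rwa [e1, e2, ν_y8, ν_x1] at this

end C2

end FS8
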