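import Mathlib
import Cfsg.Agent.Lib.FS8.DB

set_option autoImplicit false
set_option linter.unusedSectionVars false

open scoped commutatorElement

namespace FS8

open H78.Oct H78.Oct.Co

namespace C2

variable {G : Type*} [Group G] [Finite G] {W : W8 G} {K : Type} [Field K] [Finite K] [Tits K] (C : C2 W K)

/-- conjugation by `y 8 s u` agrees with the model at `a` -/
def DC_Cj (s u : K) (a : Co K) : Prop :=
  C.y 8 s u * C.ν a * (C.y 8 s u)⁻¹ = C.ν (y8 s u * a * (y8 s u)⁻¹)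

theorem DC_mul {s u : K} {a b : Co K} (ha : a ∈ (Q : Subgroup (Co K))) (hb : b ∈ (Q : Subgroup (Co K)))
    (h1 : C.DC_Cj s u a) (h2 : C.DC_Cj s u b) : C.DC_Cj s u (a * b) := by
  have e : y8 s u * (a * b) * (y8 s u)⁻¹ = y8 s u * a * (y8 s u)⁻¹ * (y8 s u * b * (y8 s u)⁻¹) := by group
  rw [DC_Cj] at h1 h2 ⊢
  rw [e, C.homQ _ (DB_cjQ _ ha) _ (DB_cjQ _ hb), C.homQ _ ha _ hb, ← h1, ← h2]; group

theorem DC_P (s u : K) {a : Co K} (ha : a ∈ (Q : Subgroup (Co K))) (hP : a ∈ (P : Subgroup (Co K))) :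
    C.DC_Cj s u a :=
  (C.DB_iff s u ha).1 (by rw [C.homP _ (by simp) _ hP, ν_y8])

theorem DC_cen (e : K) (a : Co K) : y4 0 e * a = a * y4 0 e := by
  ext <;> simp
  ring

theorem DC_y4 (e e' : K) : (y4 0 e * y4 0 e' : Co K) = y4 0 (e + e') := by
  ext <;> simp

theorem DC_one (t : K) : C.ν (y8 1 0 * Co.y2 t 0) = C.y 8 1 0 * C.y 2 t 0 := by
  obtain ⟨κ, ε, η, h⟩ := C.dlem 1 0
  have k0 : κ = 0 := by
    have h2 := (h 1).2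
    have hn := C.n2_ν (a := y8 1 0 * (Co.y2 1 0 * y4 0 (η 1) * y6 0 (κ * 1)) * (y8 1 0)⁻¹)
      (DB_cjQ _ (by simp))
    have hc : C.z 0 1 * C.y 2 1 0 = C.y 2 1 0 * C.z 0 1 :=
      (C.z_mem (j := 0) (by decide) 1).2 2 (by decide) (by decide) _ (C.y_mem (by decide) 1 0)
    have e : C.n2 * (C.y 8 1 0 * C.y 2 1 0 * (C.y 8 1 0)⁻¹) * C.n2⁻¹ = C.y 8 1 0 * C.y 2 1 0 * (C.y 8 1 0)⁻¹ := by
      rw [C.n2y]
      calc _ = C.y 8 1 0 * (C.z 0 1 * C.y 2 1 0) * (C.z 0 1)⁻¹ * (C.y 8 1 0)⁻¹ := by group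
        _ = _ := by rw [hc]; group
    rw [← h2, e, h2] at hn
    have := congrArg Co.b2 (C.ν_inj hn)
    simp at this
    grind
  obtain ⟨h1, h2⟩ := h t
  have e5 : (x5 (κ * t) : Co K) = 1 := by rw [k0]; ext <;> simp
  have e6 : (y6 0 (κ * t) : Co K) = 1 := by rw [k0]; ext <;> simp
  rw [e5, mul_one] at h1
  rw [e6, mul_one] at h2
  have xQ : (Co.x1 t : Co K) ∈ (Q : Subgroup (Co K)) := by simp
  have yQ : (Co.y2 t 0 : Co K) ∈ (Q : Subgroup (Co K)) := by simp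
  have q1 : (Co.x1 t * y4 0 (ε t) : Co K) ∈ (Q : Subgroup (Co K)) := by simp
  have q2 : (Co.y2 t 0 * y4 0 (η t) : Co K) ∈ (Q : Subgroup (Co K)) := by simp
  obtain ⟨m, hm⟩ : ∃ m : Co K, m = (Co.x1 t * Co.y2 t 0)⁻¹ * (y8 1 0 * (Co.x1 t * y4 0 (ε t)) * (y8 1 0)⁻¹) :=
    ⟨_, rfl⟩
  have mQ : m ∈ (Q : Subgroup (Co K)) := hm ▸ mul_mem (inv_mem (mul_mem xQ yQ)) (DB_cjQ _ q1)
  have mP : m ∈ (P : Subgroup (Co K)) := by
    rw [hm, mem_P]; constructor <;> simp <;> grind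
  have hb : y8 1 0 * (Co.x1 t * y4 0 (ε t)) * (y8 1 0)⁻¹ = Co.x1 t * Co.y2 t 0 * m := by rw [hm]; group
  have h3 := C.DC_P 1 0 mQ mP
  rw [DC_Cj] at h3
  have w2 : C.y 8 1 0 * C.y 8 1 0 = C.y 8 0 1 := by
    rw [C.ya]; congr 1 <;> simp [CharTwo.add_self_eq_zero]
  have c2 : (y8 1 0 * y8 1 0 : Co K) = y8 0 1 := by
    ext <;> simp [CharTwo.add_self_eq_zero]
  have h4 := (C.DB_iff 0 1 xQ).1 (by rw [C.r1z, ν_x1])
  rw [ν_x1] at h4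
  have h5 : C.y 8 0 1 * C.x 1 t * (C.y 8 0 1)⁻¹ = C.ν (y8 1 0 * (Co.x1 t * y4 0 (ε t)) * (y8 1 0)⁻¹ *
      (y8 1 0 * (Co.y2 t 0 * y4 0 (η t)) * (y8 1 0)⁻¹) * (y8 1 0 * m * (y8 1 0)⁻¹)) := by
    rw [C.homQ _ (mul_mem (DB_cjQ _ q1) (DB_cjQ _ q2)) _ (DB_cjQ _ mQ), C.homQ _ (DB_cjQ _ q1) _ (DB_cjQ _ q2),
      ← h1, ← h2, ← h3, ← w2]
    have := h1
    rw [hb, C.homQ _ (mul_mem xQ yQ) _ mQ, C.homQ _ xQ _ yQ, ν_x1, ν_y2] at this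
    calc _ = C.y 8 1 0 * (C.y 8 1 0 * C.x 1 t * (C.y 8 1 0)⁻¹) * (C.y 8 1 0)⁻¹ := by group
      _ = C.y 8 1 0 * (C.x 1 t * C.y 2 t 0 * C.ν m) * (C.y 8 1 0)⁻¹ := by rw [this]
      _ = _ := by group
  have h6 := C.ν_inj (h4.symm.trans h5)
  have h7 : (y8 1 0 * Co.x1 t * (y8 1 0)⁻¹ : Co K) =
      Co.x1 t * y4 0 (ε t) * (Co.y2 t 0 * y4 0 (η t)) * m := by
    rw [← c2] at h6
    refine mul_left_cancel (a := y8 1 0) (mul_right_cancel (b := (y8 1 0)⁻¹) ?_)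
    calc _ = y8 1 0 * y8 1 0 * Co.x1 t * (y8 1 0 * y8 1 0)⁻¹ := by group
      _ = _ := by rw [h6]; group
  have e0 : η t = 0 := by
    have e1 : Co.x1 t * y4 0 (ε t) * (Co.y2 t 0 * y4 0 (η t)) * m =
        Co.x1 t * Co.y2 t 0 * m * y4 0 (ε t) * y4 0 (η t) := by
      simp only [mul_assoc]
      rw [DC_cen (η t), DC_cen (ε t), mul_assoc, mul_assoc, DC_cen (η t) (y4 0 (ε t))]
    have e2 : y8 1 0 * (Co.x1 t * y4 0 (ε t)) * (y8 1 0)⁻¹ = y8 1 0 * Co.x1 t * (y8 1 0)⁻¹ * y4 0 (ε t) := by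
      rw [mul_assoc, mul_assoc, DC_cen (ε t)]; group
    rw [e1, ← hb, e2, mul_assoc _ (y4 0 _), DC_y4, mul_assoc _ (y4 0 _), DC_y4, left_eq_mul] at h7
    have := congrArg Co.b4 h7
    simp at this
    grind
  have e4 : (y4 0 (η t) : Co K) = 1 := by rw [e0]; ext <;> simp
  rw [e4, mul_one] at h2
  have := (C.DB_iff 1 0 yQ).2 (by rw [ν_y2, h2])
  rwa [ν_y2] at this

theorem DC_two (s t : K) : C.ν (y8 s 0 * Co.y2 t 0) = C.y 8 s 0 * C.y 2 t 0 := by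
  by_cases hs : s = 0
  · have e : (y8 s 0 : Co K) = 1 := by rw [hs]; ext <;> simp
    rw [e, one_mul, hs, ν_y2, y_zero, one_mul]
  obtain ⟨k, rfl⟩ := (σ : K ≃+* K).surjective s
  have hk : k ≠ 0 := fun e => hs (by rw [e, map_zero])
  have := C.DB_tor 1 (Units.mk0 k hk) (a := y8 1 0) (b := Co.y2 (k * t) 0) (by rw [C.DC_one, ν_y8, ν_y2])
  have e1 : tor 1 (Units.mk0 k hk) (y8 1 0) = y8 (σ k) 0 := by ext <;> simp
  have e2 : tor 1 (Units.mk0 k hk) (Co.y2 (k * t) 0) = Co.y2 t 0 := by ext <;> simp [hk]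
  rwa [e1, e2, ν_y8, ν_y2] at this

theorem DC_R (s : K) {a : Co K} (ha : a ∈ (Q : Subgroup (Co K))) (hR : a.a1 = 0) : C.DC_Cj s 0 a := by
  have yQ : (Co.y2 a.a2 0 : Co K) ∈ (Q : Subgroup (Co K)) := by simp
  have mQ := mul_mem (inv_mem yQ) ha
  have := C.DC_mul yQ mQ ((C.DB_iff s 0 yQ).1 (by rw [C.DC_two, ν_y2]))
    (C.DC_P s 0 mQ (by rw [mem_P]; constructor <;> simp [hR]; grind))
  rwa [mul_inv_cancel_left] at this

theorem r28y (s u s' u' : K) : C.ν (y8 s u * Co.y2 s' u') = C.y 8 s u * C.y 2 s' u' := by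
  have yQ : (Co.y2 s' u' : Co K) ∈ (Q : Subgroup (Co K)) := by simp
  have h1 := (C.DB_iff 0 u yQ).1 (by rw [C.r2z, ν_y2])
  have h2 := C.DC_R s (DB_cjQ (y8 0 u) yQ) (by simp)
  have e1 : C.y 8 s u = C.y 8 s 0 * C.y 8 0 u := by rw [C.ya]; simp
  have e2 : (y8 s u : Co K) = y8 s 0 * y8 0 u := by ext <;> simp
  rw [DC_Cj, ← h1] at h2
  have := (C.DB_iff s u yQ).2 (by
    rw [e1, e2]
    calc _ = C.y 8 s 0 * (C.y 8 0 u * C.ν (Co.y2 s' u') * (C.y 8 0 u)⁻¹) * (C.y 8 s 0)⁻¹ := by group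
      _ = _ := by rw [h2]; congr 1; group)
  rwa [ν_y2] at this

end C2

end FS8
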