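import Mathlib
import Cfsg.Agent.Lib.FS8.DC

set_option autoImplicit false
set_option linter.unusedSectionVars false
set_option linter.unusedSimpArgs false

open scoped commutatorElement

namespace FS8

open H78.Oct H78.Oct.Co

namespace C2

variable {G : Type*} [Group G] [Finite G] {W : W8 G} {K : Type} [Field K] [Finite K] [Tits K] (C : C2 W K)

theorem homR : C.Hom R := by
  refine col C.ν C.ν_prod R (fun a ha i => ?_) fun i j hij a ha b _ => ?_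
  · rw [mem_R] at ha ⊢; fin_cases i <;> simp [rt, ha]
  by_cases hj : j = 7
  · subst hj
    by_cases h0 : i = 0
    · have e : rt i a = 1 := by rw [mem_R] at ha; rw [h0]; ext <;> simp [rt, ha]
      rw [e, mul_one, ν_one, mul_one]
    by_cases h1 : i = 1
    · subst h1
      simpa [rt] using C.r28y b.a8 b.b8 a.a2 a.b2
    · exact C.prP i h0 a b fun e => absurd e h1
  · exact C.prQ i j hij hj a b

theorem DD_one : C.ν (y8 1 0 * Co.x1 1) = C.y 8 1 0 * C.x 1 1 := by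
  have := titsCharP (K := K)
  obtain ⟨κ, ε, η, h⟩ := C.dlem 1 0
  obtain ⟨h1, h2⟩ := h 1
  have k0 : κ = 0 := by
    have e := (C.DB_iff 1 0 (a := Co.y2 1 0) (by simp)).1 (by rw [C.r28y, ν_y2])
    rw [ν_y2, h2] at e
    have := congrArg Co.b6 (mul_left_cancel (mul_right_cancel (C.ν_inj e)))
    simpa using this
  have e5 : (x5 (κ * 1) : Co K) = 1 := by rw [k0]; ext <;> simp
  rw [e5, mul_one] at h1
  have xQ : (Co.x1 1 : Co K) ∈ (Q : Subgroup (Co K)) := by simp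
  have bQ : (Co.x1 1 * y4 0 (ε 1) : Co K) ∈ (Q : Subgroup (Co K)) := by simp
  have hg : C.x 1 1 * C.ν ((Co.x1 1)⁻¹ * y8 1 0 * (Co.x1 1 * y4 0 (ε 1))) = C.y 8 1 0 * C.x 1 1 := by
    have e : ((Co.x1 1)⁻¹ * y8 1 0 * (Co.x1 1 * y4 0 (ε 1)) : Co K) =
        (Co.x1 1)⁻¹ * (y8 1 0 * (Co.x1 1 * y4 0 (ε 1)) * (y8 1 0)⁻¹) * y8 1 0 := by group
    rw [e, C.ν_mul_y8 (mul_mem (inv_mem xQ) (DB_cjQ _ bQ)), ← mul_assoc, ← C.ν_x1,
      ← C.homQ _ xQ _ (mul_mem (inv_mem xQ) (DB_cjQ _ bQ)), mul_inv_cancel_left, ← h1, ν_x1]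
    group
  have hc : C.y 8 1 0 * C.x 9 1 = C.x 9 1 * C.y 8 1 0 :=
    W8.adj (i := 8) (C.y_mem (by decide) 1 0) (C.x_mem (i := 9) (by decide) 1)
  have hn := C.n1_ν (S := R) C.homR
    (fun a ha i => by rw [mem_R] at ha ⊢; fin_cases i <;> simp [rt, ha]) le_rfl
    (fun a ha => by simp)
    (a := (Co.x1 1)⁻¹ * y8 1 0 * (Co.x1 1 * y4 0 (ε 1))) (by rw [mem_R]; simp; grind)
  rw [← eq_inv_mul_iff_mul_eq] at hg
  have e : C.n1 * ((C.x 1 1)⁻¹ * (C.y 8 1 0 * C.x 1 1)) * C.n1⁻¹ = (C.x 1 1)⁻¹ * (C.y 8 1 0 * C.x 1 1) := by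
    rw [C.n1_eq]
    calc _ = (C.x 1 1)⁻¹ * (C.x 9 1 * C.y 8 1 0) * (C.x 9 1)⁻¹ * C.x 1 1 := by group
      _ = _ := by rw [← hc]; group
  rw [hg, e, ← hg] at hn
  have e0 : ε 1 = 0 := by
    have := congrArg Co.b4 (C.ν_inj hn)
    simp at this
    grind
  have e4 : (y4 0 (ε 1) : Co K) = 1 := by rw [e0]; ext <;> simp
  rw [e4, mul_one] at h1
  have := (C.DB_iff 1 0 xQ).2 (by rw [ν_x1, h1])
  rwa [ν_x1] at this

theorem DD_zero (s t : K) : C.ν (y8 s 0 * Co.x1 t) = C.y 8 s 0 * C.x 1 t := by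
  by_cases hs : s = 0
  · rw [hs, C.r1z]
  by_cases ht : t = 0
  · have e : (Co.x1 t : Co K) = 1 := by rw [ht]; ext <;> simp
    rw [e, mul_one, ht, ν_y8, C1.x_zero, mul_one]
  have h1 := σ_ne hs
  have h2 := σ_ne ht
  have hc : σ t * σ s * s ≠ 0 := mul_ne_zero (mul_ne_zero h2 h1) hs
  have hk : t * s * σ s ≠ 0 := mul_ne_zero (mul_ne_zero ht hs) h1
  have := C.DB_tor (Units.mk0 _ hc) (Units.mk0 _ hk) (a := y8 1 0) (b := Co.x1 1)
    (by rw [C.DD_one, ν_y8, ν_x1])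
  have e1 : tor (Units.mk0 _ hc) (Units.mk0 _ hk) (y8 1 0) = y8 s 0 := by
    ext <;> simp
    field_simp
  have e2 : tor (Units.mk0 _ hc) (Units.mk0 _ hk) (Co.x1 1) = Co.x1 t := by
    ext <;> simp
    field_simp
  rwa [e1, e2, ν_y8, ν_x1] at this

theorem r18 (s u t : K) : C.ν (y8 s u * Co.x1 t) = C.y 8 s u * C.x 1 t := by
  have := titsCharP (K := K)
  have xQ : (Co.x1 t : Co K) ∈ (Q : Subgroup (Co K)) := by simp
  have e1 := (C.DB_iff 0 u xQ).1 (by rw [C.r1z, ν_x1])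
  have e0 := (C.DB_iff s 0 xQ).1 (by rw [C.DD_zero, ν_x1])
  obtain ⟨m, hm⟩ : ∃ m : Co K, m = (Co.x1 t)⁻¹ * (y8 0 u * Co.x1 t * (y8 0 u)⁻¹) := ⟨_, rfl⟩
  have mQ : m ∈ (Q : Subgroup (Co K)) := hm ▸ mul_mem (inv_mem xQ) (DB_cjQ _ xQ)
  have mR : m ∈ (R : Subgroup (Co K)) := by rw [hm, mem_R]; simp; grind
  have e4 := (C.DB_iff s 0 mQ).1 (by rw [C.homR _ (by simp) _ mR, ν_y8])
  have e5 : y8 0 u * Co.x1 t * (y8 0 u)⁻¹ = Co.x1 t * m := by rw [hm, mul_inv_cancel_left]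
  have e2 : C.y 8 s u = C.y 8 s 0 * C.y 8 0 u := by rw [C.ya]; simp
  have e3 : (y8 s u : Co K) = y8 s 0 * y8 0 u := by ext <;> simp
  have k : ∀ {H : Type _} [Group H] (a b c : H), a * b * c * (a * b)⁻¹ = a * (b * c * b⁻¹) * a⁻¹ :=
    fun a b c => by group
  rw [← C.ν_x1, C.DB_iff s u xQ, e2, e3, k, e1, show y8 s 0 * y8 0 u * Co.x1 t * (y8 s 0 * y8 0 u)⁻¹ =
    y8 s 0 * (y8 0 u * Co.x1 t * (y8 0 u)⁻¹) * (y8 s 0)⁻¹ by group, e5, C.homQ _ xQ _ mQ, ← conj_mul,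
    ← conj_mul, C.homQ _ (DB_cjQ _ xQ) _ (DB_cjQ _ mQ), e0, e4]

end C2

end FS8
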