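import Mathlib
import Cfsg.Agent.Lib.FS8.Defs

set_option autoImplicit false

open scoped commutatorElement

namespace FS8

open H78.Oct H78.Oct.Co

theorem Sem.toK (R : Type*) [Ring R] [IsDomain R] [Finite R] :
    ∃ (K : Type) (_ : Field K) (_ : Fintype K), Nonempty (K ≃+* R) := by
  let _ := (Finite.isDomain_to_isField R).toField
  exact ⟨Shrink.{0} R, inferInstance, Fintype.ofFinite _, ⟨Shrink.ringEquiv.{0} R⟩⟩

theorem Sem.core {A B C : Type*} [AddCommGroup A] [Group B] [Group C] [Finite A] [Finite B] [Finite C]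
    (β : A → B → C) (h1 : ∀ x x' y, β (x + x') y = β x y * β x' y)
    (h2 : ∀ x y y', β x (y * y') = β x y * β x y') (hn : ∀ x y, β x y = 1 → x = 0 ∨ y = 1)
    (c1 : Nat.card A = Nat.card C) (c2 : Nat.card B = Nat.card C)
    (ht : ∀ a a', a ≠ 0 → a' ≠ 0 → ∃ (α : A →+ A) (γ : B → B), α a = a' ∧ ∀ x y, β (α x) y = β x (γ y))
    {a0 : A} (ha : a0 ≠ 0) {b0 : B} (hb : b0 ≠ 1) :
    ∃ (K : Type) (_ : Field K) (_ : Fintype K) (x : K → A) (y : K → B) (z : K → C),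
      Function.Bijective x ∧ Function.Bijective y ∧ Function.Bijective z ∧
      (∀ s t, x (s + t) = x s + x t) ∧ (∀ s t, y (s + t) = y s * y t) ∧
      (∀ s t, z (s + t) = z s * z t) ∧ x 1 = a0 ∧ y 1 = b0 ∧ ∀ t u, β (x t) (y u) = z (t * u) := by
  have z1 : ∀ y, β 0 y = 1 := fun y => by simpa using h1 0 0 y
  have z2 : ∀ x, β x 1 = 1 := fun x => by simpa using h2 x 1 1
  have n1 : ∀ x y, β (-x) y = (β x y)⁻¹ := fun x y =>
    eq_inv_of_mul_eq_one_left (by rw [← h1, neg_add_cancel, z1])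
  have n2 : ∀ x y, β x y⁻¹ = (β x y)⁻¹ := fun x y =>
    eq_inv_of_mul_eq_one_left (by rw [← h2, inv_mul_cancel, z2])
  have k1 : ∀ x x', β x b0 = β x' b0 → x = x' := fun x x' e =>
    neg_add_eq_zero.1 ((hn _ _ (by rw [h1, n1, e, inv_mul_cancel])).resolve_right hb)
  have k2 : ∀ x, x ≠ 0 → ∀ y y', β x y = β x y' → y = y' := fun x hx y y' e =>
    inv_mul_eq_one.1 ((hn _ _ (by rw [h2, n2, e, inv_mul_cancel])).resolve_left hx)
  let N : Subring (AddMonoid.End A) :=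
    { carrier := {α | ∃ γ : B → B, ∀ x y, β (α x) y = β x (γ y)}
      mul_mem' := fun ⟨γ, h⟩ ⟨γ', h'⟩ => ⟨fun y => γ' (γ y), fun x y => (h _ _).trans (h' _ _)⟩
      one_mem' := ⟨id, fun _ _ => rfl⟩
      add_mem' := fun ⟨γ, h⟩ ⟨γ', h'⟩ => ⟨fun y => γ y * γ' y, fun x y => by
        rw [h2, ← h, ← h', ← h1]; rfl⟩
      zero_mem' := ⟨fun _ => 1, fun x y => (z1 y).trans (z2 x).symm⟩
      neg_mem' := fun ⟨γ, h⟩ => ⟨fun y => (γ y)⁻¹, fun x y => by rw [n2, ← h, ← n1]; rfl⟩ }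
  have inj : ∀ α : N, ∀ x, x ≠ 0 → α.1 x = 0 → α = 0 := fun α x hx e => by
    obtain ⟨γ, h⟩ := α.2
    have g : γ b0 = 1 := k2 x hx _ _ (by rw [← h, e, z1, z2])
    refine Subtype.ext (AddMonoidHom.ext fun x' => k1 _ _ ?_)
    exact (h x' b0).trans (by rw [g, z2]; exact (z1 b0).symm)
  have : Finite (AddMonoid.End A) := DFunLike.finite (F := A →+ A)
  have : Nontrivial N := ⟨1, 0, fun e => ha (congrArg (fun α : N => α.1 a0) e)⟩
  have : NoZeroDivisors N := ⟨fun {α α'} e => by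
    by_cases e' : α'.1 a0 = 0
    · exact Or.inr (inj α' a0 ha e')
    · exact Or.inl (inj α _ e' (congrArg (fun α : N => α.1 a0) e))⟩
  have : IsDomain N := NoZeroDivisors.to_isDomain N
  obtain ⟨K, iF, iK, ⟨e⟩⟩ := Sem.toK N
  choose γ hγ using fun t : K => (e t).2
  have xa : ∀ s t, (e (s + t)).1 a0 = (e s).1 a0 + (e t).1 a0 := fun s t => by rw [map_add]; rfl
  have xi : Function.Injective fun t => (e t).1 a0 := fun s t h => by
    have : e (s - t) = 0 := inj _ a0 ha (by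
      rw [map_sub]; exact sub_eq_zero.2 h)
    exact sub_eq_zero.1 (e.injective (this.trans (map_zero e).symm))
  have xs : Function.Surjective fun t => (e t).1 a0 := fun a => by
    by_cases h : a = 0
    · exact ⟨0, by rw [h]; show (e 0).1 a0 = 0; rw [map_zero]; rfl⟩
    · obtain ⟨α, γ, e1, e2⟩ := ht a0 a ha h
      exact ⟨e.symm ⟨α, γ, e2⟩, by show (e (e.symm _)).1 a0 = a; rw [e.apply_symm_apply]; exact e1⟩
  have cK : Nat.card K = Nat.card C := (Nat.card_eq_of_bijective _ ⟨xi, xs⟩).trans c1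
  have zi : Function.Injective fun t => β ((e t).1 a0) b0 := fun s t h => xi (k1 _ _ h)
  have yi : Function.Injective fun t => γ t b0 := fun s t h => zi (by
    show β _ b0 = β _ b0
    rw [hγ, hγ]; exact congrArg _ h)
  refine ⟨K, iF, iK, fun t => (e t).1 a0, fun t => γ t b0, fun t => β ((e t).1 a0) b0, ⟨xi, xs⟩,
    yi.bijective_of_nat_card_le (c2.trans cK.symm).le, zi.bijective_of_nat_card_le cK.ge, xa,
    fun s t => k2 a0 ha _ _ (by rw [h2, ← hγ, ← hγ, ← hγ, xa, h1]), fun s t => by simp only [xa, h1],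
    by show (e 1).1 a0 = a0; rw [map_one]; rfl, k2 a0 ha _ _ (by rw [← hγ, map_one]; rfl), fun t u => ?_⟩
  show β _ (γ u b0) = β _ b0
  rw [← hγ, mul_comm t u, map_mul]
  rfl

theorem sem {G : Type*} [Group G] [Finite G] (A B C : Subgroup G)
    (hβ : ∀ a ∈ A, ∀ b ∈ B, a⁻¹ * b * a * b⁻¹ ∈ C)
    (hA : ∀ a ∈ A, ∀ c ∈ C, Commute a c) (hB : ∀ b ∈ B, ∀ c ∈ C, Commute b c)
    (hC : ∀ c ∈ C, ∀ c' ∈ C, Commute c c')
    (hn : ∀ a ∈ A, ∀ b ∈ B, Commute a b → a = 1 ∨ b = 1)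
    (c1 : Nat.card A = Nat.card C) (c2 : Nat.card B = Nat.card C)
    (ht : ∀ a ∈ A, ∀ a' ∈ A, a ≠ 1 → a' ≠ 1 → ∃ h : G, h * a * h⁻¹ = a' ∧
      (∀ g, g ∈ A ↔ h * g * h⁻¹ ∈ A) ∧ (∀ g, g ∈ B ↔ h * g * h⁻¹ ∈ B) ∧ ∀ c ∈ C, Commute h c)
    {a0 b0 : G} (ha : a0 ∈ A) (ha1 : a0 ≠ 1) (hb : b0 ∈ B) (hb1 : b0 ≠ 1) :
    ∃ (K : Type) (_ : Field K) (_ : Fintype K) (x y z : K → G),
      (∀ g, g ∈ A ↔ ∃ t, g = x t) ∧ (∀ g, g ∈ B ↔ ∃ t, g = y t) ∧ (∀ g, g ∈ C ↔ ∃ t, g = z t) ∧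
      Function.Injective x ∧ Function.Injective y ∧ Function.Injective z ∧
      (∀ s t, x (s + t) = x s * x t) ∧ (∀ s t, y (s + t) = y s * y t) ∧
      (∀ s t, z (s + t) = z s * z t) ∧ x 1 = a0 ∧ y 1 = b0 ∧
      ∀ t u, (x t)⁻¹ * y u * x t = z (t * u) * y u := by
  have m1 : ∀ a ∈ A, ∀ a' ∈ A, ∀ b ∈ B, (a * a')⁻¹ * b * (a * a') * b⁻¹ =
      a⁻¹ * b * a * b⁻¹ * (a'⁻¹ * b * a' * b⁻¹) := fun a h a' h' b hb => by
    have e := (hA _ (inv_mem h') _ (hβ a h b hb)).eq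
    calc _ = a'⁻¹ * (a⁻¹ * b * a * b⁻¹) * (b * a' * b⁻¹) := by group
      _ = _ := by rw [e]; group
  have m2 : ∀ a ∈ A, ∀ b ∈ B, ∀ b' ∈ B, a⁻¹ * (b * b') * a * (b * b')⁻¹ =
      a⁻¹ * b * a * b⁻¹ * (a⁻¹ * b' * a * b'⁻¹) := fun a h b hb b' hb' => by
    have e := (hB _ (inv_mem hb) _ (hβ a h b' hb')).eq
    calc _ = a⁻¹ * b * a * (a⁻¹ * b' * a * b'⁻¹ * b⁻¹) := by group
      _ = _ := by rw [← e]; group
  have nz : ∀ a ∈ A, ∀ b ∈ B, a⁻¹ * b * a * b⁻¹ = 1 → a = 1 ∨ b = 1 := fun a h b hb e =>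
    hn a h b hb (by
      show a * b = b * a
      calc a * b = a * (a⁻¹ * b * a * b⁻¹) * b := by rw [e, mul_one]
        _ = b * a := by group)
  have cm : ∀ a a' : A, a * a' = a' * a := fun a a' => by
    have e : ((a : G) * a')⁻¹ * b0 * (a * a') * b0⁻¹ = ((a' : G) * a)⁻¹ * b0 * (a' * a) * b0⁻¹ := by
      rw [m1 _ a.2 _ a'.2 _ hb, m1 _ a'.2 _ a.2 _ hb, (hC _ (hβ _ a.2 _ hb) _ (hβ _ a'.2 _ hb)).eq]
    have e' := (nz _ (mul_mem (mul_mem a.2 a'.2) (inv_mem (mul_mem a'.2 a.2))) _ hb (by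
      calc _ = (a' : G) * a * (((a : G) * a')⁻¹ * b0 * (a * a') * b0⁻¹) * b0 * ((a' : G) * a)⁻¹ * b0⁻¹ := by
            group
        _ = 1 := by rw [e]; group)).resolve_right hb1
    exact Subtype.ext (mul_inv_eq_one.1 e')
  let _ : CommGroup A := { A.toGroup with mul_comm := cm }
  obtain ⟨K, iF, iK, x, y, z, bx, by', bz, xa, ya, za, x1, y1, e⟩ := Sem.core (A := Additive A) (B := B) (C := C)
    (fun a b => ⟨(a.toMul : G)⁻¹ * b * (a.toMul : G) * (b : G)⁻¹, hβ _ a.toMul.2 _ b.2⟩)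
    (fun a a' b => Subtype.ext (m1 _ a.toMul.2 _ a'.toMul.2 _ b.2))
    (fun a b b' => Subtype.ext (m2 _ a.toMul.2 _ b.2 _ b'.2))
    (fun a b h => (nz _ a.toMul.2 _ b.2 (congrArg Subtype.val h)).imp (fun e => Subtype.ext e)
      fun e => Subtype.ext e) c1 c2
    (fun a a' h h' => by
      obtain ⟨g, e1, e2, e3, e4⟩ := ht _ a.toMul.2 _ a'.toMul.2 (fun e => h (Subtype.ext e))
        fun e => h' (Subtype.ext e)
      have hγ : ∀ b : B, g⁻¹ * b * g ∈ B := fun b => (e3 _).2 (by simp [mul_assoc])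
      refine ⟨AddMonoidHom.mk' (fun a => Additive.ofMul ⟨g * (a.toMul : G) * g⁻¹, (e2 _).1 a.toMul.2⟩)
        (fun a a' => Subtype.ext ?_), fun b => ⟨_, hγ b⟩, Subtype.ext e1, fun a b => Subtype.ext ?_⟩
      · show g * ((a.toMul : G) * (a'.toMul : G)) * g⁻¹ = g * (a.toMul : G) * g⁻¹ * (g * (a'.toMul : G) * g⁻¹)
        group
      · have e5 := (e4 _ (hβ _ a.toMul.2 _ (hγ b))).eq
        show (g * (a.toMul : G) * g⁻¹)⁻¹ * b * (g * (a.toMul : G) * g⁻¹) * (b : G)⁻¹ =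
          (a.toMul : G)⁻¹ * (g⁻¹ * b * g) * (a.toMul : G) * (g⁻¹ * b * g)⁻¹
        calc _ = g * ((a.toMul : G)⁻¹ * (g⁻¹ * b * g) * (a.toMul : G) * (g⁻¹ * b * g)⁻¹) * g⁻¹ := by group
          _ = _ := by rw [e5, mul_inv_cancel_right])
    (a0 := Additive.ofMul ⟨a0, ha⟩) (fun e => ha1 (congrArg Subtype.val e))
    (b0 := ⟨b0, hb⟩) (fun e => hb1 (congrArg Subtype.val e))
  refine ⟨K, iF, iK, fun t => ((x t).toMul : G), fun t => (y t : G), fun t => (z t : G),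
    fun g => ⟨fun h => ?_, fun ⟨t, h⟩ => h ▸ (x t).toMul.2⟩, fun g => ⟨fun h => ?_, fun ⟨t, h⟩ => h ▸ (y t).2⟩,
    fun g => ⟨fun h => ?_, fun ⟨t, h⟩ => h ▸ (z t).2⟩, fun s t h => bx.1 (Subtype.ext h),
    fun s t h => by'.1 (Subtype.ext h), fun s t h => bz.1 (Subtype.ext h),
    fun s t => congrArg (fun a : Additive A => (a.toMul : G)) (xa s t),
    fun s t => congrArg Subtype.val (ya s t), fun s t => congrArg Subtype.val (za s t),
    congrArg (fun a : Additive A => (a.toMul : G)) x1, congrArg Subtype.val y1,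
    fun t u => mul_inv_eq_iff_eq_mul.1 (congrArg Subtype.val (e t u))⟩
  · obtain ⟨t, e⟩ := bx.2 (Additive.ofMul ⟨g, h⟩)
    exact ⟨t, (congrArg (fun a : Additive A => (a.toMul : G)) e).symm⟩
  · obtain ⟨t, e⟩ := by'.2 ⟨g, h⟩
    exact ⟨t, (congrArg Subtype.val e).symm⟩
  · obtain ⟨t, e⟩ := bz.2 ⟨g, h⟩
    exact ⟨t, (congrArg Subtype.val e).symm⟩

end FS8
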