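import Mathlib
import Cfsg.Agent.Lib.FS8.A4
import Cfsg.Agent.Lib.FS8.Sem

set_option autoImplicit false

open scoped commutatorElement

namespace FS8

open H78.Oct H78.Oct.Co

namespace Fld

variable {G : Type*} [Group G] {K : Type*}

/-- The translates of a parametrised root group. -/
def F (ρ : G) (p : ℤ) (f : K → G) (i : ℤ) (t : K) : G :=
  if (i - p) % 2 = 0 then ρ ^ ((i - p) / 2) * f t * (ρ ^ ((i - p) / 2))⁻¹ else 1

theorem F_eq (ρ : G) {p i : ℤ} (k : ℤ) (h : i = p + 2 * k) (f : K → G) (t : K) :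
    F ρ p f i t = ρ ^ k * f t * (ρ ^ k)⁻¹ := by
  rw [F, if_pos (by omega), show (i - p) / 2 = k by omega]

theorem F_ne (ρ : G) {p i : ℤ} (h : (i - p) % 2 ≠ 0) (f : K → G) (t : K) : F ρ p f i t = 1 := if_neg h

theorem F_sh (ρ : G) (p i : ℤ) (f : K → G) (t : K) : ρ * F ρ p f i t * ρ⁻¹ = F ρ p f (i + 2) t := by
  by_cases h : (i - p) % 2 = 0
  · rw [F_eq ρ ((i - p) / 2) (by omega), F_eq ρ (1 + (i - p) / 2) (by omega)]
    group
  · rw [F_ne ρ h, F_ne ρ (by omega)]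
    group

theorem F_rf {ρ n : G} (hn : n * ρ * n⁻¹ = ρ⁻¹) {p : ℤ} (a : ℤ) {f : K → G} {t : K}
    (h : Commute n (ρ ^ a * f t * (ρ ^ a)⁻¹)) (i : ℤ) {c : ℤ} (hc : c = 2 * p + 4 * a) :
    n * F ρ p f i t * n⁻¹ = F ρ p f (c - i) t := by
  by_cases hi : (i - p) % 2 = 0
  · obtain ⟨k, hk⟩ : ∃ k, i = p + 2 * k := ⟨(i - p) / 2, by omega⟩
    have e : n * ρ ^ (k - a) * n⁻¹ = ρ ^ (a - k) := by
      rw [← conj_zpow, hn, inv_zpow', neg_sub]
    rw [F_eq ρ k hk, F_eq ρ (2 * a - k) (by omega)]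
    calc _ = (n * ρ ^ (k - a) * n⁻¹) * (n * (ρ ^ a * f t * (ρ ^ a)⁻¹) * n⁻¹) * (n * ρ ^ (k - a) * n⁻¹)⁻¹ := by
          group
      _ = _ := by rw [e, h.eq]; group
  · rw [F_ne ρ hi, F_ne ρ (by omega)]
    group

theorem F_add [Add K] (ρ : G) (p i : ℤ) {f : K → G} (h : ∀ s t, f (s + t) = f s * f t) (s t : K) :
    F ρ p f i (s + t) = F ρ p f i s * F ρ p f i t := by
  unfold F
  split_ifs
  · rw [h]; group
  · rw [mul_one]

theorem F_inj (ρ : G) {p i : ℤ} (hi : (i - p) % 2 = 0) {f : K → G} (h : Function.Injective f) :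
    Function.Injective (F ρ p f i) := fun s t e => by
  rw [F, F, if_pos hi, if_pos hi] at e
  exact h (mul_left_cancel (mul_right_cancel e))

theorem F_mem {ρ : G} {A : ℤ → Subgroup G}
    (hA : ∀ (k j : ℤ) (g : G), g ∈ A j ↔ ρ ^ k * g * (ρ ^ k)⁻¹ ∈ A (j + 2 * k)) {p i : ℤ}
    (hi : (i - p) % 2 = 0) {f : K → G} (h : ∀ g, g ∈ A p ↔ ∃ t, g = f t) (g : G) :
    g ∈ A i ↔ ∃ t, g = F ρ p f i t := by
  obtain ⟨k, hk⟩ : ∃ k, i = p + 2 * k := ⟨(i - p) / 2, by omega⟩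
  rw [hA (-k), show i + 2 * -k = p by omega, h]
  refine exists_congr fun t => ?_
  rw [F_eq ρ k hk]
  constructor
  · intro e
    rw [← e]; group
  · intro e
    rw [e]; group

theorem pow_sh {ρ : G} {A : ℤ → Subgroup G} (h : ∀ (j : ℤ) (g : G), g ∈ A j ↔ ρ * g * ρ⁻¹ ∈ A (j + 2))
    (k : ℤ) : ∀ (j : ℤ) (g : G), g ∈ A j ↔ ρ ^ k * g * (ρ ^ k)⁻¹ ∈ A (j + 2 * k) := by
  induction k using Int.induction_on with
  | zero => simp
  | succ k ih =>
    intro j g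
    rw [ih, h, show j + 2 * (k : ℤ) + 2 = j + 2 * (k + 1) by ring]
    congr! 1
    group
  | pred k ih =>
    intro j g
    rw [ih, h (j + 2 * (-k - 1)), show j + 2 * (-(k : ℤ) - 1) + 2 = j + 2 * -k by ring]
    congr! 1
    group

end Fld

open Fld W8 in
theorem exists_C1 {G : Type*} [Group G] [Finite G] {W : W8 G} (hE : W.Ev) :
    ∃ (K : Type) (_ : Field K) (_ : Fintype K), Nonempty (C1 W K) := by
  obtain ⟨u0, hu, u1⟩ := W.ne 1
  obtain ⟨a8, ha, a1⟩ := hE 8 (by decide)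
  obtain ⟨n1, m1⟩ := W.exists_M hu u1
  obtain ⟨n2, m2⟩ := W.exists_M ha.1 a1
  have s1 : n1 * n1 = 1 := m1.sq (sqU hE (by decide) hu)
  have s2 : n2 * n2 = 1 := m2.sq (sqV hE (by decide) ha)
  have i1 : n1⁻¹ = n1 := inv_eq_of_mul_eq_one_right s1
  have i2 : n2⁻¹ = n2 := inv_eq_of_mul_eq_one_right s2
  have r1 : W.Ref n1 10 := m1.ref
  have r2 : W.Ref n2 8 := m2.ref8
  have c4 : ∀ {w m c : G}, W.M 8 w m → c ∈ W.V 4 → Commute c m := fun {w m c} e hc =>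
    e.commute (hc.2 8 (by norm_num) (by norm_num) w e.mem) fun u hu =>
      hc.2 0 (by norm_num) (by norm_num) u (by rwa [← U_per 0 (j := 8 + 8) rfl])
  obtain ⟨ρ, hρ⟩ : ∃ ρ, ρ = n1 * n2 := ⟨_, rfl⟩
  have e1 : n1 = ρ * n2 := by rw [hρ, mul_assoc, s2, mul_one]
  have e2 : n2 = n1 * ρ := by rw [hρ, ← mul_assoc, s1, one_mul]
  have d1 : n1 * ρ * n1⁻¹ = ρ⁻¹ := by rw [← e2, hρ, mul_inv_rev, i2]
  have d2 : n2 * ρ * n2⁻¹ = ρ⁻¹ := by rw [i2, mul_assoc, ← e1, hρ, mul_inv_rev, i1, i2]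
  have hU := pow_sh (ρ := ρ) (A := W.U) fun j g => by
    rw [r2, r1, show 10 - (8 - j) = j + 2 by ring, hρ]
    congr! 1
    group
  have hV := pow_sh (ρ := ρ) (A := W.V) fun j g => by
    refine ⟨fun h => ?_, fun h => ?_⟩
    · have := r1.mem_V (r2.mem_V h)
      rw [show 10 - (8 - j) = j + 2 by ring] at this
      convert this using 1
      rw [hρ]; group
    · have := r2.mem_V' (r1.mem_V' h)
      rw [show 8 - (10 - (j + 2)) = j by ring] at this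
      convert this using 1
      rw [hρ]; group
  have hb : ρ⁻¹ * a8 * ρ ∈ W.V 6 := by simpa using (hV (-1) 8 a8).1 ha
  obtain ⟨K, _, _, x, y, z, mx, my, mz, ix, -, iz, ax, -, az, x0, y0, hbe⟩ :=
    sem (W.U 1) (W.V 6) (W.V 4) (a0 := u0) (b0 := ρ⁻¹ * a8 * ρ)
      (fun a ha b hb => by
        obtain ⟨c, hc, e, -⟩ := beta_up hE (i := 1) (by decide) ha hb
        rwa [e, mul_inv_cancel_right])
      (fun a ha c hc => (hc.2 1 (by norm_num) (by norm_num) a ha).symm)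
      (fun b hb c hc => hb.2 4 (by norm_num) (by norm_num) c hc.1)
      (fun c hc c' hc' => hc.2 4 (by norm_num) (by norm_num) c' hc'.1)
      (fun a ha b hb h => by
        obtain ⟨c, hc, e, n⟩ := beta_up hE (i := 1) (by decide) ha hb
        refine n (mul_eq_right.1 (e.symm.trans ?_))
        rw [mul_assoc, ← h.eq, inv_mul_cancel_left])
      (card_eq hE (by decide) (by decide))
      ((card_eq hE (i := 1) (by decide) (by decide)).symm.trans (card_eq hE (by decide) (by decide)))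
      (fun a ha a' ha' n n' => by
        obtain ⟨w, hw, m, e, h⟩ := psi_surj hE ha n (x := n2 * a' * n2⁻¹) (r2.mem ha')
          (by rwa [Ne, conj_eq_one_iff])
        have hT : W.Tor (n2⁻¹ * m) := r2.inv.mul e.ref8
        refine ⟨n2⁻¹ * m, ?_, hT 1, fun g => ⟨hT.mem_V, fun h => ?_⟩, fun c hc =>
          ((c4 m2 hc).inv_right.mul_right (c4 e hc)).symm⟩
        · calc _ = n2⁻¹ * (m * a * m⁻¹) * n2 := by group
            _ = _ := by rw [h]; group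
        · convert hT.inv.mem_V h using 1
          group)
      hu u1 hb (fun h => a1 (by simpa using (conj_eq_one_iff (a := ρ⁻¹) (b := a8)).1 (by simpa using h)))
  have zm : ∀ u, z u ∈ W.V 4 := fun u => (mz _).2 ⟨u, rfl⟩
  have z6 : ∀ u, F ρ 4 z 6 u = y u := fun u => by
    have h1 := (beta hE m1 ((my _).2 ⟨u, rfl⟩)).2
    have h2 := hbe 1 u
    rw [x0, one_mul, h1, mul_left_inj] at h2
    rw [F_eq ρ (p := 4) (i := 6) 1 rfl, zpow_one, hρ]
    calc _ = n1 * (n2 * z u) * n2⁻¹ * n1⁻¹ := by group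
      _ = _ := by rw [← (c4 m2 (zm u)).eq, ← h2]; group
  have x1 : ∀ t, F ρ 1 x 1 t = x t := fun t => by rw [F_eq ρ (p := 1) (i := 1) 0 rfl]; group
  have X1 : ∀ i t, n1 * F ρ 1 x i t * n1⁻¹ = F ρ 1 x (10 - i) t := fun i t => by
    have h5 : ρ ^ (2 : ℤ) * x t * (ρ ^ (2 : ℤ))⁻¹ ∈ W.U 5 := (hU 2 1 _).1 ((mx _).2 ⟨t, rfl⟩)
    exact F_rf d1 2 (m1.commute (codd4 hE (i := 1) (by decide) hu h5).symm
      fun u hu => codd4 hE (i := 5) (by decide) h5 hu).symm i rfl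
  have Z2 : ∀ j u, n2 * F ρ 4 z j u * n2⁻¹ = F ρ 4 z (8 - j) u := fun j u =>
    F_rf d2 0 (by simpa using (c4 m2 (zm u)).symm) j rfl
  refine ⟨K, _, inferInstance, ⟨⟨F ρ 1 x, F ρ 4 z, n1, n2, hE,
    fun i hi => F_mem hU (by obtain ⟨k, rfl⟩ := hi; omega) mx,
    fun j hj => F_mem hV (by obtain ⟨k, rfl⟩ := hj; omega) mz,
    fun i => F_add ρ 1 i ax, fun j => F_add ρ 4 j az,
    fun i hi => F_inj ρ (by obtain ⟨k, rfl⟩ := hi; omega) ix,
    fun j hj => F_inj ρ (by obtain ⟨k, rfl⟩ := hj; omega) iz,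
    by rwa [x1, x0], ?_, s1, s2, X1, fun i t => ?_, fun j u => ?_, Z2, fun t u => ?_⟩⟩⟩
  · have : F ρ 4 z 8 1 = a8 := by
      rw [show (8 : ℤ) = 6 + 2 from rfl, ← F_sh, z6, y0]
      group
    rwa [this]
  · rw [show 8 - i = 10 - (i + 2) by ring, ← X1, ← F_sh, e2]
    group
  · rw [show 10 - j = 8 - j + 2 by ring, ← F_sh, ← Z2]
    conv_lhs => rw [e1]
    group
  · rw [x1, z6, hbe, F_eq ρ (p := 4) (i := 4) 0 rfl]
    group

end FS8
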