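import Mathlib
import Cfsg.Agent.Lib.FS8.A3
import Cfsg.Agent.Lib.FS8.Lin

set_option autoImplicit false

open scoped commutatorElement

namespace FS8

open H78.Oct H78.Oct.Co

namespace Sig

variable {G : Type*} [Group G] {W : W8 G} {K : Type} [Field K] (C : C1 W K)

theorem inv_of_sq {g : G} (h : g * g = 1) : g⁻¹ = g := inv_eq_of_mul_eq_one_right h

theorem z_ne {j : ℤ} (hj : Even j) {u : K} (hu : u ≠ 0) : C.z j u ≠ 1 := fun h =>
  hu (C.zi j hj (h.trans (C.z_zero j).symm))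

theorem ne_of_M {u : K} {m : G} (e : W.M 8 (C.z 8 u) m) : u ≠ 0 := by
  rintro rfl
  exact e.ne (C.z_zero 8)

theorem exM {u : K} (hu : u ≠ 0) : ∃ m, W.M 8 (C.z 8 u) m :=
  W.exists_M (C.z_mem (j := 8) (by decide) u).1 (z_ne C (by decide) hu)

include C in
theorem two (u : K) : u + u = 0 := by
  apply C.zi 8 (by decide)
  rw [C.za, C.z_zero]
  exact W8.sqV C.ev (by decide) (C.z_mem (by decide) u)

theorem m_sq {u : K} {m : G} (e : W.M 8 (C.z 8 u) m) : m * m = 1 :=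
  e.sq (W8.sqV C.ev (by decide) (C.z_mem (by decide) u))

theorem tor_m {u : K} {m : G} (e : W.M 8 (C.z 8 u) m) : W.Tor (C.n2 * m) := C.ref2.mul e.ref8

theorem sc_m {u : K} {m : G} (e : W.M 8 (C.z 8 u) m) : ∃ w, C.Sc (C.n2 * m) w ∧ w 4 = 1 := by
  refine C.lin (tor_m C e) (by decide) fun s => Commute.mul_left ?_ (Commute.symm ?_)
  · have := C.z2 4 s
    norm_num at this
    exact mul_inv_eq_iff_eq_mul.1 this
  · have h4 := C.z_mem (j := 4) (by decide) s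
    refine e.commute (h4.2 8 (by norm_num) (by norm_num) _ e.mem) fun v hv => ?_
    rw [W8.U_per 0 (by norm_num)] at hv
    exact h4.2 0 (by norm_num) (by norm_num) _ hv

theorem conj_m {m g g' : G} (h : C.n2 * m * g * (C.n2 * m)⁻¹ = g') :
    m * g * m⁻¹ = C.n2 * g' * C.n2⁻¹ := by
  rw [← h, inv_of_sq C.s2, mul_inv_rev, inv_of_sq C.s2]
  calc m * g * m⁻¹ = (C.n2 * C.n2) * (m * g * m⁻¹) * (C.n2 * C.n2) := by rw [C.s2]; simp
    _ = _ := by group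

theorem ps_of_sc {m : G} {w : ℤ → Kˣ} (h : C.Sc (C.n2 * m) w) (t : K) :
    m * C.x 1 t * m⁻¹ = C.x 7 (w 1 * t) := by
  rw [conj_m C (h.1 1 (by decide) t), C.x2]
  norm_num

theorem exists_c : ∃ c : K → K, c 0 = 0 ∧
    ∀ u m t, W.M 8 (C.z 8 u) m → m * C.x 1 t * m⁻¹ = C.x 7 (c u * t) := by
  have : ∀ u : K, ∃ a : K, (u = 0 → a = 0) ∧
      ∀ m t, W.M 8 (C.z 8 u) m → m * C.x 1 t * m⁻¹ = C.x 7 (a * t) := by
    intro u
    by_cases hu : u = 0
    · exact ⟨0, fun _ => rfl, fun m t e => absurd hu (ne_of_M C e)⟩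
    · obtain ⟨m, e⟩ := exM C hu
      obtain ⟨w, hw, -⟩ := sc_m C e
      refine ⟨w 1, fun h => absurd h hu, fun m' t e' => ?_⟩
      rw [e'.uniq e]
      exact ps_of_sc C hw t
  choose c h0 hc using this
  exact ⟨c, h0 0 rfl, hc⟩

section

variable {C} {c : K → K} (h0 : c 0 = 0)
  (hc : ∀ u m t, W.M 8 (C.z 8 u) m → m * C.x 1 t * m⁻¹ = C.x 7 (c u * t))

include hc

theorem c_one : c 1 = 1 := by
  have h := hc 1 _ 1 C.m2
  rw [C.x2] at h
  norm_num at h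
  exact (C.xi 7 (by decide) h).symm

theorem c_w1 {u : K} {m : G} (e : W.M 8 (C.z 8 u) m) {w : ℤ → Kˣ} (h : C.Sc (C.n2 * m) w) :
    (w 1 : K) = c u := by
  have h1 := ps_of_sc C h 1
  rw [hc u m 1 e] at h1
  simpa using (C.xi 7 (by decide) h1).symm

theorem c_ne {u : K} (hu : u ≠ 0) : c u ≠ 0 := by
  obtain ⟨m, e⟩ := exM C hu
  obtain ⟨w, hw, -⟩ := sc_m C e
  rw [← c_w1 hc e hw]
  exact (w 1).ne_zero

theorem c_w7 {u : K} {m : G} (e : W.M 8 (C.z 8 u) m) {w : ℤ → Kˣ} (h : C.Sc (C.n2 * m) w) :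
    (w 7 : K) * c u = 1 := by
  have h1 := conj_m C (h.1 7 (by decide) (c u * 1))
  rw [← hc u m 1 e, C.x2] at h1
  have h2 : m * (m * C.x 1 1 * m⁻¹) * m⁻¹ = C.x 1 1 := by
    calc _ = (m * m) * C.x 1 1 * (m * m)⁻¹ := by group
      _ = _ := by rw [m_sq C e]; simp
  rw [h2] at h1
  norm_num at h1
  exact (C.xi 1 (by decide) h1).symm

theorem c_w2 {u : K} {m : G} (e : W.M 8 (C.z 8 u) m) {w : ℤ → Kˣ} (h : C.Sc (C.n2 * m) w)
    (h4 : w 4 = 1) : (w 2 : K) = c u := by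
  have h1 := (h.rel (i := 7) (by decide)).2
  norm_num at h1
  have h2 : (w 7 : K) * w 2 = 1 := by rw [← Units.val_mul, h1, h4, Units.val_one]
  exact mul_left_cancel₀ (w 7).ne_zero (h2.trans (c_w7 hc e h).symm)

theorem m_z2 {u : K} {m : G} (e : W.M 8 (C.z 8 u) m) (s : K) :
    m * C.z 2 s * m⁻¹ = C.z 6 (c u * s) := by
  obtain ⟨w, hw, h4⟩ := sc_m C e
  rw [conj_m C (hw.2 2 (by decide) s), C.z2, c_w2 hc e hw h4]
  norm_num

include h0

theorem c_add (u v : K) : c (u + v) = c u + c v := by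
  by_cases hu : u = 0
  · simp [hu, h0]
  by_cases hv : v = 0
  · simp [hv, h0]
  by_cases huv : u + v = 0
  · have : v = u := add_left_cancel (huv.trans (two C u).symm)
    rw [huv, h0, this, two C]
  obtain ⟨m, e⟩ := exM C hu
  obtain ⟨m', e'⟩ := exM C hv
  obtain ⟨m'', e''⟩ := exM C huv
  have h := W8.psi_mul C.ev e e' (C.za 8 u v ▸ e'') (C.z_mem (by decide) u) (C.z_mem (by decide) v)
    (C.x_mem (i := 1) (by decide) 1)
  rw [hc _ _ _ e, hc _ _ _ e', hc _ _ _ e'', ← C.xa] at h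
  simpa using C.xi 7 (by decide) h

theorem c_inj : Function.Injective c := fun u v h => by
  by_contra hne
  have h1 : u + v ≠ 0 := fun h2 => hne (add_left_cancel (h2.trans (two C u).symm)).symm
  exact c_ne hc h1 (by rw [c_add h0 hc, h, two C])

theorem c_tor {h : G} {w : ℤ → Kˣ} (hh : W.Tor h) (hw : C.Sc h w) (u : K) :
    c (w 8 * u) * w 1 = w 7 * c u := by
  by_cases hu : u = 0
  · simp [hu, h0]
  obtain ⟨m, e⟩ := exM C hu
  have e' := e.conj_tor hh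
  rw [hw.2 8 (by decide)] at e'
  have h1 := hc _ _ (w 1 * 1) e'
  rw [← hw.1 1 (by decide)] at h1
  have h2 : h * m * h⁻¹ * (h * C.x 1 1 * h⁻¹) * (h * m * h⁻¹)⁻¹ = h * (m * C.x 1 1 * m⁻¹) * h⁻¹ := by
    group
  rw [h2, hc u m 1 e, hw.1 7 (by decide)] at h1
  simpa using (C.xi 7 (by decide) h1).symm

theorem c_mul [Finite K] (a u : K) : c (a * u) = c a * c u := by
  by_cases ha : a = 0
  · simp [ha, h0]
  obtain ⟨v, hv⟩ := (Finite.injective_iff_surjective.1 (c_inj h0 hc)) a⁻¹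
  have hv0 : v ≠ 0 := by
    rintro rfl
    exact inv_ne_zero ha (hv.symm.trans h0)
  obtain ⟨m, e⟩ := exM C hv0
  obtain ⟨w, hw, h4⟩ := sc_m C e
  have h6 : (w 6 : K) = a := by
    have h1 := (hw.rel (i := 1) (by decide)).1
    norm_num at h1
    have h2 : (w 1 : K) * w 6 = 1 := by rw [← Units.val_mul, h1, h4, Units.val_one]
    rw [c_w1 hc e hw, hv] at h2
    exact ((inv_mul_eq_one₀ ha).1 h2).symm
  have hT := C.ref1.conj (C.ref2.conj (tor_m C e))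
  have k1 := c_tor h0 hc hT hw.conj2.conj1 u
  have k2 := c_tor h0 hc hT hw.conj2.conj1 1
  norm_num at k1 k2
  rw [h6] at k1 k2
  rw [c_one hc, mul_one] at k2
  apply mul_right_cancel₀ (w (-1)).ne_zero
  rw [k1, ← k2]
  ring

theorem e46 (s u : K) : ∃ e ∈ W.U 5, C.z 8 u * C.z 2 s * (C.z 8 u)⁻¹ =
    C.z 2 s * C.z 4 (c s * u) * e * C.z 6 (c u * s) := by
  by_cases hs : s = 0
  · exact ⟨1, one_mem _, by simp [hs, h0]⟩
  by_cases hu : u = 0
  · exact ⟨1, one_mem _, by simp [hu, h0]⟩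
  obtain ⟨m, e⟩ := exM C hu
  obtain ⟨m', e'⟩ := exM C hs
  have e2 := e'.conj_ref C.ref1
  rw [C.z1] at e2
  norm_num at e2
  obtain ⟨-, -, x, hx, h⟩ := W8.v28 e2 e (C.z_mem (by decide) s) (C.z_mem (by decide) u)
  refine ⟨x, hx, ?_⟩
  rw [h, m_z2 hc e]
  have k1 : C.n1⁻¹ * C.z 8 u * C.n1 = C.z 2 u := by
    have := C.z1 8 u
    norm_num at this
    rw [← this, inv_of_sq C.s1]
  have k2 : (C.n1 * m' * C.n1⁻¹)⁻¹ * C.z 8 u * (C.n1 * m' * C.n1⁻¹) = C.z 4 (c s * u) := by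
    calc _ = C.n1 * (m'⁻¹ * (C.n1⁻¹ * C.z 8 u * C.n1) * m'⁻¹⁻¹) * C.n1⁻¹ := by group
      _ = _ := by
        rw [k1, inv_of_sq (m_sq C e'), m_z2 hc e', C.z1]
        norm_num
  rw [k2]

theorem c_w4 {h : G} {w : ℤ → Kˣ} (hh : W.Tor h) (hw : C.Sc h w) : c (w 2) * w 8 = w 4 := by
  obtain ⟨x, hx, k⟩ := e46 h0 hc 1 1
  obtain ⟨x', hx', k'⟩ := e46 h0 hc (w 2) (w 8)
  have k1 : h * (C.z 8 1 * C.z 2 1 * (C.z 8 1)⁻¹) * h⁻¹ =
      (h * C.z 8 1 * h⁻¹) * (h * C.z 2 1 * h⁻¹) * (h * C.z 8 1 * h⁻¹)⁻¹ := by group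
  have k2 : h * (C.z 2 1 * C.z 4 (c 1 * 1) * x * C.z 6 (c 1 * 1)) * h⁻¹ =
      (h * C.z 2 1 * h⁻¹) * ((h * C.z 4 (c 1 * 1) * h⁻¹) * ((h * x * h⁻¹) *
        (h * C.z 6 (c 1 * 1) * h⁻¹))) := by group
  rw [k, k2, hw.2 8 (by decide), hw.2 2 (by decide), hw.2 4 (by decide), hw.2 6 (by decide),
    mul_one (w 8 : K), mul_one (w 2 : K), k', mul_assoc _ x', mul_assoc (C.z 2 _),
    mul_right_inj] at k1
  have m4 : ∀ t, C.z 4 t ∈ W.I 4 4 := fun t => W8.I_self.2 (C.z_mem (by decide) t).1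
  have m6 : ∀ t, C.z 6 t ∈ W.I 5 6 := fun t =>
    W8.mem_I (by norm_num) le_rfl (C.z_mem (by decide) t).1
  have := (W8.uniq (by norm_num) (by norm_num) (by norm_num) (m4 _) (m4 _)
    (mul_mem (W8.mem_I le_rfl (by norm_num) (hh.mem hx)) (m6 _))
    (mul_mem (W8.mem_I le_rfl (by norm_num) hx') (m6 _)) k1).1
  have h5 := C.zi 4 (by decide) this
  rw [c_one hc] at h5
  simpa using h5.symm

theorem c_c [Finite K] (u : K) : c (c u) = u ^ 2 := by
  by_cases hu : u = 0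
  · simp [hu, h0]
  obtain ⟨m, e⟩ := exM C hu
  obtain ⟨w, hw, h4⟩ := sc_m C e
  have k1 := c_w4 h0 hc (tor_m C e) hw
  rw [c_w2 hc e hw h4, h4, Units.val_one] at k1
  have k2 := c_tor h0 hc (tor_m C e) hw 1
  rw [mul_one, c_one hc, mul_one, c_w1 hc e hw] at k2
  have k3 : c (w 8 * u ^ 2) = c 1 := by
    rw [c_one hc, pow_two, ← mul_assoc, c_mul h0 hc, c_mul h0 hc, k2, c_w7 hc e hw]
  have k4 := c_inj h0 hc k3
  apply mul_right_cancel₀ (w 8).ne_zero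
  rw [k1, mul_comm, k4]

end

end Sig

namespace C1

variable {G : Type*} [Group G] {W : W8 G} {K : Type} [Field K] (C : C1 W K)

theorem exists_sg [Finite K] : ∃ _ : Tits K, C.Sg := by
  obtain ⟨c, h0, hc⟩ := Sig.exists_c C
  have hb : Function.Bijective c := Finite.injective_iff_bijective.1 (Sig.c_inj h0 hc)
  let s : K ≃+* K := { Equiv.ofBijective c hb with
    map_mul' := Sig.c_mul h0 hc
    map_add' := Sig.c_add h0 hc }
  letI T : Tits K := ⟨s, Sig.c_c h0 hc⟩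
  exact ⟨T, hc, Sig.e46 h0 hc⟩

end C1

end FS8
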