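import Mathlib
import Cfsg.Agent.Lib.FS8.Kc

set_option autoImplicit false

open scoped commutatorElement

namespace FS8

open H78.Oct H78.Oct.Co

namespace Ya

variable {G : Type*} [Group G] {W : W8 G} {K : Type} [Field K] (C : C1 W K)

theorem zc {j i : ℤ} (u : K) {g : G} (hg : g ∈ W.U i) (h : j % 2 = 0 ∧ j - 4 ≤ i ∧ i ≤ j + 4 := by norm_num) :
    Commute (C.z j u) g :=
  (C.z_mem (Int.even_iff.2 h.1) u).2 i h.2.1 h.2.2 g hg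

theorem xm {i : ℤ} (t : K) (h : i % 2 = 1 := by norm_num) : C.x i t ∈ W.U i := C.x_mem (Int.odd_iff.2 h) t

theorem zinv [Tits K] (j : ℤ) (u : K) : (C.z j u)⁻¹ = C.z j u :=
  inv_eq_of_mul_eq_one_right (by rw [← C.za, CharTwo.add_self_eq_zero, C.z_zero])

theorem z_ne {u : K} (hu : u ≠ 0) : C.z 8 u ≠ 1 := fun h =>
  hu (C.zi 8 (by decide) (h.trans (C.z_zero 8).symm))

theorem y_mem {x k l : G} (e : W.Mu 8 x k l) : k * x * l * l⁻¹ * (k * x * l)⁻¹ ∈ W.U 8 := by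
  have := W8.Ref.mem e.ref (inv_mem e.l_mem)
  norm_num at this ⊢
  exact this

include C in
theorem ext {y y' : G} (hy : y ∈ W.U 8) (hy' : y' ∈ W.U 8)
    (h : y * C.x 3 1 * y⁻¹ = y' * C.x 3 1 * y'⁻¹) : y = y' := by
  have hw : y'⁻¹ * y ∈ W.U 8 := mul_mem (inv_mem hy') hy
  have h1 : C.x 3 1 ≠ 1 := fun e => one_ne_zero (C.xi 3 (by decide) (e.trans (C.x_zero 3).symm))
  have hc : Commute (y'⁻¹ * y) (C.x 3 1) := by
    show y'⁻¹ * y * C.x 3 1 = C.x 3 1 * (y'⁻¹ * y)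
    calc y'⁻¹ * y * C.x 3 1 = y'⁻¹ * (y * C.x 3 1 * y⁻¹) * y := by group
      _ = _ := by rw [h]; group
  have h2 := W8.L1' (i := 3) (k := 8) (by norm_num) (W8.mem_I (by norm_num) le_rfl hw) (xm C 1) h1 hc
  have h3 : y'⁻¹ * y = 1 :=
    W8.disj (k := 8) (l := 8) (by norm_num) (by norm_num) (by norm_num) h2 (W8.I_self.2 hw)
  exact (inv_mul_eq_one.1 h3).symm

theorem z83 (u t : K) : C.z 8 u * C.x 3 t * (C.z 8 u)⁻¹ = C.x 3 t * C.z 6 (t * u) := by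
  have h := C.be_up (i := 3) (by decide) t u
  norm_num at h
  calc _ = C.x 3 t * ((C.x 3 t)⁻¹ * C.z 8 u * C.x 3 t) * (C.z 8 u)⁻¹ := by group
    _ = _ := by rw [h]; group

variable [Finite G] [Finite K] [Tits K]

theorem one (hS : C.Sg) {k l y : G} (e : W.Mu 8 (C.z 8 1) k l)
    (hy : y = k * C.z 8 1 * l * l⁻¹ * (k * C.z 8 1 * l)⁻¹) (t : K) :
    y * C.x 5 t * y⁻¹ = C.x 5 t * C.z 6 t ∧ y * C.x 3 t * y⁻¹ = C.x 3 t * C.z 4 (σ t) * C.x 5 t := by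
  have hm : y ∈ W.U 8 := hy ▸ y_mem e
  have hl : C.c2 l = y⁻¹ := by
    rw [hy, C.c2_apply, W8.M.uniq C.m2 e.M]; group
  obtain ⟨h1, h2⟩ := C.lam hS e t
  have h3 := congrArg C.c2 h1
  have h4 := congrArg C.c2 h2
  simp only [map_mul, map_inv, hl, inv_inv, C1.c2_x, C1.c2_z] at h3 h4
  norm_num at h3 h4
  have hc : Commute (C.x 3 t) (C.x 5 t) := W8.codd2 C.ev (i := 3) (by decide) (xm C t) (xm C t)
  constructor
  · calc _ = (C.z 6 t)⁻¹ * (C.z 6 t * y * C.x 5 t * y⁻¹) := by group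
      _ = (C.z 6 t)⁻¹ * (y * (C.z 6 t * C.x 5 t) * y⁻¹) := by rw [(zc C t hm).eq]; group
      _ = _ := by rw [← h4, ← (zc C t (xm C t)).eq, zinv]; group
  · rw [h3, ← (zc C (σ t) (xm C t)).eq, ← (zc C (σ t) (xm C t)).eq, mul_assoc, mul_assoc, hc.eq]

theorem gen (hS : C.Sg) {s : K} {k l y : G} (e : W.Mu 8 (C.z 8 (s * σ s)) k l)
    (hy : y = k * C.z 8 (s * σ s) * l * l⁻¹ * (k * C.z 8 (s * σ s) * l)⁻¹) (t : K) :
    y * C.x 5 t * y⁻¹ = C.x 5 t * C.z 6 (s * t) ∧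
      y * C.x 3 t * y⁻¹ = C.x 3 t * C.z 4 (s * σ t) * C.x 5 (σ s * t) := by
  obtain ⟨r, rfl⟩ := (σ (K := K)).surjective s
  have hr : r ≠ 0 := by
    rintro rfl
    exact e.ne (by simp)
  obtain ⟨h, hh, ht⟩ := C.tz hS 1 (Units.mk0 r hr)
  obtain ⟨k1, l1, e1⟩ := W.exists_Mu (C.z_mem (j := 8) (by decide) 1).1 (z_ne C one_ne_zero)
  have t8 : h * C.z 8 1 * h⁻¹ = C.z 8 (σ r * σ (σ r)) := by
    simpa [mul_comm] using (ht (y8 0 1)).2.2.2.2.2.2.2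
  have t3 : ∀ u, MulAut.conj h (C.x 3 u) = C.x 3 (r⁻¹ * u) := fun u => by simpa using (ht (x3 u)).2.2.1
  have t4 : ∀ u, MulAut.conj h (C.z 4 u) = C.z 4 u := fun u => by simpa using (ht (y4 0 u)).2.2.2.1
  have t5 : ∀ u, MulAut.conj h (C.x 5 u) = C.x 5 (r * u) := fun u => by simpa using (ht (x5 u)).2.2.2.2.1
  have t6 : ∀ u, MulAut.conj h (C.z 6 u) = C.z 6 (r * σ r * u) := fun u => by
    simpa using (ht (y6 0 u)).2.2.2.2.2.1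
  have e2 := e1.conj_tor hh
  rw [t8] at e2
  obtain ⟨rfl, rfl⟩ := e.uniq e2
  have hc : MulAut.conj h (k1 * C.z 8 1 * l1 * l1⁻¹ * (k1 * C.z 8 1 * l1)⁻¹) = y := by
    rw [hy, ← t8, MulAut.conj_apply]; group
  have h1 := congrArg (MulAut.conj h) (one C hS e1 rfl (r⁻¹ * t)).1
  have h2 := congrArg (MulAut.conj h) (one C hS e1 rfl (r * t)).2
  rw [map_mul, map_mul, map_inv, hc] at h1 h2
  simp only [map_mul, t3, t4, t5, t6] at h1 h2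
  rw [mul_inv_cancel_left₀ hr, show r * σ r * (r⁻¹ * t) = σ r * t by field_simp] at h1
  rw [inv_mul_cancel_left₀ hr, ← mul_assoc r, ← sq, ← σσ] at h2
  exact ⟨h1, h2⟩

end Ya

namespace C1

variable {G : Type*} [Group G] {W : W8 G} {K : Type} [Field K] (C : C1 W K)

theorem exists_Y [Finite G] [Finite K] [Tits K] (hS : C.Sg) : ∃ Y : K → G, Y 0 = 1 ∧
    (∀ s k l, W.Mu 8 (C.z 8 (s * σ s)) k l →
      Y s = k * C.z 8 (s * σ s) * l * l⁻¹ * (k * C.z 8 (s * σ s) * l)⁻¹) ∧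
    (∀ s, Y s ∈ W.U 8) ∧
    (∀ s t, Y s * C.x 5 t * (Y s)⁻¹ = C.x 5 t * C.z 6 (s * t)) ∧
    (∀ s t, Y s * C.x 3 t * (Y s)⁻¹ = C.x 3 t * C.z 4 (s * σ t) * C.x 5 (σ s * t)) ∧
    (∀ s s', Y s * Y s' = Y (s + s') * C.z 8 (s * σ s')) ∧
    ∀ g ∈ W.U 8, ∃ s u, g = Y s * C.z 8 u := by
  have ex : ∀ s : K, ∃ y : G, (s = 0 ∧ y = 1) ∨ (s ≠ 0 ∧ ∃ k l, W.Mu 8 (C.z 8 (s * σ s)) k l ∧
      y = k * C.z 8 (s * σ s) * l * l⁻¹ * (k * C.z 8 (s * σ s) * l)⁻¹) := fun s => by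
    by_cases hs : s = 0
    · exact ⟨1, .inl ⟨hs, rfl⟩⟩
    · obtain ⟨k, l, e⟩ := W.exists_Mu (C.z_mem (j := 8) (by decide) (s * σ s)).1
        (Ya.z_ne C fun h => hs (N_eq_zero h))
      exact ⟨_, .inr ⟨hs, k, l, e, rfl⟩⟩
  choose Y hY using ex
  have h0 : Y 0 = 1 := (hY 0).elim (fun h => h.2) fun h => absurd rfl h.1
  have h1 : ∀ s k l, W.Mu 8 (C.z 8 (s * σ s)) k l →
      Y s = k * C.z 8 (s * σ s) * l * l⁻¹ * (k * C.z 8 (s * σ s) * l)⁻¹ := fun s k l e => by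
    rcases hY s with ⟨rfl, -⟩ | ⟨-, k', l', e', h⟩
    · exact absurd (by simp) e.ne
    · obtain ⟨rfl, rfl⟩ := e.uniq e'
      exact h
  have h2 : ∀ s, Y s ∈ W.U 8 := fun s => by
    rcases hY s with ⟨-, h⟩ | ⟨-, k, l, e, h⟩ <;> rw [h]
    exacts [one_mem _, Ya.y_mem e]
  have h3 : ∀ s t, Y s * C.x 5 t * (Y s)⁻¹ = C.x 5 t * C.z 6 (s * t) ∧
      Y s * C.x 3 t * (Y s)⁻¹ = C.x 3 t * C.z 4 (s * σ t) * C.x 5 (σ s * t) := fun s t => by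
    rcases hY s with ⟨rfl, h⟩ | ⟨-, k, l, e, h⟩
    · simp [h]
    · exact Ya.gen C hS e h t
  have h4 : ∀ s s', Y s * Y s' = Y (s + s') * C.z 8 (s * σ s') := fun s s' => by
    refine Ya.ext C (mul_mem (h2 s) (h2 s')) (mul_mem (h2 _) (C.z_mem (by decide) _).1) ?_
    have a1 : Y s * C.z 4 (s' * σ 1) * (Y s)⁻¹ = C.z 4 (s' * σ 1) := by
      rw [← (Ya.zc C _ (h2 s)).eq]; group
    have a2 : Y (s + s') * C.z 6 (1 * (s * σ s')) * (Y (s + s'))⁻¹ = C.z 6 (1 * (s * σ s')) := by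
      rw [← (Ya.zc C _ (h2 _)).eq]; group
    calc _ = Y s * (Y s' * C.x 3 1 * (Y s')⁻¹) * (Y s)⁻¹ := by group
      _ = Y s * C.x 3 1 * (Y s)⁻¹ * (Y s * C.z 4 (s' * σ 1) * (Y s)⁻¹) *
          (Y s * C.x 5 (σ s' * 1) * (Y s)⁻¹) := by rw [(h3 s' 1).2]; group
      _ = Y (s + s') * C.x 3 1 * (Y (s + s'))⁻¹ *
          (Y (s + s') * C.z 6 (1 * (s * σ s')) * (Y (s + s'))⁻¹) := by
        rw [a1, a2, (h3 s _).1, (h3 s _).2, (h3 _ _).2]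
        simp only [map_one, mul_one, one_mul, map_add, C.xa, C.za, mul_assoc]
        rw [← mul_assoc (C.x 5 _) (C.z 4 _), ← (Ya.zc C s' (Ya.xm C (σ s))).eq, mul_assoc]
      _ = Y (s + s') * (C.z 8 (s * σ s') * C.x 3 1 * (C.z 8 (s * σ s'))⁻¹) * (Y (s + s'))⁻¹ := by
        rw [Ya.z83]; group
      _ = _ := by group
  refine ⟨Y, h0, h1, h2, fun s t => (h3 s t).1, fun s t => (h3 s t).2, h4, fun g hg => ?_⟩
  rcases W8.cover C.ev hg with h | ⟨a, k, l, z, e, ha, hz, rfl⟩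
  · obtain ⟨u, rfl⟩ := (C.zm 8 (by decide) g).1 h
    exact ⟨0, u, by rw [h0, one_mul]⟩
  obtain ⟨u, rfl⟩ := (C.zm 8 (by decide) z).1 hz
  have hr : W.Ref (k * a * l) 8 := by simpa using e.ref
  obtain ⟨v, hv⟩ := (C.zm 8 (by decide) _).1 (by simpa using hr.mem_V ha)
  obtain ⟨s, rfl⟩ := N_surj v
  have e' := e.conj_ref hr
  have hv' : k * a * l * a * (k * a * l)⁻¹ = C.z 8 (s * σ s) := by rw [← hv]; group
  rw [sub_zero, hv'] at e'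
  have hm := e.M.sq (W8.sqV C.ev (by decide) ha)
  have hl : Y s = l⁻¹ := by
    rw [h1 s _ _ e', ← hv']
    calc _ = (k * a * l * (k * a * l)) * l⁻¹ * (k * a * l * (k * a * l))⁻¹ := by group
      _ = _ := by rw [hm]; group
  have hs := h4 s s
  rw [CharTwo.add_self_eq_zero, h0, one_mul] at hs
  refine ⟨s, s * σ s + u, ?_⟩
  rw [C.za, ← Ya.zinv C 8 (s * σ s), ← hs, hl]
  group

end C1

end FS8
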