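import Mathlib
import Cfsg.Agent.Lib.FS8.Ya

set_option autoImplicit false

open scoped commutatorElement

namespace FS8

open H78.Oct H78.Oct.Co

namespace C1

variable {G : Type*} [Group G] {W : W8 G} {K : Type} [Field K] (C : C1 W K)

theorem Yb_sh (k : ℤ) : (∀ j y, y ∈ W.U j ↔ (C.n1 * C.n2) ^ k * y * ((C.n1 * C.n2) ^ k)⁻¹ ∈ W.U (j + 2 * k)) ∧
    ∀ j u, (C.n1 * C.n2) ^ k * C.z j u * ((C.n1 * C.n2) ^ k)⁻¹ = C.z (j + 2 * k) u := by
  have e : ∀ y, C.n1 * C.n2 * y * (C.n1 * C.n2)⁻¹ = C.n1 * (C.n2 * y * C.n2⁻¹) * C.n1⁻¹ := fun y => by group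
  have h1 : ∀ j y, y ∈ W.U j ↔ C.n1 * C.n2 * y * (C.n1 * C.n2)⁻¹ ∈ W.U (j + 2) := fun j y => by
    rw [C.ref2 j, C.ref1, e]; congr! 2; ring
  have h2 : ∀ j u, C.n1 * C.n2 * C.z j u * (C.n1 * C.n2)⁻¹ = C.z (j + 2) u := fun j u => by
    rw [e, C.z2, C.z1]; congr 1; ring
  generalize C.n1 * C.n2 = ρ at h1 h2
  induction k using Int.induction_on with
  | zero => simp
  | succ k ih =>
    have e : ∀ y, ρ ^ ((k : ℤ) + 1) * y * (ρ ^ ((k : ℤ) + 1))⁻¹ = ρ ^ (k : ℤ) * (ρ * y * ρ⁻¹) * (ρ ^ (k : ℤ))⁻¹ :=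
      fun y => by group
    exact ⟨fun j y => by rw [h1, ih.1, e]; congr! 2; ring, fun j u => by rw [e, h2, ih.2]; congr 1; ring⟩
  | pred k ih =>
    have e : ∀ y, ρ ^ (-(k : ℤ)) * y * (ρ ^ (-(k : ℤ)))⁻¹ =
        ρ * (ρ ^ (-(k : ℤ) - 1) * y * (ρ ^ (-(k : ℤ) - 1))⁻¹) * ρ⁻¹ := fun y => by group
    refine ⟨fun j y => by rw [ih.1, e, h1 (j + 2 * (-(k : ℤ) - 1))]; congr! 2; ring, fun j u => ?_⟩
    have := ih.2 j u
    rw [e, show j + 2 * -(k : ℤ) = j + 2 * (-(k : ℤ) - 1) + 2 by ring, ← h2] at this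
    simpa using this

theorem exists_C2 [Finite G] [Finite K] [Tits K] (hS : C.Sg) : Nonempty (C2 W K) := by
  classical
  obtain ⟨Y, Y0, Ym, YU, Y5, Y3, Ya, Yc⟩ := C.exists_Y hS
  have e8 : Even (8 : ℤ) := by decide
  have e6 : Even (6 : ℤ) := by decide
  have e4 : Even (4 : ℤ) := by decide
  have e2 : Even (2 : ℤ) := by decide
  have e0 : Even (0 : ℤ) := by decide
  have gU := fun k => (C.Yb_sh k).1
  have gz := fun k => (C.Yb_sh k).2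
  have n2i : C.n2⁻¹ = C.n2 := inv_eq_of_mul_eq_one_left C.s2
  have n2ρ : ∀ k : ℤ, C.n2 * (C.n1 * C.n2) ^ k * C.n2⁻¹ = (C.n1 * C.n2) ^ (-k) := fun k => by
    rw [← conj_zpow, ← mul_assoc, mul_inv_cancel_right, zpow_neg, ← inv_zpow, mul_inv_rev, n2i,
      inv_eq_of_mul_eq_one_left C.s1]
  have n1ρ : C.n1 = C.n1 * C.n2 * C.n2 := by rw [mul_assoc, C.s2, mul_one]
  generalize C.n1 * C.n2 = ρ at gU gz n2ρ n1ρ
  obtain ⟨z, hz, hz'⟩ : ∃ z : ℤ → K → G, (∀ j, Even j → z j = C.z j) ∧ ∀ j u, ¬ Even j → z j u = 1 :=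
    ⟨fun j u => if Even j then C.z j u else 1, fun j h => funext fun u => if_pos h, fun j u h => if_neg h⟩
  obtain ⟨y, hy, hy'⟩ : ∃ y : ℤ → K → K → G, (∀ k s u, y (8 + 2 * k) s u = ρ ^ k * (Y s * C.z 8 u) * (ρ ^ k)⁻¹) ∧
      ∀ j s u, ¬ Even j → y j s u = 1 :=
    ⟨fun j s u => if Even j then ρ ^ ((j - 8) / 2) * (Y s * C.z 8 u) * (ρ ^ ((j - 8) / 2))⁻¹ else 1, fun k s u => by
      beta_reduce
      rw [if_pos ⟨4 + k, by ring⟩, show (8 + 2 * k - 8) / 2 = k by omega], fun j s u h => if_neg h⟩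
  have ev : ∀ {j : ℤ}, Even j → ∃ k, j = 8 + 2 * k := fun ⟨k, hk⟩ => ⟨k - 4, by omega⟩
  have od : ∀ {j : ℤ} (c : ℤ), Even c → ¬ Even j → ¬ Even (c - j) := fun c hc h k => h (by simpa using hc.sub k)
  have y8 : ∀ s u, y 8 s u = Y s * C.z 8 u := fun s u => by simpa using hy 0 s u
  have m8 : ∀ s u, Y s * C.z 8 u ∈ W.U 8 := fun s u => mul_mem (YU s) (C.z_mem e8 u).1
  have r58 : ∀ s u t, Y s * C.z 8 u * C.x 5 t * (Y s * C.z 8 u)⁻¹ = C.x 5 t * C.z 6 (s * t) := fun s u t => by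
    rw [← Y5, mul_assoc (Y s), ((C.z_mem e8 u).2 5 (by norm_num) (by norm_num) _ (C.x_mem (by decide) t)).eq]; group
  obtain ⟨k, l, mu, en⟩ := C.m2
  have c4 : ∀ a ∈ W.U 8, C.n2 * a * C.n2⁻¹ = ρ ^ (-4 : ℤ) * a * (ρ ^ (-4 : ℤ))⁻¹ := fun a ha => by
    have := (W8.c4 C.ev mu (C.z_mem e8 1) ((gU (-2) 8 a).1 ha)).2
    rw [← en] at this
    have e := n2ρ 2
    calc _ = C.n2 * ρ ^ (2 : ℤ) * C.n2⁻¹ * (C.n2 * (ρ ^ (-2 : ℤ) * a * (ρ ^ (-2 : ℤ))⁻¹) * C.n2⁻¹) *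
          (C.n2 * ρ ^ (2 : ℤ) * C.n2⁻¹)⁻¹ := by group
      _ = _ := by rw [e, this.eq]; group
  have y2 : ∀ j s u, C.n2 * y j s u * C.n2⁻¹ = y (8 - j) s u := fun j s u => by
    by_cases h : Even j
    · obtain ⟨k, rfl⟩ := ev h
      rw [show 8 - (8 + 2 * k) = 8 + 2 * (-k - 4) by ring, hy, hy, ← conj_mul, ← conj_mul, c4 _ (m8 s u), ← conj_inv, n2ρ]
      generalize Y s * C.z 8 u = a
      group
    · rw [hy' _ _ _ h, hy' _ _ _ (od 8 e8 h)]; group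
  have T8 : ∀ h, W.Tor h → ∀ s s', h * C.z 8 (s * σ s) * h⁻¹ = C.z 8 (s' * σ s') → h * Y s * h⁻¹ = Y s' := by
    intro h hh s s' e
    by_cases s0 : s = 0
    · rw [s0, zero_mul, C.z_zero, mul_one, mul_inv_cancel, ← C.z_zero 8] at e
      rw [s0, N_eq_zero (C.zi 8 e8 e).symm, Y0, mul_one, mul_inv_cancel]
    · obtain ⟨k, l, mu⟩ := W.exists_Mu (C.z_mem e8 (s * σ s)).1 fun e =>
        s0 (N_eq_zero (C.zi 8 e8 (e.trans (C.z_zero 8).symm)))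
      rw [Ym s k l mu, Ym s' _ _ (e ▸ mu.conj_tor hh), ← e]; group
  have Tj : ∀ h, W.Tor h → ∀ j, Even j → ∀ w v : K, v = w * σ w → (∀ u, h * C.z j u * h⁻¹ = C.z j (v * u)) →
      ∀ s u, h * y j s u * h⁻¹ = y j (w * s) (v * u) := by
    intro h hh j hj w v hv e s u
    obtain ⟨k, rfl⟩ := ev hj
    have c : ∀ a, h * (ρ ^ k * a * (ρ ^ k)⁻¹) * h⁻¹ =
        ρ ^ k * ((ρ ^ k)⁻¹ * h * ρ ^ k * a * ((ρ ^ k)⁻¹ * h * ρ ^ k)⁻¹) * (ρ ^ k)⁻¹ := fun a => by group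
    have t : W.Tor ((ρ ^ k)⁻¹ * h * ρ ^ k) := fun i a => by rw [gU k, hh, c, ← gU k]
    have e' : ∀ u, (ρ ^ k)⁻¹ * h * ρ ^ k * C.z 8 u * ((ρ ^ k)⁻¹ * h * ρ ^ k)⁻¹ = C.z 8 (v * u) := fun u => by
      have := e u
      rw [← gz, ← gz, c] at this
      simpa only [mul_left_inj, mul_right_inj] using this
    rw [hy, hy, c, ← conj_mul (b := (ρ ^ k)⁻¹ * h * ρ ^ k), e', T8 _ t s (w * s) (by rw [e', hv, map_mul]; congr 1; ring)]
  refine ⟨{ x := C.x, z := z, n1 := C.n1, n2 := C.n2, ev := C.ev, xm := C.xm, xa := C.xa, xi := C.xi, m1 := C.m1,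
            s1 := C.s1, s2 := C.s2, x1 := C.x1, x2 := C.x2, y := y, y2 := y2
            zm := fun j h => hz j h ▸ C.zm j h
            zi := fun j h => hz j h ▸ C.zi j h
            m2 := hz 8 e8 ▸ C.m2
            za := fun j s t => ?_, z1 := fun j u => ?_, z2 := fun j u => ?_
            be := by simpa only [hz 4 e4, hz 6 e6] using C.be
            sg := ⟨by simpa only [hz 8 e8] using hS.ps, by simpa only [hz 2 e2, hz 4 e4, hz 6 e6, hz 8 e8] using hS.e46⟩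
            ym := fun j h g => ?_, yi := fun j h s u s' u' e => ?_, y0 := fun j u => ?_, ya := fun j s u s' u' => ?_,
            y1 := fun j s u => ?_, n2y := ?_, r58 := fun s u t => by rw [y8, hz 6 e6, r58]
            r38 := fun s u t => ?_, tr := fun c k => ?_ }⟩
  · by_cases h : Even j
    · rw [hz j h, C.za]
    · simp [hz' _ _ h]
  · by_cases h : Even j
    · rw [hz j h, hz _ (Even.sub (by decide) h), C.z1]
    · simp [hz' _ _ h, hz' _ _ (od 10 (by decide) h)]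
  · by_cases h : Even j
    · rw [hz j h, hz _ (e8.sub h), C.z2]
    · simp [hz' _ _ h, hz' _ _ (od 8 e8 h)]
  · obtain ⟨k, rfl⟩ := ev h
    refine ⟨fun hg => ?_, fun ⟨s, u, e⟩ => by rw [e, hy]; exact (gU k 8 _).1 (m8 s u)⟩
    obtain ⟨s, u, e⟩ := Yc ((ρ ^ k)⁻¹ * g * ρ ^ k) ((gU k 8 _).2 (by simpa [mul_assoc] using hg))
    exact ⟨s, u, by rw [hy, ← e]; group⟩
  · obtain ⟨k, rfl⟩ := ev h
    rw [hy, hy, mul_left_inj, mul_right_inj] at e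
    have := r58 s u 1
    rw [e, r58, mul_right_inj, mul_one, mul_one] at this
    obtain rfl := C.zi 6 e6 this
    exact ⟨rfl, C.zi 8 e8 (mul_left_cancel e)⟩
  · by_cases h : Even j
    · rw [hz j h]
      obtain ⟨k, rfl⟩ := ev h
      rw [hy, Y0, one_mul, gz]
    · rw [hy' _ _ _ h, hz' _ _ h]
  · by_cases h : Even j
    · obtain ⟨k, rfl⟩ := ev h
      rw [hy, hy, hy, conj_mul, (((C.z_mem e8 u).2 8 (by norm_num) (by norm_num) _ (YU s'))).mul_mul_mul_comm, Ya, C.za,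
        C.za, mul_assoc (Y _), mul_assoc (C.z 8 _)]
    · simp [hy' _ _ _ h]
  · have := y2 j s u
    by_cases h : Even j
    · obtain ⟨k, hk⟩ := ev (e8.sub h)
      rw [show 10 - j = 8 + 2 * (k + 1) by omega, hy, n1ρ, mul_inv_rev, mul_assoc ρ, mul_assoc ρ, ← mul_assoc _ C.n2⁻¹,
        this, hk, hy]
      generalize Y s * C.z 8 u = a
      group
    · rw [hy' _ _ _ h, hy' _ _ _ (od 10 (by decide) h)]; group
  · have := Ym 1 k l (by simpa using mu)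
    rw [map_one, mul_one, ← en] at this
    have e := C.z2 8 1
    rw [y8, C.z_zero, mul_one, hz 0 e0, this, ← sub_self (8 : ℤ), ← e]
    calc _ = C.n2 * (k * C.z 8 1 * l) * C.n2⁻¹ := by rw [← en, mul_inv_cancel_right]
      _ = _ := by rw [mu.invol (W8.sqV C.ev e8 (C.z_mem e8 1))]; group
  · have e := C.be_up (i := 3) (by decide) t u
    have c : Commute (C.z 6 (t * u)) (Y s) := (C.z_mem e6 _).2 8 (by norm_num) (by norm_num) _ (YU s)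
    norm_num at e
    rw [y8, hz 4 e4, hz 6 e6, ← Y3, mul_comm u]
    calc _ = Y s * (C.x 3 t * ((C.x 3 t)⁻¹ * C.z 8 u * C.x 3 t) * (C.z 8 u)⁻¹) * (Y s)⁻¹ := by group
      _ = Y s * C.x 3 t * (Y s)⁻¹ * (Y s * C.z 6 (t * u)) * (Y s)⁻¹ := by rw [e]; group
      _ = _ := by rw [← c.eq]; group
  · obtain ⟨h, hh, t⟩ := C.tz hS c k
    have := c.ne_zero
    have := k.ne_zero
    have := σ_ne c.ne_zero
    have := σ_ne k.ne_zero
    refine ⟨h, hh, fun a => ?_⟩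
    obtain ⟨t1, -, t3, -, t5, -, t7, -⟩ := t a
    simp only [nuF, ← conj_mul (b := h)]
    rw [t1, t3, t5, t7,
      Tj h hh 2 e2 (σ (c : K) * (k : K)⁻¹) _ (by simp only [map_mul, map_inv₀, σσ]; field_simp) fun u => (t (Co.y2 0 u)).2.1,
      Tj h hh 4 e4 c _ rfl fun u => (t (y4 0 u)).2.2.2.1, Tj h hh 6 e6 k _ rfl fun u => (t (y6 0 u)).2.2.2.2.2.1,
      Tj h hh 8 e8 (σ (k : K) * (c : K)⁻¹) _ (by simp only [map_mul, map_inv₀, σσ]; field_simp)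
        fun u => (t (Co.y8 0 u)).2.2.2.2.2.2.2]
    rfl

end C1

end FS8
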