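import Mathlib
import Cfsg.Agent.Lib.FS8.Ce
import Cfsg.Agent.Lib.FS8.Fld
import Cfsg.Agent.Lib.FS8.Sig
import Cfsg.Agent.Lib.FS8.Yb
import Cfsg.Agent.Lib.FS8.DD

set_option autoImplicit false

open scoped commutatorElement

namespace FS8

open H78.Oct H78.Oct.Co

theorem C2.homTop {G : Type*} [Group G] [Finite G] {W : W8 G} {K : Type} [Field K] [Finite K] [Tits K]
    (C : C2 W K) : C.Hom ⊤ := by
  refine col C.ν C.ν_prod ⊤ (fun _ _ _ => trivial) fun i j h a _ b _ => ?_
  by_cases hj : j = 7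
  · subst hj
    by_cases h0 : i = 0
    · subst h0
      simpa [rt] using C.r18 b.a8 b.b8 a.a1
    by_cases h1 : i = 1
    · subst h1
      simpa [rt] using C.r28y b.a8 b.b8 a.a2 a.b2
    exact C.prP i h0 a b fun e => (h1 e).elim
  · exact C.prQ i j h hj a b

theorem main_ev {G : Type*} [Group G] [Finite G] (W : W8 G) (hE : W.Ev) :
    ∃ (K : Type) (_ : Field K) (_ : Fintype K) (_ : Tits K) (nf : Co K →* G), Rng W.U nf := by
  obtain ⟨K, _, _, ⟨C⟩⟩ := exists_C1 hE
  obtain ⟨_, hS⟩ := C.exists_sg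
  obtain ⟨D⟩ := C.exists_C2 hS
  refine ⟨K, inferInstance, inferInstance, inferInstance,
    MonoidHom.mk' D.ν fun a b => D.homTop a trivial b trivial, D.ν_inj, ?_, ?_, ?_, ?_, ?_, ?_, ?_, ?_⟩
  · simpa using D.xm 1 (by decide)
  · simpa using D.ym 2 (by decide)
  · simpa using D.xm 3 (by decide)
  · simpa using D.ym 4 (by decide)
  · simpa using D.xm 5 (by decide)
  · simpa using D.ym 6 (by decide)
  · simpa using D.xm 7 (by decide)
  · simpa using D.ym 8 (by decide)

theorem main {G : Type*} [Group G] [Finite G] (W : W8 G) (hc : W.Cen) :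
    ∃ (K : Type) (_ : Field K) (_ : Fintype K) (_ : Tits K) (nf : Co K →* G),
      Rng W.U nf ∨ Rng (fun i => W.U (9 - i)) nf := by
  rcases W8.ce hc with h | h
  · obtain ⟨K, a, b, c, nf, e⟩ := main_ev W h
    exact ⟨K, a, b, c, nf, Or.inl e⟩
  · obtain ⟨K, a, b, c, nf, e⟩ := main_ev _ h
    exact ⟨K, a, b, c, nf, Or.inr e⟩

end FS8
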